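import Cfsg.Agent.Lib.TMax.Form

/-!
# Adjoint-closed subalgebras normalised by a classical group
-/

namespace Cfsg.Lib.TMax

open Module Cfsg.Lib.Unitary

set_option linter.unusedSectionVars false

variable {F V : Type*} [Field F] [AddCommGroup V] [Module F V] {σ : F →+* F} {ε : F}
  {B : V →ₛₗ[σ] V →ₗ[F] F}

/-- Rank one maps. -/
def rk (B : V →ₛₗ[σ] V →ₗ[F] F) (x y : V) : Module.End F V := (B y).smulRight x

@[simp] theorem rk_apply (x y p : V) : rk B x y p = B y p • x := rfl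

theorem rk_mul (x y x' y' : V) : rk B x y * rk B x' y' = B y x' • rk B x y' := by
  ext p; simp [smul_smul, mul_comm]

/-- An adjoint-closed subalgebra normalised by all Eichler transformations. -/
structure Alg (B : V →ₛₗ[σ] V →ₗ[F] F) (R : Subalgebra F (Module.End F V))
    (N : Subgroup (V ≃ₗ[F] V)) : Prop where
  adj : ∀ γ ∈ R, ∀ γ' : Module.End F V, (∀ x y, B (γ x) y = B x (γ' y)) → γ' ∈ R
  qe : ∀ e, B e e = 0 → QE B e ≤ N
  le : N ≤ UG B
  conj : ∀ a ∈ N, ∀ β ∈ R, a.toLinearMap * β * (a⁻¹).toLinearMap ∈ R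

theorem conj_rk {a : V ≃ₗ[F] V} (ha : a ∈ UG B) (x y : V) :
    a.toLinearMap * rk B x y * (a⁻¹).toLinearMap = rk B (a x) (a y) := by
  ext p; simp [UG_apply_left ha]

theorem smul_mem_cancel {R : Subalgebra F (Module.End F V)} {c : F} (hc : c ≠ 0)
    {β : Module.End F V} (h : c • β ∈ R) : β ∈ R := by
  simpa [hc] using R.smul_mem h c⁻¹

namespace EF

variable (h : EF σ ε B)
include h

theorem t3_of_trace {c : F} (hc0 : c ≠ 0) (hc : c + ε * σ c = 0) : T3 B := fun x y hx hy hxy =>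
  ⟨0, c / B x y, div_ne_zero hc0 hxy, map_zero _, map_zero _, by
    have := (map_ne_zero σ).2 hxy
    simp only [zero_add, map_add, map_smul, LinearMap.add_apply, LinearMap.map_smulₛₗ,
      LinearMap.smul_apply, smul_eq_mul, hx, hy, h.flip x y, map_div₀]
    field_simp
    linear_combination σ (B x y) * B x y * hc, Or.inl rfl⟩

variable [FiniteDimensional F V]

theorem exists_move (h3 : 3 ≤ finrank F V) {u x : V} (hu0 : u ≠ 0) (hu : B u u = 0)
    (hx : B u x ≠ 0) : ∃ a ∈ QE B u, a x - x ∉ F ∙ u := by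
  obtain ⟨z, hz, hz'⟩ := SetLike.not_le_iff_exists.1 (show ¬ perp B (F ∙ u) ≤ F ∙ u from fun h0 => by
    have := Submodule.finrank_mono h0
    have := h.finrank_add_finrank_perp (F ∙ u)
    have := finrank_span_singleton (K := F) hu0
    omega)
  obtain ⟨a, ha, γ, ha'⟩ := h.exists_gE' hu (mem_perp_singleton.1 hz)
  refine ⟨a, ha, fun h0 => hz' ?_⟩
  have h1 := Submodule.mem_span_singleton_self (R := F) u
  have h2 := sub_mem (add_mem (Submodule.smul_mem _ (B z x) h1)
    (Submodule.smul_mem _ (γ * B u x) h1)) h0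
  rwa [ha', show B z x • u + (γ * B u x) • u - (x + B z x • u - (ε * B u x) • z +
    (γ * B u x) • u - x) = (ε * B u x) • z by module,
    Submodule.smul_mem_iff _ (mul_ne_zero h.eps_ne hx)] at h2

theorem exists_iso_dual {u v : V} (hv : B v v = 0) (huv : B u v = 0) (h1 : v ∉ F ∙ u) :
    ∃ y, B y y = 0 ∧ B u y = 0 ∧ B v y = 1 := by
  obtain ⟨y, hy, hy'⟩ := h.exists_perp_one h1 1
  obtain ⟨f, hf, hf'⟩ := h.exists_iso_mem (W := LinearMap.ker (B u)) hv
    (h.swap_ne (hy' ▸ one_ne_zero)) huv hy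
  exact ⟨f, hf'.1, hf, hf'.2⟩

variable {R : Subalgebra F (Module.End F V)} {N : Subgroup (V ≃ₗ[F] V)} (A : Alg B R N)
include A

theorem top_of_nu (h3 : T3 B) {e : V} (he0 : e ≠ 0) (he : B e e = 0) (hν : rk B e e ∈ R)
    (β : Module.End F V) : β ∈ R := by
  have h1 : ∀ x, B x x = 0 → rk B x x ∈ R := fun x hx => by
    rcases eq_or_ne x 0 with rfl | hx0
    · convert R.zero_mem; ext; simp
    obtain ⟨a, ha, c, hc, hac⟩ := h.ptRel_of_T3 h3 A.qe he0 hx0 he hx
    have := A.conj a ha _ hν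
    rw [conj_rk (A.le ha), hac] at this
    refine smul_mem_cancel (mul_ne_zero hc ((map_ne_zero σ).2 hc)) ?_
    convert this using 1
    ext p
    simp [smul_smul, mul_assoc, mul_comm, mul_left_comm]
  obtain ⟨f, hf, hef⟩ := h.exists_hyp he0 he
  have h2 : ∀ x y, rk B x y ∈ R := fun x y => by
    refine h.span_iso (W := ⊤) trivial trivial he hf (by simp [hef])
      (S := R.toSubring.toAddSubgroup.comap (LinearMap.smulRightₗ (B y)).toAddMonoidHom)
      (fun x _ hx => ?_) trivial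
    rcases eq_or_ne x 0 with rfl | hx0
    · exact zero_mem _
    obtain ⟨x', hx', hxx⟩ := h.exists_hyp hx0 hx
    let S : AddSubgroup V := R.toSubring.toAddSubgroup.comap
      (AddMonoidHom.mk' (rk B x) fun a b => by ext; simp [add_smul])
    exact h.span_iso (W := ⊤) trivial trivial he hf (by simp [hef]) (S := S)
      (fun y _ hy => h.conn (W := ⊤) (S := S) (h1 x hx) trivial hx' (by simp [hxx])
        (fun s hs s' _ h4 h5 => smul_mem_cancel h5 (β := rk B x s') (by
          rw [← rk_mul x s s' s']; exact R.mul_mem hs (h1 s' h4)))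
        trivial hy) (v := y) trivial
  let b := Module.finBasis F V
  choose a ha using fun i => h.exists_eq (b.coord i)
  convert R.sum_mem (t := Finset.univ) fun i _ => h2 (β (b i)) (a i)
  ext p
  conv_lhs => rw [← b.sum_repr p, map_sum]
  simp [ha]

theorem adj_mem {u u' u'' : V} (hγ : rk B u u' - rk B u'' u ∈ R) : rk B u' u - rk B u u'' ∈ R :=
  smul_mem_cancel h.eps_ne (A.adj _ hγ _ fun x y => by
    simp only [LinearMap.sub_apply, LinearMap.smul_apply, rk_apply, map_sub, map_smul,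
      LinearMap.map_smulₛₗ, smul_eq_mul, h.symm]
    ring)

theorem nu_of_aniso {u u' u'' : V} (hu : B u u = 0) (h2 : B u u'' = 0) (h3 : B u'' u'' ≠ 0)
    (hγ : rk B u u' - rk B u'' u ∈ R) : rk B u u ∈ R := by
  have := R.mul_mem (h.adj_mem A hγ) hγ
  simp only [sub_mul, mul_sub, rk_mul, hu, h2, h.swap h2, zero_smul, sub_zero, zero_sub,
    neg_neg] at this
  exact smul_mem_cancel h3 this

theorem sub_conj_mem {u u' u'' : V} {a : V ≃ₗ[F] V} (ha : a ∈ N) (hau : a u = u)
    (hγ : rk B u u' - rk B u'' u ∈ R) : rk B u (a u' - u') - rk B (a u'' - u'') u ∈ R := by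
  have := R.sub_mem (A.conj a ha _ hγ) hγ
  rw [mul_sub, sub_mul, conj_rk (A.le ha), conj_rk (A.le ha), hau] at this
  convert this using 1
  ext p
  simp only [LinearMap.sub_apply, rk_apply, map_sub]
  module

theorem transv_mem {β β' : Module.End F V} (hβ : β ∈ R) (e : ∀ x y, B (β' x) y = B x (β y))
    {y : V} (hy : B y y = 0) {c : F} (hc0 : c ≠ 0) (hc : c + ε * σ c = 0) :
    rk B y (β' y) - rk B (β y) y - (c * B y (β y)) • rk B y y ∈ R := by
  obtain ⟨a, ha, ha'⟩ := h.exists_transv hy hc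
  have h1 : ∀ p, a⁻¹ p = p - (c * B y p) • y := fun p => a.symm_apply_eq.2 (by simp [ha', hy])
  refine smul_mem_cancel hc0 ?_
  convert R.sub_mem (A.conj a (A.qe y hy ha) _ hβ) hβ using 1
  ext p
  simp only [LinearMap.sub_apply, LinearMap.smul_apply, rk_apply, Module.End.mul_apply,
    LinearEquiv.coe_coe, h1, ha', map_sub, map_smul, smul_eq_mul, e]
  module

theorem nu_of_form {c : F} (hc0 : c ≠ 0) (hc : c + ε * σ c = 0) {u u' u'' : V} (hu : B u u = 0)
    (h1 : B u u' = 0) (h2 : B u u'' = 0) (h3 : u'' ∉ F ∙ u) (hγ : rk B u u' - rk B u'' u ∈ R) :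
    rk B u u ∈ R := by
  by_cases h4 : B u'' u'' = 0
  swap
  · exact h.nu_of_aniso A hu h2 h4 hγ
  obtain ⟨y, hy, h5, h6⟩ := h.exists_iso_dual h4 h2 h3
  have h7 := R.mul_mem (h.transv_mem A (h.adj_mem A hγ) (β' := ε • (rk B u u' - rk B u'' u))
    (fun x y => by
      simp only [LinearMap.sub_apply, LinearMap.smul_apply, rk_apply, map_sub, map_smul,
        LinearMap.map_smulₛₗ, smul_eq_mul, h.symm, h.map_eps]
      linear_combination (B x u' * B u y - B x u * B u'' y) * h.eps_sq) hy hc0 hc) hγ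
  refine smul_mem_cancel (c := -ε) (by simpa using h.eps_ne) ?_
  convert h7 using 1
  ext p
  simp [h5, h6, h.swap h5, hu, h2, h.flip u'' y, smul_smul, mul_comm]

/-- The symplectic and unitary cases. -/
theorem top_of_trace {e : V} (he0 : e ≠ 0) (he : B e e = 0) {c : F} (hc0 : c ≠ 0)
    (hc : c + ε * σ c = 0) (hq : (∃ c', c' ≠ 0 ∧ c' ≠ c ∧ c' + ε * σ c' = 0) ∨ 3 ≤ finrank F V)
    (hR : ¬ ∀ β ∈ R, ∃ a : F, ∀ v, β v = a • v) : ∀ β, β ∈ R := by
  have h3 := h.t3_of_trace hc0 hc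
  push Not at hR
  obtain ⟨β, hβ, hβ'⟩ := hR
  obtain ⟨u, hu, hu'⟩ : ∃ u, B u u = 0 ∧ β u ∉ F ∙ u := by
    by_contra! h0
    obtain ⟨a, ha⟩ := h.scalar_of_fix h3 he0 he h0
    exact (hβ' a).elim fun v hv => hv (ha v)
  have hu0 : u ≠ 0 := by rintro rfl; simp at hu'
  refine h.top_of_nu A h3 hu0 hu ?_
  obtain ⟨β', e⟩ := h.exists_adj β
  replace e := h.adj_symm e
  have h1 := h.transv_mem A hβ e hu hc0 hc
  by_cases hm : B u (β u) = 0
  · exact h.nu_of_form A hc0 hc hu (h.swap (by rw [e, hm])) hm hu' (by simpa [hm] using h1)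
  rcases hq with ⟨c', h2, h4, h5⟩ | hq
  · refine smul_mem_cancel (mul_ne_zero (sub_ne_zero.2 h4) hm) ?_
    convert R.sub_mem h1 (h.transv_mem A hβ e hu h2 h5) using 1
    module
  obtain ⟨a, ha, ha'⟩ := h.exists_move hq hu0 hu hm
  have h2 : ∀ x, B u (a x - x) = 0 := fun x => by
    rw [h.apply_sub ha.1, (inv_mem ha).2.1, sub_self, map_zero, LinearMap.zero_apply]
  refine h.nu_of_form A hc0 hc hu (h2 _) (h2 _) ha' (h.sub_conj_mem A (A.qe u hu ha) ha.2.1
    (u' := β' u - σ (c * B u (β u)) • u) ?_)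
  convert h1 using 1
  ext p
  simp only [LinearMap.sub_apply, LinearMap.smul_apply, rk_apply, map_sub, LinearMap.map_smulₛₗ,
    smul_eq_mul, h.invol]
  module

end EF

section Orth

variable {B : V →ₗ[F] V →ₗ[F] F} (h : EF (RingHom.id F) 1 B) (h2 : (2 : F) ≠ 0)
include h

theorem EF.comm (u v : V) : B u v = B v u := by simpa using h.symm u v

include h2

theorem EF.exists_aniso {X Y : Submodule F V} (hXY : ¬ X ≤ Y) {x x' : V} (hx : x ∈ X)
    (hx' : x' ∈ X) (hxx : B x x' ≠ 0) : ∃ z ∈ X, z ∉ Y ∧ B z z ≠ 0 := by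
  obtain ⟨z, hz, hz'⟩ : ∃ z ∈ X, B z z ≠ 0 := by
    by_contra! h0
    have := h0 _ (add_mem hx hx')
    simp only [map_add, LinearMap.add_apply, h0 x hx, h0 x' hx', h.comm x' x] at this
    exact mul_ne_zero h2 hxx (by linear_combination this)
  by_contra! h0
  have hzY : z ∈ Y := by_contra fun h1 => hz' (h0 z hz h1)
  obtain ⟨y, hy, hy'⟩ := SetLike.not_le_iff_exists.1 hXY
  have h3 := h0 _ (add_mem hy hz) fun h1 => hy' (by simpa using sub_mem h1 hzY)
  have h4 := h0 _ (sub_mem hy hz) fun h1 => hy' (by simpa using add_mem h1 hzY)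
  simp only [map_add, map_sub, LinearMap.add_apply, LinearMap.sub_apply, h0 y hy hy'] at h3 h4
  exact mul_ne_zero h2 hz' (by linear_combination h3 + h4)

variable [FiniteDimensional F V]

theorem EF.exists_aniso_perp {W Y : Submodule F V} (hW : ¬ perp B W ≤ W) (hY : ¬ perp B W ≤ Y) :
    ∃ z ∈ perp B W, z ∉ Y ∧ B z z ≠ 0 := by
  obtain ⟨x, hx, hx'⟩ := SetLike.not_le_iff_exists.1 hW
  obtain ⟨s, hs, hs'⟩ := h.exists_perp hx' 1
  exact h.exists_aniso h2 hY hs hx (by simp [hs'])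

theorem EF.t3 (h3 : 3 ≤ finrank F V) : T3 B := fun x y hx hy hxy => by
  have h1 : ¬ perp B (Submodule.span F {x, y}) ≤ ⊥ := fun h0 => by
    have := Submodule.finrank_mono h0
    have := h.finrank_add_finrank_perp (Submodule.span F {x, y})
    have := finrank_span_pair_le (F := F) x y
    rw [finrank_bot] at *
    omega
  obtain ⟨z, hz, -, hz'⟩ := h.exists_aniso_perp h2 (fun h0 => h1 fun z hz => by
    obtain ⟨a, b, rfl⟩ := Submodule.mem_span_pair.1 (h0 hz)
    rw [mem_perp_pair] at hz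
    simp_all [h.comm y x]) h1
  rw [mem_perp_pair] at hz
  refine ⟨z, -B z z / (2 * B x y), div_ne_zero (neg_ne_zero.2 hz') (mul_ne_zero h2 hxy), hz.1, hz.2,
    ?_, Or.inr h2⟩
  simp only [map_add, map_smul, LinearMap.add_apply, LinearMap.smul_apply, smul_eq_mul, hx, hy,
    hz.1, hz.2, h.swap hz.1, h.swap hz.2, h.comm y x]
  field_simp
  ring

variable {R : Subalgebra F (Module.End F V)} {N : Subgroup (V ≃ₗ[F] V)} (A : Alg B R N)
include A

theorem EF.nu_of_formO (hW : 5 ≤ finrank F V ∨ ∀ u v, u ≠ 0 → B u u = 0 → B v v = 0 → B u v = 0 →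
      v ∈ F ∙ u) {u u' u'' : V} (hu0 : u ≠ 0) (hu : B u u = 0) (h1 : B u u'' = 0) (h3 : u'' ∉ F ∙ u)
    (hγ : rk B u u' - rk B u'' u ∈ R) : rk B u u ∈ R := by
  by_cases h4 : B u'' u'' = 0
  swap
  · exact h.nu_of_aniso A hu h1 h4 hγ
  obtain ⟨y, hy, h5, h6⟩ := h.exists_iso_dual h4 h1 h3
  obtain ⟨z₀, z₁, h7, h8, h9, h10, h11⟩ :=
    h.exists_nonperp (hW.resolve_right fun h0 => h3 (h0 u u'' hu0 hu h4 h1)) y u
  obtain ⟨z, hz, -, hz'⟩ := h.exists_aniso h2 (X := perp B (Submodule.span F {y, u})) (Y := ⊥)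
    (fun h0 => h11 (by simp [show z₁ = 0 from h0 (mem_perp_pair.2 ⟨h9, h10⟩)]))
    (mem_perp_pair.2 ⟨h7, h8⟩) (mem_perp_pair.2 ⟨h9, h10⟩) h11
  rw [mem_perp_pair] at hz
  obtain ⟨a, ha, γ, ha'⟩ := h.exists_gE' hy hz.1
  refine h.nu_of_aniso A hu ?_ ?_ (h.sub_conj_mem A (A.qe y hy ha)
    (by simp [ha', h.swap hz.2, h.swap h5]) hγ)
  · simp [ha', h5, hz.2]
  · rw [ha', h.comm y u'', h6, show u'' + B z u'' • y - ((1 : F) * 1) • z + (γ * 1) • y - u'' =
      (B z u'' + γ) • y - z by module]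
    simpa [hy, hz.1, h.swap hz.1]

omit h2 in
theorem EF.conjE {β : Module.End F V} (hβ : β ∈ R) {u z : V} {γ : F} (hu : B u u = 0)
    (hz : B u z = 0) (hγ : γ + γ + B z z = 0) (t : F) :
    (1 + t • (rk B u z - rk B z u) + t ^ 2 • γ • rk B u u) * β *
      (1 - t • (rk B u z - rk B z u) + t ^ 2 • γ • rk B u u) ∈ R := by
  obtain ⟨a, ha, ha'⟩ := h.exists_gE (a := t • z) (γ := t ^ 2 * γ) hu (by simp [hz])
    (by simp only [RingHom.id_apply, map_smul, LinearMap.smul_apply, smul_eq_mul]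
        linear_combination t ^ 2 * hγ)
  convert A.conj a (A.qe u hu ha) _ hβ using 2
  · congr 1
    ext p
    simp only [LinearMap.add_apply, LinearMap.sub_apply, LinearMap.smul_apply, rk_apply,
      Module.End.one_apply, LinearEquiv.coe_coe, ha', map_smul, smul_eq_mul]
    module
  · ext p
    refine (a.symm_apply_eq.2 ?_).symm
    simp only [LinearMap.add_apply, LinearMap.sub_apply, LinearMap.smul_apply, rk_apply,
      Module.End.one_apply, ha', map_smul, map_add, map_sub, smul_eq_mul, hu, hz, h.swap hz]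
    linear_combination (norm := module) (-(t ^ 2 * B u p) * hγ) • u

/-- The orthogonal case. -/
theorem EF.top_of_orth (h3 : 3 ≤ finrank F V) {e : V} (he0 : e ≠ 0) (he : B e e = 0)
    (hW : 5 ≤ finrank F V ∨ ∀ u v, u ≠ 0 → B u u = 0 → B v v = 0 → B u v = 0 → v ∈ F ∙ u)
    (hq : 4 ≤ finrank F V ∨ ∃ t : F, t ≠ 0 ∧ t ^ 2 ≠ 1)
    (hR : ¬ ∀ β ∈ R, ∃ a : F, ∀ v, β v = a • v) : ∀ β, β ∈ R := by
  push Not at hR
  obtain ⟨β, hβ, u, hu, hm, hu'⟩ : ∃ β ∈ R, ∃ u, B u u = 0 ∧ B u (β u) = 0 ∧ β u ∉ F ∙ u := by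
    obtain ⟨β, hβ, hβ'⟩ := hR
    obtain ⟨u, hu, hu'⟩ : ∃ u, B u u = 0 ∧ β u ∉ F ∙ u := by
      by_contra! h0
      obtain ⟨a, ha⟩ := h.scalar_of_fix (h.t3 h2 h3) he0 he h0
      exact (hβ' a).elim fun v hv => hv (ha v)
    by_cases hm : B u (β u) = 0
    · exact ⟨β, hβ, u, hu, hm, hu'⟩
    obtain ⟨a, ha, ha'⟩ := h.exists_move h3 (by rintro rfl; simp at hm) hu hm
    have h1 : a⁻¹ u = u := (inv_mem ha).2.1
    refine ⟨_, R.sub_mem (A.conj a (A.qe u hu ha) _ hβ) hβ, u, hu, ?_, ?_⟩ <;>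
      simp only [LinearMap.sub_apply, Module.End.mul_apply, LinearEquiv.coe_coe, h1]
    · rw [h.apply_sub ha.1, h1, sub_self, map_zero, LinearMap.zero_apply]
    · exact ha'
  have hu0 : u ≠ 0 := by rintro rfl; simp at hu'
  refine h.top_of_nu A (h.t3 h2 h3) hu0 hu ?_
  obtain ⟨β', e⟩ := h.exists_adj β
  replace e := h.adj_symm e
  have h4 := h.finrank_add_finrank_perp (F ∙ u)
  have h5 := finrank_span_singleton (K := F) hu0
  have h6 : ¬ perp B (F ∙ u) ≤ F ∙ u := fun h0 => by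
    have := Submodule.finrank_mono h0
    omega
  have hD : ∀ z, B u z = 0 → B (β' u) z • z + (B z z / 2) • β u ∉ F ∙ u → rk B u u ∈ R :=
    fun z hz h7 => by
      have h8 : -(B z z / 2) + -(B z z / 2) + B z z = 0 := by field_simp; ring
      refine h.nu_of_formO h2 A hW hu0 hu (by simp [hz, hm]) h7
        (u' := -(B z z / 2) • β' u - B z (β u) • z + B z (β z) • u) (smul_mem_cancel h2 ?_)
      convert R.sub_mem (R.add_mem (h.conjE A hβ hu hz h8 1) (h.conjE A hβ hu hz h8 (-1)))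
        (R.add_mem hβ hβ) using 1
      ext p
      simp only [LinearMap.add_apply, LinearMap.sub_apply, LinearMap.smul_apply, rk_apply,
        Module.End.one_apply, Module.End.mul_apply, map_smul, map_add, map_sub, smul_eq_mul, hm, e]
      module
  rcases hq with hq | ⟨t, ht0, ht⟩
  · obtain ⟨z, hz, h7, h8⟩ := h.exists_aniso_perp h2 (Y := Submodule.span F {u, β u}) h6 fun h0 => by
      have := Submodule.finrank_mono h0
      have := finrank_span_pair_le (F := F) u (β u)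
      omega
    refine hD z (mem_perp_singleton.1 hz) fun h9 => ?_
    by_cases h10 : B (β' u) z = 0
    · rw [h10, zero_smul, zero_add, Submodule.smul_mem_iff _ (div_ne_zero h8 h2)] at h9
      exact hu' h9
    · refine h7 ((Submodule.smul_mem_iff _ h10).1 ?_)
      simpa using sub_mem (Submodule.span_mono (by simp) h9 : _ ∈ Submodule.span F {u, β u})
        (Submodule.smul_mem _ (B z z / 2) (Submodule.subset_span (by simp : β u ∈ {u, β u})))
  obtain ⟨z, hz, h7, h8⟩ := h.exists_aniso_perp h2 (Y := LinearMap.ker (B (β u))) h6 fun h0 =>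
    hu' (h.mem_of_perp fun s hs => h.swap (h0 hs))
  rw [mem_perp_singleton] at hz
  rw [LinearMap.mem_ker, h.comm] at h7
  by_cases h9 : B z (β u) + B (β' u) z = 0
  · refine hD z hz fun h10 => ?_
    obtain ⟨a, ha⟩ := Submodule.mem_span_singleton.1 h10
    have := congrArg (B z) ha
    simp only [map_add, map_smul, smul_eq_mul, h.swap hz] at this
    refine mul_ne_zero h7 h8 ?_
    field_simp at this
    linear_combination this + 2 * B z z * h9
  have h10 : -(B z z / 2) + -(B z z / 2) + B z z = 0 := by field_simp; ring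
  refine smul_mem_cancel (c := 2 * t * (t ^ 2 - 1) * (-(B z z / 2) * (B z (β u) + B (β' u) z)))
    (by simp [h2, ht0, h8, h9, sub_eq_zero, ht]) ?_
  convert R.sub_mem (R.sub_mem (h.conjE A hβ hu hz h10 t) (h.conjE A hβ hu hz h10 (-t)))
    (R.smul_mem (R.sub_mem (h.conjE A hβ hu hz h10 1) (h.conjE A hβ hu hz h10 (-1))) t) using 1
  ext p
  simp only [LinearMap.add_apply, LinearMap.sub_apply, LinearMap.smul_apply, rk_apply,
    Module.End.one_apply, Module.End.mul_apply, map_smul, map_add, map_sub, smul_eq_mul, hm, e]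
  module

end Orth

end Cfsg.Lib.TMax
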