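import Cfsg.Agent.Lib.TMax.Form

/-!
# Tensor decompositions of a space with a form
-/

namespace Cfsg.Lib.TMax

open Module Cfsg.Lib.Unitary
open scoped TensorProduct

set_option linter.unusedSectionVars false

variable {F V V₁ V₂ : Type*} [Field F] [AddCommGroup V] [Module F V] [AddCommGroup V₁]
  [Module F V₁] [AddCommGroup V₂] [Module F V₂] {σ : F →+* F} {ε : F}
  {B : V →ₛₗ[σ] V →ₗ[F] F} {B₁ : V₁ →ₛₗ[σ] V₁ →ₗ[F] F} {B₂ : V₂ →ₛₗ[σ] V₂ →ₗ[F] F}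

/-- `(V, B)` is the tensor product of `(V₁, B₁)` and `(V₂, B₂)`. -/
structure TStr (ε : F) (B₁ : V₁ →ₛₗ[σ] V₁ →ₗ[F] F) (B₂ : V₂ →ₛₗ[σ] V₂ →ₗ[F] F)
    (B : V →ₛₗ[σ] V →ₗ[F] F) where
  φ : V₁ ⊗[F] V₂ ≃ₗ[F] V
  tt' : ∀ v w v' w', B (φ (v ⊗ₜ w)) (φ (v' ⊗ₜ w')) = B₁ v v' * B₂ w w'
  h₁ : EF σ ε B₁
  h₂ : EF σ ε B₂
  h : EF σ 1 B

theorem exists_smul_of_forall {a : V →ₗ[F] V} (h : ∀ v, a v ∈ F ∙ v) : ∃ c : F, ∀ v, a v = c • v := by
  obtain ⟨c, hc⟩ := LinearMap.exists_eq_smul_id_of_forall_notLinearIndependent (f := a) fun v hv => by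
    obtain ⟨c, hc⟩ := Submodule.mem_span_singleton.1 (h v)
    simpa using (LinearIndependent.pair_iff.1 hv c (-1) (by simp [hc])).2
  exact ⟨c, fun v => by simp [hc]⟩

namespace TStr

variable (T : TStr ε B₁ B₂ B)

/-- Interchange the factors. -/
noncomputable def symm : TStr ε B₂ B₁ B :=
  ⟨(TensorProduct.comm F V₂ V₁).trans T.φ, fun v w v' w' => by simp [T.tt', mul_comm],
    T.h₂, T.h₁, T.h⟩

/-- Pure tensors. -/
noncomputable def t : V₁ →ₗ[F] V₂ →ₗ[F] V := (TensorProduct.mk F V₁ V₂).compr₂ T.φ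

theorem t_def (v : V₁) (w : V₂) : T.t v w = T.φ (v ⊗ₜ w) := rfl

@[simp] theorem symm_t (w : V₂) (v : V₁) : T.symm.t w v = T.t v w := rfl

theorem tt (v w v' w') : B (T.t v w) (T.t v' w') = B₁ v v' * B₂ w w' := T.tt' v w v' w'

theorem t_smul (c : F) (v : V₁) (w : V₂) : T.t (c • v) w = T.t v (c • w) := by simp

@[elab_as_elim]
theorem ind {p : V → Prop} (x : V) (h0 : p 0) (ht : ∀ v w, p (T.t v w))
    (ha : ∀ x y, p x → p y → p (x + y)) : p x := by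
  obtain ⟨x, rfl⟩ := T.φ.surjective x
  induction x with
  | zero => simpa using h0
  | tmul v w => exact ht v w
  | add x y hx hy => simpa using ha _ _ hx hy

theorem ext_t {W : Type*} [AddCommGroup W] [Module F W] {f g : V →ₗ[F] W}
    (h : ∀ v w, f (T.t v w) = g (T.t v w)) (x : V) : f x = g x :=
  T.ind x (by simp) h fun x y hx hy => by simp [hx, hy]

/-- Contraction with a vector of the second factor. -/
noncomputable def cr (s : V₂) : V →ₗ[F] V₁ :=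
  (TensorProduct.rid F V₁).toLinearMap ∘ₗ (B₂ s).lTensor V₁ ∘ₗ T.φ.symm.toLinearMap

@[simp] theorem cr_t (s : V₂) (v : V₁) (y : V₂) : T.cr s (T.t v y) = B₂ s y • v := by
  simp [cr, t_def]

@[simp] theorem symm_cr_t (u v : V₁) (y : V₂) : T.symm.cr u (T.t v y) = B₁ u v • y :=
  T.symm.cr_t u y v

theorem B_t (v : V₁) (s : V₂) (x : V) : B (T.t v s) x = B₁ v (T.cr s x) :=
  T.ext_t (f := B (T.t v s)) (g := B₁ v ∘ₗ T.cr s) (fun _ _ => by simp [T.tt, mul_comm]) x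

theorem B_t' (v : V₁) (s : V₂) (x : V) : B (T.t v s) x = B₂ s (T.symm.cr v x) := T.symm.B_t s v x

theorem cr_add (s s' : V₂) : T.cr (s + s') = T.cr s + T.cr s' :=
  LinearMap.ext (T.ext_t fun _ _ => by simp [add_smul])

theorem cr_smul (c : F) (s : V₂) : T.cr (c • s) = σ c • T.cr s :=
  LinearMap.ext (T.ext_t fun _ _ => by simp [mul_smul])

theorem cr_neg (s : V₂) : T.cr (-s) = -T.cr s := LinearMap.ext (T.ext_t fun _ _ => by simp)

theorem cr_sub (s s' : V₂) : T.cr (s - s') = T.cr s - T.cr s' := by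
  rw [sub_eq_add_neg, cr_add, cr_neg, sub_eq_add_neg]

@[simp] theorem cr_zero : T.cr 0 = 0 := LinearMap.ext (T.ext_t fun _ _ => by simp)

theorem cr_eq_zero {s : V₂} {x : V} : T.cr s x = 0 ↔ ∀ v, B (T.t v s) x = 0 :=
  ⟨fun h v => by rw [B_t, h, map_zero], fun h => T.h₁.nondeg' _ fun v => by rw [← B_t, h]⟩

theorem t_inj {w : V₂} (hw : w ≠ 0) {v v' : V₁} (e : T.t v w = T.t v' w) : v = v' := by
  obtain ⟨s, hs⟩ := T.h₂.exists_eq_one' hw
  simpa [hs] using congrArg (T.cr s) e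

theorem t_ne_zero {v : V₁} {w : V₂} (hv : v ≠ 0) (hw : w ≠ 0) : T.t v w ≠ 0 :=
  fun e => hv (T.t_inj hw (by simpa using e))

/-- The Kronecker product of two automorphisms. -/
noncomputable def kr (a : V₁ ≃ₗ[F] V₁) (b : V₂ ≃ₗ[F] V₂) : V ≃ₗ[F] V :=
  T.φ.symm.trans ((TensorProduct.congr a b).trans T.φ)

@[simp] theorem kr_t (a b) (v : V₁) (w : V₂) : T.kr a b (T.t v w) = T.t (a v) (b w) := by
  simp [kr, t_def]

theorem eq_of_t {g k : V ≃ₗ[F] V} (h : ∀ v w, g (T.t v w) = k (T.t v w)) : g = k :=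
  LinearEquiv.ext (T.ext_t (f := g.toLinearMap) (g := k.toLinearMap) h)

theorem kr_mul (a b a' b') : T.kr a b * T.kr a' b' = T.kr (a * a') (b * b') :=
  T.eq_of_t fun _ _ => by simp

@[simp] theorem kr_one : T.kr 1 1 = 1 := T.eq_of_t fun _ _ => by simp

theorem kr_inv (a b) : (T.kr a b)⁻¹ = T.kr a⁻¹ b⁻¹ :=
  inv_eq_of_mul_eq_one_right (by rw [kr_mul]; simp)

@[simp] theorem symm_kr (a b) : T.symm.kr b a = T.kr a b :=
  T.eq_of_t fun v w => (T.symm.kr_t b a w v).trans (T.kr_t a b v w).symm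

/-- The stabiliser of the tensor decomposition. -/
def kron : Subgroup (V ≃ₗ[F] V) where
  carrier := {g | ∃ a b, T.kr a b = g}
  mul_mem' := by
    rintro _ _ ⟨a, b, rfl⟩ ⟨c, d, rfl⟩
    exact ⟨_, _, (T.kr_mul _ _ _ _).symm⟩
  one_mem' := ⟨1, 1, T.kr_one⟩
  inv_mem' := by
    rintro _ ⟨a, b, rfl⟩
    exact ⟨_, _, (T.kr_inv _ _).symm⟩

theorem kr_mem (a b) : T.kr a b ∈ T.kron := ⟨a, b, rfl⟩

theorem symm_kron : T.symm.kron = T.kron := by
  ext g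
  exact ⟨fun ⟨a, b, h⟩ => ⟨b, a, by simpa using h⟩, fun ⟨a, b, h⟩ => ⟨b, a, by simpa using h⟩⟩

theorem mem_UG_of_t {g : V ≃ₗ[F] V}
    (h : ∀ v w v' w', B (g (T.t v w)) (g (T.t v' w')) = B₁ v v' * B₂ w w') : g ∈ UG B :=
  fun x y => T.ind x (by simp) (fun v w => T.ind y (by simp) (fun v' w' => by rw [h, tt])
    fun _ _ h1 h2 => by simp [h1, h2]) fun _ _ h1 h2 => by simp [h1, h2]

theorem kr_mem_UG {a b} (ha : a ∈ UG B₁) (hb : b ∈ UG B₂) : T.kr a b ∈ UG B :=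
  T.mem_UG_of_t fun _ _ _ _ => by rw [kr_t, kr_t, tt, ha, hb]

theorem cr_kr (a) {b} (hb : b ∈ UG B₂) (s : V₂) (x : V) :
    T.cr s (T.kr a b x) = a (T.cr (b⁻¹ s) x) :=
  T.ext_t (f := T.cr s ∘ₗ (T.kr a b).toLinearMap) (g := a.toLinearMap ∘ₗ T.cr (b⁻¹ s))
    (fun _ _ => by simp [UG_apply_right hb]) x

theorem exists_kr_one {a b} {c : F} (h : ∀ v, a v = c • v) [Nontrivial V₁] :
    ∃ b', T.kr a b = T.kr 1 b' := by
  obtain ⟨v, hv⟩ := exists_ne (0 : V₁)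
  have hc : c ≠ 0 := fun h0 => hv (a.injective (by simp [h, h0]))
  exact ⟨b.trans (LinearEquiv.smulOfNeZero F V₂ c hc), T.eq_of_t fun v w => by simp [h]⟩

/-- The subspace `V₁ ⊗ L`. -/
noncomputable def PS (L : Submodule F V₂) : Submodule F V :=
  LinearMap.range (T.φ.toLinearMap ∘ₗ L.subtype.lTensor V₁)

theorem t_mem_PS {L : Submodule F V₂} (v : V₁) {y : V₂} (hy : y ∈ L) : T.t v y ∈ T.PS L :=
  ⟨v ⊗ₜ ⟨y, hy⟩, rfl⟩

theorem PS_ind {L : Submodule F V₂} {p : V → Prop} {x : V} (hx : x ∈ T.PS L) (h0 : p 0)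
    (ht : ∀ v, ∀ y ∈ L, p (T.t v y)) (ha : ∀ x y, p x → p y → p (x + y)) : p x := by
  obtain ⟨x, rfl⟩ := hx
  induction x with
  | zero => simpa using h0
  | tmul v w => exact ht v w w.2
  | add x y hx hy => simpa using ha _ _ hx hy

theorem PS_le {L : Submodule F V₂} {X : Submodule F V} (h : ∀ v, ∀ y ∈ L, T.t v y ∈ X) :
    T.PS L ≤ X := fun _ hx => T.PS_ind hx (zero_mem _) h fun _ _ => add_mem

theorem PS_ext {W : Type*} [AddCommGroup W] [Module F W] {f g : V →ₗ[F] W} {L : Submodule F V₂}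
    (h : ∀ v, ∀ y ∈ L, f (T.t v y) = g (T.t v y)) {x : V} (hx : x ∈ T.PS L) : f x = g x :=
  T.PS_le (X := LinearMap.eqLocus f g) h hx

theorem PS_mono {L L' : Submodule F V₂} (h : L ≤ L') : T.PS L ≤ T.PS L' :=
  T.PS_le fun v _ hy => T.t_mem_PS v (h hy)

theorem PS_sup (L L' : Submodule F V₂) : T.PS (L ⊔ L') = T.PS L ⊔ T.PS L' :=
  le_antisymm (T.PS_le fun v y hy => by
    obtain ⟨a, ha, b, hb, rfl⟩ := Submodule.mem_sup.1 hy
    rw [map_add]
    exact Submodule.add_mem_sup (T.t_mem_PS v ha) (T.t_mem_PS v hb))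
    (sup_le (T.PS_mono le_sup_left) (T.PS_mono le_sup_right))

theorem mem_P {w : V₂} {x : V} : x ∈ T.PS (F ∙ w) ↔ ∃ v, T.t v w = x :=
  ⟨fun hx => T.PS_le (X := LinearMap.range (T.t.flip w)) (fun v y hy => by
    obtain ⟨c, rfl⟩ := Submodule.mem_span_singleton.1 hy
    exact ⟨c • v, T.t_smul c v w⟩) hx,
    by rintro ⟨v, rfl⟩; exact T.t_mem_PS v (Submodule.mem_span_singleton_self w)⟩

theorem t_mem_P (v : V₁) (w : V₂) : T.t v w ∈ T.PS (F ∙ w) := T.mem_P.2 ⟨v, rfl⟩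

theorem mem_perp_PS {L : Submodule F V₂} {x : V} :
    x ∈ perp B (T.PS L) ↔ ∀ y ∈ L, T.cr y x = 0 :=
  ⟨fun h y hy => T.cr_eq_zero.2 fun v => h _ (T.t_mem_PS v hy), fun h _ hp =>
    T.PS_ind (p := fun p => B p x = 0) hp (by simp) (fun v y hy => T.cr_eq_zero.1 (h y hy) v)
      fun _ _ h1 h2 => by simp [h1, h2]⟩

theorem mem_perp_P {w : V₂} {x : V} : x ∈ perp B (T.PS (F ∙ w)) ↔ T.cr w x = 0 := by
  rw [mem_perp_PS]
  refine ⟨fun h => h w (Submodule.mem_span_singleton_self w), fun h y hy => ?_⟩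
  obtain ⟨c, rfl⟩ := Submodule.mem_span_singleton.1 hy
  simp [cr_smul, h]

theorem map_kr_PS (a b) (L : Submodule F V₂) :
    (T.PS L).map (T.kr a b).toLinearMap = T.PS (L.map b.toLinearMap) := by
  refine le_antisymm (Submodule.map_le_iff_le_comap.2 (T.PS_le fun v y hy => ?_))
    (T.PS_le ?_)
  · simpa using T.t_mem_PS (a v) (Submodule.mem_map_of_mem (f := b.toLinearMap) hy)
  · rintro v _ ⟨y, hy, rfl⟩
    exact ⟨_, T.t_mem_PS (a⁻¹ v) hy, by simp⟩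

variable [FiniteDimensional F V₁] [FiniteDimensional F V₂] [FiniteDimensional F V]

theorem finrank_PS (L : Submodule F V₂) : finrank F (T.PS L) = finrank F V₁ * finrank F L := by
  rw [PS, LinearMap.finrank_range_of_inj, finrank_tensorProduct]
  exact T.φ.injective.comp (Module.Flat.lTensor_preserves_injective_linearMap _ L.subtype_injective)

include T in
theorem finrank_eq : finrank F V = finrank F V₁ * finrank F V₂ := by
  rw [← T.φ.finrank_eq, finrank_tensorProduct]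

theorem finrank_P {w : V₂} (hw : w ≠ 0) : finrank F (T.PS (F ∙ w)) = finrank F V₁ := by
  rw [finrank_PS, finrank_span_singleton hw, mul_one]

theorem perp_PS (L : Submodule F V₂) : perp B (T.PS L) = T.PS (perp B₂ L) := by
  refine (Submodule.eq_of_le_of_finrank_eq (T.PS_le fun v y hy => T.mem_perp_PS.2 fun z hz => by
    rw [cr_t, hy z hz, zero_smul]) ?_).symm
  have h1 := T.h.finrank_add_finrank_perp (T.PS L)
  rw [T.finrank_eq, ← T.h₂.finrank_add_finrank_perp L, finrank_PS, mul_add] at h1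
  rw [finrank_PS]
  omega

theorem mem_PS {L : Submodule F V₂} {x : V} :
    x ∈ T.PS L ↔ ∀ s ∈ perp B₂ L, T.cr s x = 0 := by
  rw [← mem_perp_PS, perp_PS, T.h₂.perp_perp]

theorem mem_P' {w : V₂} {x : V} : x ∈ T.PS (F ∙ w) ↔ ∀ s, B₂ w s = 0 → T.cr s x = 0 := by
  simp only [mem_PS, mem_perp_singleton]

theorem cr_ext {W : Type*} [AddCommGroup W] [Module F W] {f g : V →ₗ[F] W} {w : V₂}
    (h : ∀ v y, B₂ w y = 0 → f (T.t v y) = g (T.t v y)) {x : V} (hx : T.cr w x = 0) : f x = g x :=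
  T.PS_ext (fun v y hy => h v y (mem_perp_singleton.1 hy)) (T.perp_PS _ ▸ T.mem_perp_P.2 hx)

theorem PS_inf (L L' : Submodule F V₂) : T.PS (L ⊓ L') = T.PS L ⊓ T.PS L' := by
  rw [← T.h.perp_perp (_ ⊓ _), T.h.perp_inf, perp_PS, perp_PS, ← PS_sup, perp_PS, perp_sup,
    T.h₂.perp_perp, T.h₂.perp_perp]

theorem mem_of_t_mem {L : Submodule F V₂} {v : V₁} {y : V₂} (hv : v ≠ 0) (h : T.t v y ∈ T.PS L) :
    y ∈ L :=
  T.h₂.mem_of_perp fun s hs => by simpa [hv] using T.mem_PS.1 h s hs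

theorem mem_PS_of_fix {b} (hb : b ∈ UG B₂) {x : V} (hx : T.kr 1 b x = x) :
    x ∈ T.PS (LinearMap.ker (dev b)) := by
  have h1 : LinearMap.ker (dev b) = perp B₂ (LinearMap.range (dev b⁻¹)) := by
    ext y
    simp only [LinearMap.mem_ker, mem_perp, LinearMap.mem_range, forall_exists_index,
      forall_apply_eq_imp_iff, dev_apply, ← T.h₂.apply_sub hb]
    exact ⟨fun h s => by rw [h, map_zero], T.h₂.nondeg' _⟩
  rw [h1, ← perp_PS, mem_perp_PS]
  rintro _ ⟨s, rfl⟩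
  have := T.cr_kr 1 hb s x
  rw [hx] at this
  simp [cr_sub, this]

theorem kr_one_of_sub_mem {a b} {L : Submodule F V₂} {y : V₂} (hy : y ∉ L)
    (h : ∀ v, T.kr a b (T.t v y) - T.t v y ∈ T.PS L) [Nontrivial V₁] :
    ∃ b', T.kr a b = T.kr 1 b' := by
  obtain ⟨s, hs, hs'⟩ := T.h₂.exists_perp hy 1
  have h1 : ∀ v, B₂ s (b y) • a v = v := fun v => by
    simpa [hs', sub_eq_zero] using T.mem_PS.1 (h v) s hs
  obtain ⟨v, hv⟩ := exists_ne (0 : V₁)
  have h2 : B₂ s (b y) ≠ 0 := fun h0 => hv (by rw [← h1 v, h0, zero_smul])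
  exact T.exists_kr_one (c := (B₂ s (b y))⁻¹) fun v => by rw [eq_inv_smul_iff₀ h2, h1]

theorem kr_one_of_rank {a b} {X : Submodule F V} (h : ∀ x, T.kr a b x - x ∈ X)
    (hX : finrank F X < finrank F V₂) [Nontrivial V₁] : ∃ b', T.kr a b = T.kr 1 b' := by
  by_cases h1 : ∀ v, a v ∈ F ∙ v
  · obtain ⟨c, hc⟩ := exists_smul_of_forall (a := a.toLinearMap) h1
    exact T.exists_kr_one hc
  push Not at h1
  obtain ⟨v, hv⟩ := h1
  obtain ⟨u, hu, hu'⟩ := T.h₁.exists_perp_one hv 1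
  have h2 : Function.Injective (dev (T.kr a b) ∘ₗ T.t v) := by
    rw [← LinearMap.ker_eq_bot, eq_bot_iff]
    intro y hy
    simpa [hu', T.h₁.swap hu] using congrArg (T.symm.cr u) (show T.kr a b (T.t v y) - T.t v y = 0
      from hy)
  have h3 := Submodule.finrank_mono (show LinearMap.range (dev (T.kr a b) ∘ₗ T.t v) ≤ X by
    rintro _ ⟨y, rfl⟩; exact h _)
  rw [LinearMap.finrank_range_of_inj h2] at h3
  omega

omit [FiniteDimensional F V₁] [FiniteDimensional F V₂] [FiniteDimensional F V] in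
theorem mem_UG₂ {b} (h : T.kr 1 b ∈ UG B) [Nontrivial V₁] : b ∈ UG B₂ := fun y y' => by
  obtain ⟨v, hv⟩ := exists_ne (0 : V₁)
  obtain ⟨u, hu⟩ := T.h₁.exists_eq_one hv
  simpa [tt, hu] using h (T.t v y) (T.t u y')

end TStr

end Cfsg.Lib.TMax
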