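import Cfsg.Agent.Lib.Unitary.MaxCore

/-!
# `ε`-Hermitian trace-valued forms (symplectic, orthogonal in odd characteristic, unitary)
-/

namespace Cfsg.Lib.TMax

open Module Cfsg.Lib.Unitary

set_option linter.unusedSectionVars false

variable {F V : Type*} [Field F] [AddCommGroup V] [Module F V] {σ : F →+* F} {ε : F}
  {B : V →ₛₗ[σ] V →ₗ[F] F}

/-- A non-degenerate trace-valued `ε`-Hermitian form. -/
structure EF (σ : F →+* F) (ε : F) (B : V →ₛₗ[σ] V →ₗ[F] F) : Prop where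
  invol : ∀ a, σ (σ a) = a
  eps : ε = 1 ∨ ε = -1
  symm : ∀ u v, σ (B u v) = ε * B v u
  nondeg : ∀ a, (∀ v, B a v = 0) → a = 0
  tv : ∀ s, ∃ γ, B s s = γ + ε * σ γ

/-- Every subspace of dimension at least three contains an isotropic point. -/
def Iso3 (B : V →ₛₗ[σ] V →ₗ[F] F) : Prop :=
  ∀ W : Submodule F V, 3 ≤ finrank F W → ∃ w ∈ W, w ≠ 0 ∧ B w w = 0

/-- A third isotropic point in general position exists. -/
def T3 (B : V →ₛₗ[σ] V →ₗ[F] F) : Prop :=
  ∀ x y, B x x = 0 → B y y = 0 → B x y ≠ 0 → ∃ z, ∃ γ : F, γ ≠ 0 ∧ B x z = 0 ∧ B y z = 0 ∧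
    B (z + (x + γ • y)) (z + (x + γ • y)) = 0 ∧ (z = 0 ∨ (2 : F) ≠ 0)

theorem mem_perp_pair {u v x : V} :
    x ∈ perp B (Submodule.span F {u, v}) ↔ B u x = 0 ∧ B v x = 0 := by
  rw [mem_perp_span]; simp

theorem exists_two_ne {f g : V →ₗ[F] F} {x y : V} (hx : f x ≠ 0) (hy : g y ≠ 0) :
    ∃ v, f v ≠ 0 ∧ g v ≠ 0 := by
  by_cases h1 : g x = 0
  · by_cases h2 : f y = 0
    · exact ⟨x + y, by simpa [h2], by simpa [h1]⟩
    · exact ⟨y, h2, hy⟩
  · exact ⟨x, hx, h1⟩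

namespace EF

variable (h : EF σ ε B)
include h

theorem eps_sq : ε * ε = 1 := by rcases h.eps with rfl | rfl <;> simp

theorem map_eps : σ ε = ε := by rcases h.eps with rfl | rfl <;> simp

theorem eps_ne : ε ≠ 0 := left_ne_zero_of_mul_eq_one h.eps_sq

theorem flip (u v : V) : B v u = ε * σ (B u v) := by rw [h.symm, ← mul_assoc, h.eps_sq, one_mul]

theorem comm0 {u v : V} : B u v = 0 ↔ B v u = 0 :=
  ⟨fun e => by rw [h.flip, e, map_zero, mul_zero], fun e => by rw [h.flip, e, map_zero, mul_zero]⟩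

theorem swap {u v : V} (e : B u v = 0) : B v u = 0 := h.comm0.1 e

theorem swap_ne {u v : V} (e : B u v ≠ 0) : B v u ≠ 0 := fun e' => e (h.swap e')

theorem surj : Function.Surjective σ := fun a => ⟨σ a, h.invol a⟩

theorem isRefl : B.IsRefl := fun _ _ => h.swap

theorem nondeg' (a : V) (ha : ∀ v, B v a = 0) : a = 0 := h.nondeg a fun v => h.swap (ha v)

theorem ext' {a b : V} (e : ∀ v, B v a = B v b) : a = b :=
  sub_eq_zero.1 (h.nondeg' _ fun v => by rw [map_sub, e, sub_self])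

theorem exists_ne_zero {u : V} (hu : u ≠ 0) : ∃ v, B u v ≠ 0 := by
  by_contra! hc
  exact hu (h.nondeg u hc)

theorem exists_eq_one {u : V} (hu : u ≠ 0) : ∃ v, B u v = 1 := by
  obtain ⟨v, hv⟩ := h.exists_ne_zero hu
  exact ⟨(B u v)⁻¹ • v, by simp [hv]⟩

theorem exists_smul_eq {u v : V} (huv : B v u ≠ 0) (c : F) : ∃ a : F, B (a • v) u = c :=
  ⟨σ (c / B v u), by simp [h.invol, huv]⟩

theorem exists_eq_one' {u : V} (hu : u ≠ 0) : ∃ v, B v u = 1 := by
  obtain ⟨v, hv⟩ := h.exists_ne_zero hu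
  obtain ⟨a, ha⟩ := h.exists_smul_eq (h.swap_ne hv) 1
  exact ⟨_, ha⟩

theorem exists_iso_add {e v : V} (he : B e e = 0) (hv : B e v ≠ 0) :
    ∃ γ : F, B (v + γ • e) (v + γ • e) = 0 := by
  obtain ⟨γ, hγ⟩ := h.tv v
  have h1 := h.swap_ne hv
  refine ⟨-γ / B v e, ?_⟩
  simp only [map_add, map_smul, LinearMap.add_apply, LinearMap.map_smulₛₗ, LinearMap.smul_apply,
    smul_eq_mul, he, hγ, map_div₀, map_neg, h.symm]
  have := h.eps_ne
  field_simp
  linear_combination B e v * σ γ * B v e * h.eps_sq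

theorem exists_iso_mem {W : Submodule F V} {e v : V} (he : B e e = 0) (hv : B e v ≠ 0)
    (heW : e ∈ W) (hvW : v ∈ W) : ∃ f ∈ W, B f f = 0 ∧ B e f = 1 := by
  obtain ⟨γ, hγ⟩ := h.exists_iso_add he hv
  refine ⟨(B e v)⁻¹ • (v + γ • e), W.smul_mem _ (add_mem hvW (W.smul_mem _ heW)), ?_, ?_⟩
  · rw [LinearMap.map_smulₛₗ, LinearMap.map_smulₛₗ, LinearMap.smul_apply, hγ, smul_zero, smul_zero]
  · simp [he, hv]

theorem exists_hyp {e : V} (he0 : e ≠ 0) (he : B e e = 0) : ∃ f, B f f = 0 ∧ B e f = 1 := by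
  obtain ⟨v, hv⟩ := h.exists_ne_zero he0
  obtain ⟨f, -, hf⟩ := h.exists_iso_mem (W := ⊤) he hv trivial trivial
  exact ⟨f, hf⟩

/-- Eichler transformations. -/
theorem exists_gE {e a : V} {γ : F} (he : B e e = 0) (ha : B e a = 0)
    (hγ : γ + ε * σ γ + ε * B a a = 0) :
    ∃ g ∈ QE B e, ∀ x, g x = x + B a x • e - (ε * B e x) • a + (γ * B e x) • e := by
  have ha' := h.swap ha
  let g : V ≃ₗ[F] V := LinearEquiv.transvection (f := B e) (v := γ • e - ε • a) (by simp [he, ha]) *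
    LinearEquiv.transvection (f := B a) (v := e) ha'
  have hg : ∀ x, g x = x + B a x • e - (ε * B e x) • a + (γ * B e x) • e := fun x => by
    simp only [g, LinearEquiv.mul_apply, LinearEquiv.transvection.apply, map_add, map_smul, he]
    module
  refine ⟨g, ⟨fun x y => ?_, by simp [hg, he, ha'], fun v hv => ⟨B a v, by simp [hg, hv]⟩⟩, hg⟩
  simp only [hg, map_add, map_sub, map_smul, LinearMap.add_apply, LinearMap.sub_apply,
    LinearMap.map_smulₛₗ, LinearMap.smul_apply, smul_eq_mul, he, ha, ha', map_mul, h.symm,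
    h.map_eps]
  linear_combination B x e * B e y * hγ + (ε * B x e * B e y * B a a - B x e * B a y) * h.eps_sq

theorem exists_gE' {e a : V} (he : B e e = 0) (ha : B e a = 0) :
    ∃ g ∈ QE B e, ∃ γ, ∀ x, g x = x + B a x • e - (ε * B e x) • a + (γ * B e x) • e := by
  obtain ⟨γ, hγ⟩ := h.tv a
  obtain ⟨g, hg, hg'⟩ := h.exists_gE (γ := -(ε * γ)) he ha (by
    rw [hγ, map_neg, map_mul, h.map_eps]; ring)
  exact ⟨g, hg, _, hg'⟩

theorem exists_E {e a : V} (he : B e e = 0) (ha : B e a = 0) :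
    ∃ g ∈ QE B e, ∀ x, B e x = 0 → g x = x + B a x • e := by
  obtain ⟨g, hg, γ, hg'⟩ := h.exists_gE' he ha
  exact ⟨g, hg, fun x hx => by simp [hg', hx]⟩

theorem exists_transv {e : V} {c : F} (he : B e e = 0) (hc : c + ε * σ c = 0) :
    ∃ g ∈ QE B e, ∀ x, g x = x + (c * B e x) • e := by
  obtain ⟨g, hg, hg'⟩ := h.exists_gE (a := 0) he (map_zero _) (by simpa using hc)
  exact ⟨g, hg, fun x => by simp [hg']⟩

theorem siegel {e x y : V} (he : B e e = 0) (hx : B e x = 1) (hy : B e y = 1)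
    (hxy : B x x = B y y) : ∃ g ∈ QE B e, g x = y := by
  obtain ⟨g, hg, hg'⟩ := h.exists_gE (a := ε • (x - y)) (γ := -(ε * B (x - y) x)) he
    (by simp [hx, hy]) (by
      simp only [map_neg, map_mul, map_sub, map_smul, LinearMap.sub_apply, LinearMap.map_smulₛₗ,
        LinearMap.smul_apply, smul_eq_mul, h.symm, h.map_eps, hxy]
      linear_combination (ε * (B y y - B x y - B y x + B y y) - ε * (B y y - B x y)) * h.eps_sq)
  refine ⟨g, hg, ?_⟩
  rw [hg', hx, LinearMap.map_smulₛₗ, h.map_eps, smul_smul, mul_one, h.eps_sq]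
  simp

theorem ptRel_of_common {N : Subgroup (V ≃ₗ[F] V)} (hN : ∀ e, B e e = 0 → QE B e ≤ N) {e x y : V}
    (he : B e e = 0) (hx : B x x = 0) (hy : B y y = 0) (hex : B e x ≠ 0) (hey : B e y ≠ 0) :
    PtRel N x y := by
  obtain ⟨g, hg, hg'⟩ := h.siegel (x := (B e x)⁻¹ • x) (y := (B e y)⁻¹ • y) he (by simp [hex])
    (by simp [hey]) (by simp [hx, hy])
  refine ⟨g, hN e he hg, B e x / B e y, div_ne_zero hex hey, ?_⟩
  rw [map_smul, inv_smul_eq_iff₀ hex, smul_smul] at hg'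
  rw [hg', div_eq_mul_inv]

theorem exists_common {x y : V} (hx0 : x ≠ 0) (hy0 : y ≠ 0) (hx : B x x = 0) (hxy : B y x = 0) :
    ∃ e, B e e = 0 ∧ B e x ≠ 0 ∧ B e y ≠ 0 := by
  obtain ⟨u, hu⟩ := h.exists_ne_zero hx0
  obtain ⟨u', hu'⟩ := h.exists_ne_zero hy0
  obtain ⟨v, h1, h2⟩ := exists_two_ne hu hu'
  obtain ⟨γ, hγ⟩ := h.exists_iso_add hx h1
  exact ⟨_, hγ, h.swap_ne (by simpa [hx]), h.swap_ne (by simpa [hxy])⟩

theorem exists_common' (h3 : T3 B) {x y : V} (hx0 : x ≠ 0) (hy0 : y ≠ 0) (hx : B x x = 0)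
    (hy : B y y = 0) : ∃ e, B e e = 0 ∧ B e x ≠ 0 ∧ B e y ≠ 0 := by
  by_cases hxy : B x y = 0
  · exact h.exists_common hx0 hy0 hx (h.swap hxy)
  obtain ⟨z, γ, hγ, h1, h2, h4, -⟩ := h3 x y hx hy hxy
  exact ⟨_, h4, h.swap_ne (by simp [h1, hx, hγ, hxy]),
    h.swap_ne (by simpa [h2, hy] using h.swap_ne hxy)⟩

theorem ptRel_of_T3 (h3 : T3 B) {N : Subgroup (V ≃ₗ[F] V)} (hN : ∀ e, B e e = 0 → QE B e ≤ N)
    {x y : V} (hx0 : x ≠ 0) (hy0 : y ≠ 0) (hx : B x x = 0) (hy : B y y = 0) : PtRel N x y := by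
  obtain ⟨e, he, h1, h2⟩ := h.exists_common' h3 hx0 hy0 hx hy
  exact h.ptRel_of_common hN he hx hy h1 h2

/-- Isotropic vectors generate additively. -/
theorem span_iso {W : Submodule F V} {e f : V} (heW : e ∈ W) (hfW : f ∈ W) (he : B e e = 0)
    (hf : B f f = 0) (hef : B e f ≠ 0) {S : AddSubgroup V}
    (hS : ∀ v ∈ W, B v v = 0 → v ∈ S) {v : V} (hv : v ∈ W) : v ∈ S := by
  have h1 : ∀ v ∈ W, B e v ≠ 0 → v ∈ S := fun v hv h0 => by
    obtain ⟨γ, hγ⟩ := h.exists_iso_add he h0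
    simpa using sub_mem (hS _ (add_mem hv (W.smul_mem γ heW)) hγ)
      (hS _ (W.smul_mem γ heW) (by simp [he]))
  by_cases h0 : B e v = 0
  · simpa using sub_mem (h1 _ (add_mem hv hfW) (by simpa [h0])) (hS f hfW hf)
  · exact h1 v hv h0

theorem exists_iso_ne {W : Submodule F V} {e f : V} (heW : e ∈ W) (hfW : f ∈ W) (he : B e e = 0)
    (hf : B f f = 0) (hef : B e f ≠ 0) {l : V →ₗ[F] F} {v : V} (hv : v ∈ W) (hl : l v ≠ 0) :
    ∃ s ∈ W, B s s = 0 ∧ l s ≠ 0 := by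
  by_contra! hc
  exact hl (h.span_iso heW hfW he hf hef (S := (LinearMap.ker l).toAddSubgroup) hc hv)

theorem conn {W : Submodule F V} {S : AddSubgroup V} {s₀ s₁ : V} (h0 : s₀ ∈ S) (h1 : s₁ ∈ W)
    (h1' : B s₁ s₁ = 0) (h01 : B s₀ s₁ ≠ 0)
    (hS : ∀ s ∈ S, ∀ s' ∈ W, B s' s' = 0 → B s s' ≠ 0 → s' ∈ S) {s : V} (hs : s ∈ W)
    (hs' : B s s = 0) : s ∈ S := by
  have h2 := hS _ h0 _ h1 h1' h01
  by_contra hc
  have h3 : B s₀ s = 0 := by_contra fun h3 => hc (hS _ h0 _ hs hs' h3)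
  have h4 : B s₁ s = 0 := by_contra fun h4 => hc (hS _ h2 _ hs hs' h4)
  simpa [hc] using sub_mem (hS _ h0 _ (add_mem hs h1) (by simp [h1', hs', h4, h.swap h4])
    (by simpa [h3])) h2

/-- An endomorphism fixing all isotropic points is a scalar. -/
theorem scalar_of_fix (h3 : T3 B) {e : V} (he0 : e ≠ 0) (he : B e e = 0) {β : Module.End F V}
    (hβ : ∀ u, B u u = 0 → β u ∈ F ∙ u) : ∃ c : F, ∀ x, β x = c • x := by
  have h1 : ∀ x y, B x x = 0 → B y y = 0 → B x y ≠ 0 → ∀ c : F, β x = c • x → β y = c • y :=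
    fun x y hx hy hxy c hc => by
      obtain ⟨z, γ, hγ, h1, h2, h4, h5⟩ := h3 x y hx hy hxy
      obtain ⟨μ, hμ⟩ := Submodule.mem_span_singleton.1 (hβ y hy)
      obtain ⟨a, ha⟩ := Submodule.mem_span_singleton.1 (hβ _ h4)
      obtain ⟨b, hb⟩ := Submodule.mem_span_singleton.1 (hβ (-z + (x + γ • y)) (by
        simpa [h1, h2, h.swap h1, h.swap h2] using h4))
      have h6 := h.swap_ne hxy
      simp only [map_add, map_neg, map_smul, hc, ← hμ] at ha hb
      have h7 := congrArg (B x) ha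
      have h8 := congrArg (B y) ha
      have h9 := congrArg (B x) hb
      have h10 := congrArg (B y) hb
      simp only [map_add, map_neg, map_smul, smul_eq_mul, hx, hy, h1, h2] at h7 h8 h9 h10
      rw [← hμ]
      congr 1
      rcases h5 with rfl | h5
      · simp only [map_zero] at h7 h8
        exact mul_right_cancel₀ (mul_ne_zero (mul_ne_zero hγ hxy) h6)
          (by linear_combination γ * B x y * h8 - B y x * h7)
      · exact mul_right_cancel₀ (mul_ne_zero h5 (mul_ne_zero (mul_ne_zero hγ hxy) h6))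
          (by linear_combination γ * B x y * (h8 + h10) - B y x * (h7 + h9))
  obtain ⟨c, hc⟩ := Submodule.mem_span_singleton.1 (hβ e he)
  obtain ⟨f, hf, hef⟩ := h.exists_hyp he0 he
  refine ⟨c, fun x => sub_eq_zero.1 (h.span_iso (W := ⊤) trivial trivial he hf (by simp [hef])
    (S := (LinearMap.ker (β - c • 1)).toAddSubgroup) (fun v _ hv => ?_) trivial)⟩
  rcases eq_or_ne v 0 with rfl | hv0
  · exact zero_mem _
  obtain ⟨e', he', h4, h5⟩ := h.exists_common' h3 he0 hv0 he hv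
  exact sub_eq_zero.2 (h1 _ _ he' hv h5 _ (h1 _ _ he he' (h.swap_ne h4) _ hc.symm))

theorem apply_sub {g : V ≃ₗ[F] V} (hg : g ∈ UG B) (p x : V) :
    B p (g x - x) = B (g⁻¹ p - p) x := by
  rw [map_sub, map_sub, UG_apply_right hg, LinearMap.sub_apply]

variable [FiniteDimensional F V]

theorem exists_eq (f : V →ₗ[F] F) : ∃ a, B a = f :=
  Forms.exists_eq_of_separating h.surj B h.nondeg f

theorem exists_apply_eq {ι : Type*} {x : ι → V} (hx : LinearIndependent F x) (c : ι → F) :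
    ∃ y, ∀ i, B (x i) y = c i := by
  obtain ⟨f, hf⟩ := ((Module.Basis.span hx).constr F (fun i => ε * σ (c i))).exists_extend
  obtain ⟨a, rfl⟩ := h.exists_eq f
  refine ⟨a, fun i => ?_⟩
  have := LinearMap.congr_fun hf (Module.Basis.span hx i)
  rw [Module.Basis.constr_basis, LinearMap.comp_apply, Submodule.subtype_apply,
    Module.Basis.coe_span_apply] at this
  rw [h.flip, this, map_mul, h.invol, h.map_eps, ← mul_assoc, h.eps_sq, one_mul]

theorem finrank_add_finrank_perp (W : Submodule F V) :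
    finrank F W + finrank F (perp B W) = finrank F V := by
  let b := Module.finBasis F W
  let φ : V →ₗ[F] (Fin (finrank F W) → F) := LinearMap.pi fun i => B (b i)
  have hs : LinearMap.range φ = ⊤ := by
    rw [LinearMap.range_eq_top]
    intro c
    obtain ⟨y, hy⟩ := h.exists_apply_eq (b.linearIndependent.map' _ (Submodule.ker_subtype W)) c
    exact ⟨y, funext hy⟩
  have hk : LinearMap.ker φ = perp B W := by
    ext v
    have hW : W = Submodule.span F (Set.range (W.subtype ∘ b)) := by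
      rw [Set.range_comp, ← Submodule.map_span, b.span_eq, Submodule.map_subtype_top]
    conv_rhs => rw [hW, mem_perp_span]
    simp [φ, funext_iff]
  have := LinearMap.finrank_range_add_finrank_ker φ
  rw [hs, hk] at this
  simpa using this

theorem perp_perp (W : Submodule F V) : perp B (perp B W) = W := by
  refine (Submodule.eq_of_le_of_finrank_eq (show W ≤ perp B (perp B W) from
    Submodule.le_orthogonalBilin_orthogonalBilin h.isRefl) ?_).symm
  have h1 := h.finrank_add_finrank_perp W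
  have h2 := h.finrank_add_finrank_perp (perp B W)
  omega

theorem mem_of_perp {W : Submodule F V} {x : V} (hx : ∀ s ∈ perp B W, B s x = 0) : x ∈ W := by
  rw [← h.perp_perp W]; exact hx

theorem perp_inf (W W' : Submodule F V) : perp B (W ⊓ W') = perp B W ⊔ perp B W' := by
  rw [← h.perp_perp (_ ⊔ _), perp_sup, h.perp_perp, h.perp_perp]

theorem exists_perp {W : Submodule F V} {x : V} (hx : x ∉ W) (c : F) :
    ∃ s ∈ perp B W, B s x = c := by
  obtain ⟨s, hs, hs'⟩ : ∃ s ∈ perp B W, B s x ≠ 0 := by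
    by_contra! hc
    exact hx (h.mem_of_perp hc)
  obtain ⟨a, ha⟩ := h.exists_smul_eq hs' c
  exact ⟨_, Submodule.smul_mem _ a hs, ha⟩

theorem exists_perp_one {w x : V} (hx : x ∉ F ∙ w) (c : F) : ∃ s, B w s = 0 ∧ B s x = c := by
  simpa only [mem_perp_singleton] using h.exists_perp hx c

theorem sub_mem_of_fix {W : Submodule F V} {g : V ≃ₗ[F] V} (hg : g ∈ UG B)
    (hW : ∀ x ∈ perp B W, g x = x) (v : V) : g v - v ∈ W :=
  h.mem_of_perp fun s hs => by
    rw [h.apply_sub hg, show g⁻¹ s = s from g.symm_apply_eq.2 (hW s hs).symm, sub_self, map_zero,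
      LinearMap.zero_apply]

/-- Adjoints exist. -/
theorem exists_adj (β : Module.End F V) :
    ∃ β' : Module.End F V, ∀ x y, B (β x) y = B x (β' y) := by
  choose a ha using fun y => h.exists_eq (B y ∘ₗ β)
  have h1 : ∀ x y, B (β x) y = B x (a y) := fun x y => by
    rw [h.flip, h.flip _ x, ha]; rfl
  exact ⟨⟨⟨a, fun y z => h.ext' fun v => by rw [map_add, ← h1, ← h1, ← h1, map_add]⟩,
    fun c y => h.ext' fun v => by rw [RingHom.id_apply, map_smul, ← h1, ← h1, map_smul]⟩, h1⟩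

omit [FiniteDimensional F V] in
theorem adj_symm {β β' : Module.End F V} (e : ∀ x y, B (β x) y = B x (β' y)) (x y : V) :
    B (β' x) y = B x (β y) := by rw [h.flip, ← e, ← h.flip]

theorem exists_nonperp (hn : 5 ≤ finrank F V) (w s : V) :
    ∃ z z', B w z = 0 ∧ B s z = 0 ∧ B w z' = 0 ∧ B s z' = 0 ∧ B z z' ≠ 0 := by
  by_contra! hc
  have h1 : perp B (Submodule.span F {w, s}) ≤ Submodule.span F {w, s} := fun x hx =>
    h.mem_of_perp fun y hy => by
      rw [mem_perp_pair] at hx hy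
      exact hc y x hy.1 hy.2 hx.1 hx.2
  have := Submodule.finrank_mono h1
  have := h.finrank_add_finrank_perp (Submodule.span F {w, s})
  have := finrank_span_pair_le (F := F) w s
  omega

variable (hI : Iso3 B) (hn : 5 ≤ finrank F V)
include hI hn

theorem exists_iso_perp (x y : V) : ∃ s, s ≠ 0 ∧ B s s = 0 ∧ B x s = 0 ∧ B y s = 0 := by
  obtain ⟨s, hs, hs'⟩ := hI (perp B (Submodule.span F {x, y})) (by
    have := h.finrank_add_finrank_perp (Submodule.span F {x, y})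
    have := finrank_span_pair_le (F := F) x y
    omega)
  exact ⟨s, hs'.1, hs'.2, mem_perp_pair.1 hs⟩

theorem exists_line {w : V} (hw0 : w ≠ 0) : ∃ s, B s s = 0 ∧ B w s = 0 ∧ s ∉ F ∙ w := by
  obtain ⟨y, hy⟩ := h.exists_eq_one' hw0
  obtain ⟨s, h0, h1, h2, h3⟩ := h.exists_iso_perp hI hn w y
  refine ⟨s, h1, h2, fun h4 => ?_⟩
  obtain ⟨c, rfl⟩ := Submodule.mem_span_singleton.1 h4
  simp_all

theorem exists_hyp_perp {w : V} (hw0 : w ≠ 0) :
    ∃ e f, B w e = 0 ∧ B w f = 0 ∧ B e e = 0 ∧ B f f = 0 ∧ B e f ≠ 0 := by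
  obtain ⟨s, h1, h2, h3⟩ := h.exists_line hI hn hw0
  obtain ⟨y, hy, hy'⟩ := h.exists_perp_one h3 1
  obtain ⟨f, hf, hf'⟩ := h.exists_iso_mem (W := LinearMap.ker (B w)) h1
    (h.swap_ne (hy' ▸ one_ne_zero)) h2 hy
  exact ⟨s, f, h2, hf, h1, hf'.1, by simp [hf'.2]⟩

theorem span_iso_perp {w : V} (hw0 : w ≠ 0) {S : AddSubgroup V}
    (hS : ∀ v, B w v = 0 → B v v = 0 → v ∈ S) {v : V} (hv : B w v = 0) : v ∈ S := by
  obtain ⟨e, f, h1, h2, h3, h4, h5⟩ := h.exists_hyp_perp hI hn hw0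
  exact h.span_iso (W := LinearMap.ker (B w)) h1 h2 h3 h4 h5 hS hv

theorem ptRel {N : Subgroup (V ≃ₗ[F] V)} (hN : ∀ e, B e e = 0 → QE B e ≤ N)
    {x y : V} (hx0 : x ≠ 0) (hy0 : y ≠ 0) (hx : B x x = 0) (hy : B y y = 0) : PtRel N x y := by
  obtain ⟨s, h0, h1, h2, h3⟩ := h.exists_iso_perp hI hn x y
  obtain ⟨e, he, h4, h5⟩ := h.exists_common h0 hx0 h1 h2
  obtain ⟨e', he', h6, h7⟩ := h.exists_common h0 hy0 h1 h3
  exact (h.ptRel_of_common hN he hx h1 h5 h4).trans (h.ptRel_of_common hN he' h1 hy h6 h7)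

end EF

end Cfsg.Lib.TMax
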