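import Cfsg.Agent.Lib.TMax.StdO

/-!
# Overgroups of unitary tensor product groups with a four-dimensional factor: the ring
-/

namespace Cfsg.Lib.TMax

open Module Cfsg.Lib.Unitary

set_option linter.unusedSectionVars false

variable {F V V₁ V₂ : Type*} [Field F] [AddCommGroup V] [Module F V] [AddCommGroup V₁]
  [Module F V₁] [AddCommGroup V₂] [Module F V₂] {σ : F →+* F} {q : ℕ}
  {B : V →ₛₗ[σ] V →ₗ[F] F} {B₁ : V₁ →ₛₗ[σ] V₁ →ₗ[F] F} {B₂ : V₂ →ₛₗ[σ] V₂ →ₗ[F] F}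

namespace EF

variable (h : EF σ 1 B) (hσ : IsBar q σ) [FiniteDimensional F V]
include h hσ

theorem iso2_herm (W : Submodule F V) (hW : 2 ≤ finrank F W) : ∃ w ∈ W, w ≠ 0 ∧ B w w = 0 := by
  have := hσ.finite
  by_cases hd : Disjoint W (perp B W)
  · obtain ⟨v, h0, hv⟩ := ((h.isHerm hσ).restrict hd).exists_isotropic hW
    exact ⟨v, v.2, by simpa using h0, hv⟩
  · obtain ⟨v, hv, h0⟩ := Submodule.exists_mem_ne_zero_of_ne_bot (mt disjoint_iff.2 hd)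
    exact ⟨v, hv.1, h0, hv.2 v hv.1⟩

variable (hn : 4 ≤ finrank F V)
include hn

theorem exists_iso_perp4 (x y : V) : ∃ s, s ≠ 0 ∧ B s s = 0 ∧ B x s = 0 ∧ B y s = 0 := by
  obtain ⟨s, hs, hs'⟩ := h.iso2_herm hσ (perp B (Submodule.span F {x, y})) (by
    have := h.finrank_add_finrank_perp (Submodule.span F {x, y})
    have := finrank_span_pair_le (F := F) x y
    omega)
  exact ⟨s, hs'.1, hs'.2, mem_perp_pair.1 hs⟩

theorem exists_line4 {w : V} (hw0 : w ≠ 0) : ∃ s, B s s = 0 ∧ B w s = 0 ∧ s ∉ F ∙ w := by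
  obtain ⟨y, hy⟩ := h.exists_eq_one' hw0
  obtain ⟨s, h0, h1, h2, h3⟩ := h.exists_iso_perp4 hσ hn w y
  refine ⟨s, h1, h2, fun h4 => ?_⟩
  obtain ⟨c, rfl⟩ := Submodule.mem_span_singleton.1 h4
  simp_all

theorem exists_hyp_perp4 {w : V} (hw0 : w ≠ 0) :
    ∃ e f, B w e = 0 ∧ B w f = 0 ∧ B e e = 0 ∧ B f f = 0 ∧ B e f ≠ 0 := by
  obtain ⟨s, h1, h2, h3⟩ := h.exists_line4 hσ hn hw0
  obtain ⟨y, hy, hy'⟩ := h.exists_perp_one h3 1
  obtain ⟨f, hf, hf'⟩ := h.exists_iso_mem (W := LinearMap.ker (B w)) h1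
    (h.swap_ne (hy' ▸ one_ne_zero)) h2 hy
  exact ⟨s, f, h2, hf, h1, hf'.1, by simp [hf'.2]⟩

theorem span_iso_perp4 {w : V} (hw0 : w ≠ 0) {S : AddSubgroup V}
    (hS : ∀ v, B w v = 0 → B v v = 0 → v ∈ S) {v : V} (hv : B w v = 0) : v ∈ S := by
  obtain ⟨e, f, h1, h2, h3, h4, h5⟩ := h.exists_hyp_perp4 hσ hn hw0
  exact h.span_iso (W := LinearMap.ker (B w)) h1 h2 h3 h4 h5 hS hv

theorem ptRel4 {N : Subgroup (V ≃ₗ[F] V)} (hN : ∀ e, B e e = 0 → QE B e ≤ N)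
    {x y : V} (hx0 : x ≠ 0) (hy0 : y ≠ 0) (hx : B x x = 0) (hy : B y y = 0) : PtRel N x y := by
  obtain ⟨s, h0, h1, h2, h3⟩ := h.exists_iso_perp4 hσ hn x y
  obtain ⟨e, he, h4, h5⟩ := h.exists_common h0 hx0 h1 h2
  obtain ⟨e', he', h6, h7⟩ := h.exists_common h0 hy0 h1 h3
  exact (h.ptRel_of_common hN he hx h1 h5 h4).trans (h.ptRel_of_common hN he' h1 hy h6 h7)

end EF

/-- `K` is a group of isometries containing the tensor product group (unitary case, second factor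
of dimension at least four). -/
structure Ctx4 (q : ℕ) (T : TStr 1 B₁ B₂ B) (K : Subgroup (V ≃ₗ[F] V)) : Prop where
  le : K ≤ UG B
  unip : ∀ w, B₂ w w = 0 → ∀ z ∈ K, ∀ a b, T.kr a b ∈ UG B →
    (∀ v, z (T.t v w) = T.kr a b (T.t v w)) →
    (∀ x, T.cr w x = 0 → z x - T.kr a b x ∈ T.PS (F ∙ w)) → (∃ c : F, b w = c • w) → T.kr a b ∈ K
  e₁ : ∀ u, B₁ u u = 0 → ∀ a ∈ QE B₁ u, T.kr a 1 ∈ K
  bar : IsBar q σ
  four : 4 ≤ finrank F V₂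

namespace TStr

variable {T : TStr 1 B₁ B₂ B} {K : Subgroup (V ≃ₗ[F] V)}

theorem IsB.add4 {β γ : Module.End F V₁} (hβ : T.IsB K β) (hγ : T.IsB K γ) : T.IsB K (β + γ) :=
  fun w hw s hs => by rw [LinearMap.add_comp]; exact add_mem (hβ w hw s hs) (hγ w hw s hs)

theorem IsB.smul4 {β : Module.End F V₁} (hβ : T.IsB K β) (a : F) : T.IsB K (a • β) :=
  fun w hw s hs => by
    convert hβ w hw (σ a • s) (by simp [hs]) using 1
    ext x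
    simp [T.cr_smul, T.h₂.invol]

end TStr

namespace Ctx4

variable {T : TStr 1 B₁ B₂ B} {K : Subgroup (V ≃ₗ[F] V)} (c : Ctx4 q T K)
include c

theorem cr_eq_zero {w w' : V₂} {k : V ≃ₗ[F] V} (hk : k ∈ K) {A : V₁ → V₁}
    (hA : ∀ v, k (T.t v w) = T.t (A v) w') {x : V} (hx : T.cr w' x = 0) : T.cr w (k⁻¹ x) = 0 :=
  T.cr_eq_zero.2 fun v => by rw [← UG_apply_left (c.le hk), hA, T.B_t, hx, map_zero]

theorem conj_mem {w w' : V₂} {hw : B₂ w w = 0} (hw' : B₂ w' w' = 0) {k : V ≃ₗ[F] V} (hk : k ∈ K)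
    {A : V₁ ≃ₗ[F] V₁} (hA : ∀ v, k (T.t v w) = T.t (A v) w') {α : V →ₗ[F] V₁}
    (h : α ∈ T.uA K hw) : A.toLinearMap ∘ₗ α ∘ₗ (k⁻¹).toLinearMap ∈ T.uA K hw' := by
  obtain ⟨h1, y, hy, hy'⟩ := h
  refine ⟨fun v => ?_, k * y * k⁻¹, mul_mem (mul_mem hk hy) (inv_mem hk), fun x hx => ?_⟩
  · obtain ⟨v, rfl⟩ := A.surjective v
    simp [← hA, h1]
  · rw [LinearEquiv.mul_apply, LinearEquiv.mul_apply, hy' _ (c.cr_eq_zero hk hA hx), map_add, hA]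
    simp

theorem comp_mem {w : V₂} {hw : B₂ w w = 0} {k : V ≃ₗ[F] V} (hk : k ∈ K)
    (hA : ∀ v, k (T.t v w) = T.t v w) {α : V →ₗ[F] V₁} (h : α ∈ T.uA K hw) :
    α ∘ₗ dev k ∈ T.uA K hw := by
  have := sub_mem (c.conj_mem hw (inv_mem hk) (A := 1)
    (fun v => k.symm_apply_eq.2 (hA v).symm) h) h
  convert this using 1
  ext x
  simp

variable [FiniteDimensional F V₁] [FiniteDimensional F V₂] [FiniteDimensional F V]

theorem e₂ {w : V₂} (hw : B₂ w w = 0) {b} (hb : b ∈ QE B₂ w) : T.kr 1 b ∈ K :=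
  c.unip w hw 1 (one_mem _) 1 b (T.kr_mem_UG (one_mem _) hb.1) (fun v => by simp [hb.2.1])
    (fun x hx => T.PS_le (X := (T.PS (F ∙ w)).comap (1 - (T.kr 1 b).toLinearMap)) (fun v y hy => by
      obtain ⟨a, ha⟩ := hb.2.2 y (mem_perp_singleton.1 hy)
      simpa [ha] using Submodule.smul_mem _ a (T.t_mem_P v w)) (T.perp_PS _ ▸ T.mem_perp_P.2 hx))
    ⟨1, by simp [hb.2.1]⟩

theorem exists_E {w s : V₂} (hw : B₂ w w = 0) (hs : B₂ w s = 0) :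
    ∃ b ∈ QE B₂ w, (∀ y, B₂ w y = 0 → b y = y + B₂ s y • w) ∧ T.kr 1 b ∈ K ∧
      ∀ x, T.cr w x = 0 → T.kr 1 b x = x + T.t (T.cr s x) w := by
  obtain ⟨b, hb, hb'⟩ := T.h₂.exists_E hw hs
  exact ⟨b, hb, hb', c.e₂ hw hb, fun x hx => T.cr_ext (f := (T.kr 1 b).toLinearMap)
    (g := 1 + T.t.flip w ∘ₗ T.cr s) (fun v y hy => by simp [hb' y hy]) hx⟩

theorem isB_one : T.IsB K 1 := fun w hw s hs => by
  obtain ⟨b, -, -, hb, hb'⟩ := c.exists_E hw hs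
  exact ⟨fun v => by simp [T.h₂.swap hs], _, hb, hb'⟩

/-- Transvections of the second factor. -/
theorem exists_tv {w : V₂} (hw : B₂ w w = 0) {γ : F} (hγ : γ + σ γ = 0) :
    ∃ b, T.kr 1 b ∈ K ∧ (∀ y, b y = y + (γ * B₂ w y) • w) ∧
      ∀ x, T.kr 1 b x = x + T.t (γ • T.cr w x) w := by
  obtain ⟨b, hb, hb'⟩ := T.h₂.exists_transv (c := γ) hw (by rwa [one_mul])
  exact ⟨b, c.e₂ hw hb, hb', T.ext_t (f := (T.kr 1 b).toLinearMap)
    (g := 1 + T.t.flip w ∘ₗ (γ • T.cr w)) fun v y => by simp [hb', mul_smul]⟩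

theorem exists_shear {w s : V₂} (hw : B₂ w w = 0) (hws : B₂ w s = 0) (h1 : s ∉ F ∙ w) (a : F) :
    ∃ b ∈ UG B₂, T.kr 1 b ∈ K ∧ b w = w ∧ b s = s + a • w := by
  obtain ⟨z, hz, hz'⟩ := T.h₂.exists_perp_one h1 a
  obtain ⟨b, hb, hb1, hb2, -⟩ := c.exists_E hw hz
  exact ⟨b, hb.1, hb2, hb.2.1, by rw [hb1 s hws, hz']⟩

omit c in
theorem notMem_symm {w s : V₂} (hw0 : w ≠ 0) (h : s ∉ F ∙ w) : w ∉ F ∙ s := fun h3 => h (by
  obtain ⟨a, rfl⟩ := Submodule.mem_span_singleton.1 h3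
  rw [Submodule.span_singleton_smul_eq (IsUnit.mk0 a (left_ne_zero_of_smul hw0))]
  exact Submodule.mem_span_singleton_self s)

theorem exists_torus {w s : V₂} (hw0 : w ≠ 0) (hw : B₂ w w = 0) (hs : B₂ s s = 0)
    (hws : B₂ w s = 0) (h1 : s ∉ F ∙ w) {l : F} (hl : l ≠ 0) :
    ∃ b ∈ UG B₂, T.kr 1 b ∈ K ∧ b w = l • w ∧ b s = l⁻¹ • s := by
  have h2 : ∀ a : F, a ≠ 0 → ∃ b ∈ UG B₂, T.kr 1 b ∈ K ∧ b s = a • w ∧ b w = -(a⁻¹ • s) :=
    fun a ha => by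
      obtain ⟨x, h3, h4, h5, h6⟩ := c.exists_shear hw hws h1 a
      obtain ⟨y, h7, h8, h9, h10⟩ := c.exists_shear hs (T.h₂.swap hws) (notMem_symm hw0 h1) (-a⁻¹)
      refine ⟨x * y * x, mul_mem (mul_mem h3 h7) h3, ?_, ?_, ?_⟩
      · simpa [T.kr_mul] using mul_mem (mul_mem h4 h8) h4
      · simp [h5, h6, h9, h10, smul_add, smul_smul, ha]
      · simp only [LinearEquiv.mul_apply, h5, h10, map_add, map_smul, h6, smul_add, smul_smul,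
          neg_mul, inv_mul_cancel₀ ha]
        module
  obtain ⟨x, h3, h4, h5, h6⟩ := h2 l hl
  obtain ⟨y, h7, h8, h9, h10⟩ := h2 (-1) (by simp)
  refine ⟨x * y, mul_mem h3 h7, by simpa [T.kr_mul] using mul_mem h4 h8, ?_, ?_⟩
  · simp [h10, h5]
  · simp [h9, h6]

/-- Composition with `1 ⊗ ν_s`. -/
theorem nu_mem {w s : V₂} {hw : B₂ w w = 0} (hw0 : w ≠ 0) (hs : B₂ s s = 0) (hws : B₂ w s = 0)
    {α : V →ₗ[F] V₁} (h : α ∈ T.uA K hw) (a : F) :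
    a • α ∘ₗ T.t.flip s ∘ₗ T.cr s ∈ T.uA K hw := by
  by_cases h1 : s ∈ F ∙ w
  · obtain ⟨d, rfl⟩ := Submodule.mem_span_singleton.1 h1
    convert (T.uA K hw).zero_mem using 1
    ext v
    simp [h.1]
  have h2 : ∀ γ : F, γ + σ γ = 0 → γ • α ∘ₗ T.t.flip s ∘ₗ T.cr s ∈ T.uA K hw := fun γ hγ => by
    obtain ⟨b, hb, -, hb'⟩ := c.exists_tv hs hγ
    convert c.comp_mem hb (fun v => by simp [hb', T.h₂.swap hws]) h using 1
    ext x
    simp [hb']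
  obtain ⟨μ, h3, h4⟩ := c.bar.exists_norm_eq_not_fixed one_ne_zero (map_one σ)
  have h5 : 1 + μ ≠ 0 := fun h5 => h4 (by rw [eq_neg_of_add_eq_zero_right h5]; simp)
  have h6 : μ - σ μ ≠ 0 := fun h6 => h4 (sub_eq_zero.1 h6).symm
  obtain ⟨b, hb, hb1, hb2, hb3⟩ := c.exists_torus hw0 hw hs hws h1 h5
  have h7 := c.conj_mem hw hb1 (A := LinearEquiv.smulOfNeZero F V₁ (1 + μ) h5)
    (fun v => by simp [hb2]) (h2 ((a + σ a) / (μ - σ μ)) (by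
      simp only [map_div₀, map_add, map_sub, c.bar.invol]
      rw [← neg_sub μ, div_neg, add_comm (σ a), add_neg_cancel]))
  have h8 : σ (1 + μ) ≠ 0 := (map_ne_zero σ).2 h5
  convert add_mem h7 (h2 (a - (a + σ a) / (μ - σ μ) * μ) (by
    have := sub_ne_zero.2 h4
    simp only [map_div₀, map_add, map_sub, map_mul, c.bar.invol]
    field_simp
    ring)) using 1
  ext x
  simp only [LinearMap.smul_apply, LinearMap.comp_apply, LinearMap.add_apply, T.kr_inv,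
    LinearEquiv.coe_coe, T.cr_kr _ (inv_mem hb), inv_inv, hb3, T.cr_smul, inv_one,
    LinearEquiv.coe_one, id, map_smul, LinearEquiv.smulOfNeZero_apply, smul_smul, ← add_smul]
  congr 1
  have h9 : (1 + μ) * σ (1 + μ)⁻¹ = μ := by
    rw [map_inv₀, mul_inv_eq_iff_eq_mul₀ h8, map_add, map_one, mul_add, h3]
    ring
  linear_combination (-(a + σ a) / (μ - σ μ)) * h9

theorem exists_trans {w w' : V₂} (hw0 : w ≠ 0) (hw0' : w' ≠ 0) (hw : B₂ w w = 0)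
    (hw' : B₂ w' w' = 0) : ∃ b, T.kr 1 b ∈ K ∧ b ∈ UG B₂ ∧ ∃ a : F, a ≠ 0 ∧ b w = a • w' := by
  obtain ⟨b, hb, h⟩ := T.h₂.ptRel4 c.bar c.four
    (N := (K.comap (MonoidHom.mk' (T.kr 1) fun b b' => by rw [T.kr_mul, mul_one])) ⊓ UG B₂)
    (fun e he b hb => ⟨c.e₂ he hb, hb.1⟩) hw0 hw0' hw hw'
  exact ⟨b, hb.1, hb.2, h⟩

theorem irr {w s₀ : V₂} {hw : B₂ w w = 0} {β : Module.End F V₁} (h0 : B₂ w s₀ = 0)
    (h1 : s₀ ∉ F ∙ w) (h : β ∘ₗ T.cr s₀ ∈ T.uA K hw) (hw0 : w ≠ 0) {s : V₂} (hs : B₂ w s = 0) :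
    β ∘ₗ T.cr s ∈ T.uA K hw := by
  let S : AddSubgroup V₂ :=
    { carrier := {s | β ∘ₗ T.cr s ∈ T.uA K hw}
      zero_mem' := by simp
      add_mem' := fun {a b} ha hb => by
        simpa [T.cr_add, LinearMap.comp_add] using add_mem ha hb
      neg_mem' := fun {a} ha => by simpa [T.cr_neg] using ha }
  obtain ⟨e, f, h2, h3, h4, h5, h6⟩ := T.h₂.exists_hyp_perp4 c.bar c.four hw0
  obtain ⟨y, hy, hy'⟩ := T.h₂.exists_perp_one h1 1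
  obtain ⟨s₁, h7, h8, h9⟩ := T.h₂.exists_iso_ne (W := LinearMap.ker (B₂ w)) h2 h3 h4 h5 h6
    (l := B₂ s₀) hy (T.h₂.swap_ne (hy' ▸ one_ne_zero))
  refine T.h₂.span_iso_perp4 c.bar c.four hw0 (S := S) (fun v hv hv' => T.h₂.conn (S := S) h h7 h8 h9
    (fun s hs s' h10 h11 h12 => ?_) hv hv') hs
  have := c.nu_mem (hw := hw) hw0 h11 h10 hs (B₂ s s')⁻¹
  change β ∘ₗ T.cr s' ∈ T.uA K hw
  convert this using 1
  ext x
  simp [smul_smul, h12]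

theorem toB {w s₀ : V₂} {hw : B₂ w w = 0} {β : Module.End F V₁} (h0 : B₂ w s₀ = 0)
    (h1 : s₀ ∉ F ∙ w) (h : β ∘ₗ T.cr s₀ ∈ T.uA K hw) (hw0 : w ≠ 0) : T.IsB K β := by
  intro w' hw' s hs
  rcases eq_or_ne w' 0 with rfl | hw0'
  · exact ⟨fun v => by simp, 1, one_mem _, fun x _ => by simp⟩
  obtain ⟨b, hb, hb', a, ha, hab⟩ := c.exists_trans hw0 hw0' hw hw'
  have h2 := c.conj_mem hw' hb (A := LinearEquiv.smulOfNeZero F V₁ a ha)
    (fun v => by simp [hab]) (c.irr h0 h1 h hw0 (s := σ a⁻¹ • b⁻¹ s) (by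
      rw [map_smul, ← UG_apply_left hb', hab]; simp [hs]))
  convert h2 using 1
  ext x
  simp [T.kr_inv, T.cr_smul, T.h₂.invol, T.cr_kr 1 (inv_mem hb'), smul_smul, ha]

theorem exists_flag : ∃ w s : V₂, w ≠ 0 ∧ B₂ w w = 0 ∧ B₂ s s = 0 ∧ B₂ w s = 0 ∧ s ∉ F ∙ w := by
  obtain ⟨w, h0, h1, -⟩ := T.h₂.exists_iso_perp4 c.bar c.four 0 0
  obtain ⟨s, hs⟩ := T.h₂.exists_line4 c.bar c.four h0
  exact ⟨w, s, h0, h1, hs⟩

theorem isB_zeta {s : V₂} (hs0 : s ≠ 0) {r : V ≃ₗ[F] V} (hr : r ∈ K)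
    {ζ : Module.End F V₁} (h : ∀ x, r x = x + T.t (ζ (T.cr s x)) s) : T.IsB K ζ := by
  obtain ⟨w, hw, h1, h2⟩ := T.h₂.exists_line4 c.bar c.four hs0
  have hw0 : w ≠ 0 := by rintro rfl; exact h2 (zero_mem _)
  have h3 := notMem_symm hs0 h2
  obtain ⟨z, hz, hz'⟩ := T.h₂.exists_perp_one h3 1
  refine c.toB (hw := hw) (T.h₂.swap h1) h3 ?_ hw0
  convert c.comp_mem hr (fun v => by simp [h, h1]) (c.isB_one w hw z hz) using 1
  ext x
  simp [h, hz']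

theorem cr_dev {w s s' : V₂} (hw : B₂ w w = 0) (hs : B₂ w s = 0) (hs' : B₂ w s' = 0)
    {γ γ' : Module.End F V₁} (e : ∀ x y, B₁ (γ x) y = B₁ x (γ' y)) {y : V ≃ₗ[F] V} (hy : y ∈ K)
    (hy' : ∀ x, T.cr w x = 0 → y x = x + T.t ((γ ∘ₗ T.cr s') x) w) (x : V) :
    T.cr s (y x - x) = -B₂ s s' • γ' (T.cr w x) := by
  refine T.h₁.ext' fun v => ?_
  rw [← T.B_t, T.h.apply_sub (c.le hy), show y⁻¹ (T.t v s) = T.t v s - T.t (B₂ s' s • γ v) w from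
    y.symm_apply_eq.2 (by
      rw [map_sub, hy' _ (by simp [hs]), hy' _ (by simp [hw])]
      simp [T.h₂.swap hs']), sub_sub_cancel_left, map_neg, LinearMap.neg_apply, T.B_t]
  simp [e, T.h₂.symm]

theorem isB_comm {β β' γ γ' : Module.End F V₁} (hβ : T.IsB K β) (hγ : T.IsB K γ)
    (e : ∀ x y, B₁ (β x) y = B₁ x (β' y)) (e' : ∀ x y, B₁ (γ x) y = B₁ x (γ' y)) (a : F) :
    T.IsB K (σ a • (γ * β') - a • (β * γ')) := by
  obtain ⟨w, s, h0, hw, -, hws, h1⟩ := c.exists_flag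
  obtain ⟨s', h2, h3⟩ := T.h₂.exists_perp_one h1 (σ a)
  have h4 : B₂ s s' = a := by rw [T.h₂.flip, h3, T.h₂.invol, one_mul]
  obtain ⟨h5, y, hy, hy'⟩ := hβ w hw s hws
  obtain ⟨h6, z, hz, hz'⟩ := hγ w hw s' h2
  have h7 : ∀ k ∈ K, (∀ v, k (T.t v w) = T.t v w) → ∀ x, T.cr w (k x - x) = 0 := fun k hk hk' x =>
    T.cr_eq_zero.2 fun v => by
      rw [T.h.apply_sub (c.le hk), show k⁻¹ (T.t v w) = T.t v w from k.symm_apply_eq.2 (hk' v).symm]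
      simp
  have h8 : ∀ v, y (T.t v w) = T.t v w := fun v => by rw [hy' _ (by simp [hw]), h5]; simp
  have h9 : ∀ v, z (T.t v w) = T.t v w := fun v => by rw [hz' _ (by simp [hw]), h6]; simp
  refine c.isB_zeta h0 (mul_mem (inv_mem (mul_mem hz hy)) (mul_mem hy hz)) fun x => ?_
  refine (z * y).symm_apply_eq.2 ?_
  have e1 := hy' _ (h7 z hz h9 x)
  have e2 := hz' _ (h7 y hy h8 x)
  rw [LinearMap.comp_apply, c.cr_dev hw hws h2 e' hz hz', map_sub, h4] at e1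
  rw [LinearMap.comp_apply, c.cr_dev hw h2 hws e hy hy', map_sub, h3] at e2
  simp only [LinearEquiv.mul_apply, map_add, h8, h9, LinearEquiv.coe_coe, LinearMap.sub_apply,
    LinearMap.smul_apply, Module.End.mul_apply, map_sub, map_smul, neg_smul, map_neg,
    LinearMap.neg_apply] at e1 e2 ⊢
  linear_combination (norm := module) e1 - e2

theorem isB_mul_adj {β γ γ' : Module.End F V₁} (hβ : T.IsB K β) (hγ : T.IsB K γ)
    (e : ∀ x y, B₁ (γ x) y = B₁ x (γ' y)) : T.IsB K (β * γ') := by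
  obtain ⟨β', h⟩ := T.h₁.exists_adj β
  obtain ⟨μ, hμ⟩ := c.bar.exists_ne
  have h1 := sub_ne_zero.2 hμ
  convert (((c.isB_comm hβ hγ h e 1).smul4 (-σ μ)).add4 (c.isB_comm hβ hγ h e μ)).smul4
    (σ μ - μ)⁻¹ using 1
  rw [eq_inv_smul_iff₀ h1, map_one]
  module

/-- The ring attached to `K`. -/
def ring : Subalgebra F (Module.End F V₁) where
  carrier := {β | T.IsB K β}
  mul_mem' {β γ} hβ hγ := by
    obtain ⟨γ', h⟩ := T.h₁.exists_adj γ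
    exact c.isB_mul_adj hβ (c.isB_mul_adj c.isB_one hγ h) (T.h₁.adj_symm h)
  add_mem' hβ hγ := hβ.add4 hγ
  algebraMap_mem' a := c.isB_one.smul4 a

theorem adj_mem {γ γ' : Module.End F V₁} (hγ : γ ∈ c.ring)
    (e : ∀ x y, B₁ (γ x) y = B₁ x (γ' y)) : γ' ∈ c.ring := c.isB_mul_adj c.isB_one hγ e

theorem conj_mem_ring {β : Module.End F V₁} (hβ : β ∈ c.ring) {a : V₁ ≃ₗ[F] V₁}
    (ha : T.kr a 1 ∈ K) : a.toLinearMap * β * (a⁻¹).toLinearMap ∈ c.ring := fun w hw s hs => by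
  convert c.conj_mem hw ha (A := a) (fun v => by simp) (hβ w hw s hs) using 1
  ext x
  simp [T.kr_inv, T.cr_kr _ (one_mem _)]

theorem alpha_mem {w s : V₂} {hw : B₂ w w = 0} (hw0 : w ≠ 0) (hs : B₂ s s = 0) (hws : B₂ w s = 0)
    {α : V →ₗ[F] V₁} (h : α ∈ T.uA K hw) : α ∘ₗ T.t.flip s ∈ c.ring := by
  by_cases h1 : s ∈ F ∙ w
  · obtain ⟨a, rfl⟩ := Submodule.mem_span_singleton.1 h1
    convert c.ring.zero_mem using 1
    ext v
    simp [h.1]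
  exact c.toB hws h1 (by simpa [LinearMap.comp_assoc] using c.nu_mem hw0 hs hws h 1) hw0

theorem alg : Alg B₁ c.ring
    (K.comap (MonoidHom.mk' (fun a => T.kr a 1) fun a b => by rw [T.kr_mul, mul_one]) ⊓ UG B₁) where
  adj _ h _ e := c.adj_mem h e
  qe e he _ ha := ⟨c.e₁ e he _ ha, ha.1⟩
  le := inf_le_right
  conj _ ha _ hβ := c.conj_mem_ring hβ ha.1

end Ctx4

end Cfsg.Lib.TMax
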