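import Cfsg.Agent.Lib.TMax.Loc
import Cfsg.Agent.Lib.Symp.TensD

/-!
# Overgroups of tensor product groups: the pigeonhole argument
-/

namespace Cfsg.Lib.TMax

open Module Cfsg.Lib.Unitary

set_option linter.unusedSectionVars false

variable {F V V₁ V₂ : Type*} [Field F] [AddCommGroup V] [Module F V] [AddCommGroup V₁]
  [Module F V₁] [AddCommGroup V₂] [Module F V₂] {σ : F →+* F} {ε : F}
  {B : V →ₛₗ[σ] V →ₗ[F] F} {B₁ : V₁ →ₛₗ[σ] V₁ →ₗ[F] F} {B₂ : V₂ →ₛₗ[σ] V₂ →ₗ[F] F}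

/-- The image of a subspace. -/
def mp (g : V ≃ₗ[F] V) (P : Submodule F V) : Submodule F V := P.comap (g⁻¹).toLinearMap

theorem mem_mp {g : V ≃ₗ[F] V} {P : Submodule F V} {x : V} : x ∈ mp g P ↔ g⁻¹ x ∈ P := Iff.rfl

theorem apply_mem_mp {g : V ≃ₗ[F] V} {P : Submodule F V} {x : V} : g x ∈ mp g P ↔ x ∈ P := by
  simp [mem_mp]

theorem finrank_mp (g : V ≃ₗ[F] V) (P : Submodule F V) : finrank F (mp g P) = finrank F P := by
  rw [mp, Submodule.comap_equiv_eq_map_symm, LinearEquiv.finrank_map_eq]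

theorem mem_perp_mp {g : V ≃ₗ[F] V} (hg : g ∈ UG B) {P : Submodule F V} {x : V} :
    x ∈ perp B (mp g P) ↔ g⁻¹ x ∈ perp B P :=
  ⟨fun h p hp => by rw [← UG_apply_left hg, h _ (apply_mem_mp.2 hp)],
    fun h p hp => (inv_mem hg p x).symm.trans (h _ hp)⟩

/-- `g ∈ K \ H` moves `P` as little as possible. -/
structure Max (K H : Subgroup (V ≃ₗ[F] V)) (P : Submodule F V) (g : V ≃ₗ[F] V) : Prop where
  mem : g ∈ K
  nmem : g ∉ H
  max : ∀ k ∈ K, k ∉ H → finrank F ↥(P ⊓ mp k P) ≤ finrank F ↥(P ⊓ mp g P)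

variable {K H : Subgroup (V ≃ₗ[F] V)} {P : Submodule F V} {g : V ≃ₗ[F] V}

theorem exists_max [Finite V] (h : ¬ K ≤ H) (P : Submodule F V) : ∃ g, Max K H P g := by
  have : Finite (V ≃ₗ[F] V) := DFunLike.finite _
  obtain ⟨g, hg, hg'⟩ := Set.exists_max_image {g | g ∈ K ∧ g ∉ H}
    (fun g => finrank F ↥(P ⊓ mp g P)) (Set.toFinite _) (SetLike.not_le_iff_exists.1 h)
  exact ⟨g, hg.1, hg.2, fun k h1 h2 => hg' k ⟨h1, h2⟩⟩

namespace Max

variable [FiniteDimensional F V] (M : Max K H P g)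
include M

theorem mem_of_lt {m k : V ≃ₗ[F] V} (hm : m ∈ K) (hk : k ∈ K) {x : V}
    (h : P ⊓ mp g P ≤ mp m P ⊓ mp k P) (hx : x ∈ mp m P ⊓ mp k P) (hx' : x ∉ P ⊓ mp g P) :
    m⁻¹ * k ∈ H := by
  by_contra h1
  have h2 := M.max _ (mul_mem (inv_mem hm) hk) h1
  have h3 := Submodule.finrank_lt_finrank_of_lt (lt_of_le_of_ne h fun e => hx' (e ▸ hx))
  rw [← finrank_mp m, show mp m (P ⊓ mp (m⁻¹ * k) P) = mp m P ⊓ mp k P by
    ext; simp [mem_mp]] at h2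
  omega

theorem conj_mem {m y : V ≃ₗ[F] V} (hm : m ∈ K) (hy : y ∈ K) (hD : P ⊓ mp g P ≤ mp m P)
    (hyD : ∀ x ∈ P ⊓ mp g P, y x = x) {p : V} (hp : p ∈ mp m P) (hp' : p ∉ P ⊓ mp g P)
    (hyp : y p ∈ mp m P) : m⁻¹ * y * m ∈ H := by
  rw [mul_assoc]
  refine M.mem_of_lt hm (mul_mem hy hm) (x := y p) (fun x hx => ⟨hD hx, ?_⟩)
    ⟨hyp, by simpa [mem_mp] using hp⟩ fun h => hp' (y.injective (hyD _ h) ▸ h)
  rw [← hyD x hx]
  simpa [mem_mp] using hD hx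

theorem false_of_sub [Finite V] {x : Bool → V ≃ₗ[F] V} {Γ : Subgroup (V ≃ₗ[F] V)} (hΓ : Γ ≤ K)
    (hA : ∀ k ∈ K, (∀ p ∈ P, k p ∈ P) → k ∈ H) (hR : ∀ k ∈ K, ∀ c, k * x c * k⁻¹ ∈ H → k ∈ H)
    (hx : ∀ c y, x c y - y ∈ P) (hi : ∀ y, x true y = x false y → x true y = y)
    (h1 : ∀ c, x c ∈ Γ) (h2 : g * x true * g⁻¹ ∈ Γ) (h3 : ∀ k ∈ Γ, ∀ p ∈ P ⊓ mp g P, k p = p)
    (h4 : ∀ k ∈ Γ, k ∈ H → ∀ p ∈ P, k p = p) : False := by
  have : Finite (V ≃ₗ[F] V) := DFunLike.finite _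
  obtain ⟨m, hm, k, hk, c, d, h5, h6⟩ := Symp.pigeon (S := H.subgroupOf Γ)
    (fun c => (⟨x c, h1 c⟩ : Γ)) (g₀ := ⟨_, h2⟩) (fun h => M.nmem (hR g M.mem _ h))
    (fun k hk c h => hk (hR k (hΓ k.2) c h)) (Q := fun k => ∀ p ∈ P, k.1 p = p)
    (Or.inl ⟨by simp, fun k hk => h4 k k.2 hk⟩)
  obtain ⟨p, hp, hp'⟩ : ∃ p ∈ P, (m.1 * x c * m.1⁻¹) p ∉ P := by
    by_contra! h
    exact hm (hR m (hΓ m.2) c (hA _ (hΓ (mul_mem (mul_mem m.2 (h1 c)) (inv_mem m.2))) h))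
  have h7 : (k.1 * x d * k.1⁻¹) p = (m.1 * x c * m.1⁻¹) p :=
    (m.1 * x c * m.1⁻¹).symm_apply_eq.1 (h6 p hp)
  have h8 : ∀ (k : Γ) d, (k.1 * x d * k.1⁻¹) p - p ∈ mp k.1 P := fun k d => by
    simpa [mem_mp] using hx d (k.1⁻¹ p)
  have h9 : ∀ k : Γ, P ⊓ mp g P ≤ mp k.1 P := fun k y hy => by
    rw [mem_mp, h3 _ (inv_mem k.2) y hy]
    exact hy.1
  have h10 := M.mem_of_lt (hΓ m.2) (hΓ k.2) (le_inf (h9 m) (h9 k)) ⟨h8 m c, h7 ▸ h8 k d⟩
    fun h => hp' (by simpa using add_mem h.1 hp)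
  rcases h5 with h5 | ⟨rfl, h5⟩
  · exact h5 h10
  have h11 : x d (m.1⁻¹ p) = x c (m.1⁻¹ p) := m.1.injective h7
  refine hp' ?_
  have h12 : x c (m.1⁻¹ p) = m.1⁻¹ p := by
    cases c <;> cases d
    exacts [(h5 rfl).elim, h11 ▸ hi _ h11, hi _ h11.symm, (h5 rfl).elim]
  rwa [LinearEquiv.mul_apply, LinearEquiv.mul_apply, h12, ← LinearEquiv.mul_apply, mul_inv_cancel]

end Max

namespace TStr

variable (T : TStr ε B₁ B₂ B)

theorem PS_le_perp {L : Submodule F V₂} (hL : L ≤ perp B₂ L) : T.PS L ≤ perp B (T.PS L) :=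
  T.PS_le fun v y hy => T.mem_perp_PS.2 fun z hz => by rw [cr_t, hL hy z hz, zero_smul]

include T in
theorem pair_le_perp {w s : V₂} (hw : B₂ w w = 0) (hs : B₂ s s = 0) (hws : B₂ w s = 0) :
    Submodule.span F {w, s} ≤ perp B₂ (Submodule.span F {w, s}) :=
  Submodule.span_le.2 (by
    rintro _ (rfl | rfl)
    exacts [mem_perp_pair.2 ⟨hw, T.h₂.swap hws⟩, mem_perp_pair.2 ⟨hws, hs⟩])

variable [FiniteDimensional F V₁] [FiniteDimensional F V₂] [FiniteDimensional F V] [Nontrivial V₁]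

/-- An element of the tensor product group acting trivially on `P^⊥ / P`. -/
theorem kr_one_of_perp (h5 : 5 ≤ finrank F V₂) {a b} {L : Submodule F V₂} (hL : finrank F L ≤ 2)
    (h : ∀ x ∈ perp B (T.PS L), T.kr a b x - x ∈ T.PS L) : ∃ b', T.kr a b = T.kr 1 b' := by
  obtain ⟨y, hy, hy'⟩ := SetLike.not_le_iff_exists.1 (show ¬ perp B₂ L ≤ L from fun h => by
    have := Submodule.finrank_mono h
    have := T.h₂.finrank_add_finrank_perp L
    omega)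
  exact T.kr_one_of_sub_mem hy' fun v => h _ (by rw [T.perp_PS]; exact T.t_mem_PS v hy)

theorem apply_mem_of_stab {a b} {L : Submodule F V₂} (h : L.map b.toLinearMap = L) {x : V}
    (hx : x ∈ perp B (T.PS L)) (hk : T.kr a b ∈ UG B) : T.kr a b x ∈ perp B (T.PS L) := by
  intro p hp
  rw [← h, ← T.map_kr_PS a] at hp
  obtain ⟨p, hp, rfl⟩ := hp
  exact (hk p x).trans (hx p hp)

end TStr

theorem exists_le_span {L L' : Submodule F V} [FiniteDimensional F V] (hL : finrank F L ≤ 2)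
    (h : L' < L) : ∃ w ∈ L, w ≠ 0 ∧ L' ≤ F ∙ w := by
  have h1 := Submodule.finrank_lt_finrank_of_lt h
  rcases eq_or_ne L' ⊥ with rfl | h2
  · obtain ⟨w, hw, hw'⟩ := Submodule.exists_mem_ne_zero_of_ne_bot h.ne'
    exact ⟨w, hw, hw', bot_le⟩
  obtain ⟨w, hw, hw'⟩ := Submodule.exists_mem_ne_zero_of_ne_bot h2
  refine ⟨w, h.le hw, hw', (Submodule.eq_of_le_of_finrank_le
    ((Submodule.span_singleton_le_iff_mem _ _).2 hw) ?_).ge⟩
  rw [finrank_span_singleton hw']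
  omega

namespace Ctx

variable {T : TStr ε B₁ B₂ B} (c : Ctx T K)
  [FiniteDimensional F V₁] [FiniteDimensional F V₂] [FiniteDimensional F V] [Nontrivial V₁]
  (hR : ∀ β ∈ c.ring, ∃ a : F, ∀ v, β v = a • v)
include c hR

theorem mem_kron_of_P {w w₁ : V₂} (hw0 : w ≠ 0) (hw : B₂ w w = 0) (hw₁ : w₁ ≠ 0) {k : V ≃ₗ[F] V}
    (hk : k ∈ K) (h : ∀ v, k (T.t v w₁) ∈ T.PS (F ∙ w)) : k ∈ T.kron := by
  obtain ⟨v, hv⟩ := exists_ne (0 : V₁)
  obtain ⟨u, hu⟩ := T.h₁.exists_eq_one hv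
  obtain ⟨p, hp⟩ := T.mem_P.1 (h v)
  obtain ⟨p', hp'⟩ := T.mem_P.1 (h u)
  have h1 := c.le hk (T.t v w₁) (T.t u w₁)
  rw [← hp, ← hp', T.tt, T.tt, hw, hu, mul_zero, one_mul] at h1
  obtain ⟨b, hb, -, a, -, hab⟩ := c.exists_trans hw0 hw₁ hw h1.symm
  rw [← T.kron.mul_mem_cancel_right (T.kr_mem 1 b)]
  exact c.mem_kron_of_stab hR hw0 hw (mul_mem hk hb) fun v => by
    simpa [hab] using Submodule.smul_mem _ a (h v)

/-- The stabiliser of `V₁ ⊗ ℓ` preserves the tensor decomposition. -/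
theorem mem_kron_of_line {w s w' : V₂} (hw0 : w ≠ 0) (hw : B₂ w w = 0) (hss : B₂ s s = 0)
    (hs : B₂ w s = 0) (hw0' : w' ≠ 0) {k : V ≃ₗ[F] V} (hk : k ∈ K)
    (h : ∀ v, k (T.t v w') ∈ T.PS (Submodule.span F {w, s})) : k ∈ T.kron := by
  have hw' : B₂ w' w' = 0 := by
    obtain ⟨v, hv⟩ := exists_ne (0 : V₁)
    obtain ⟨u, hu⟩ := T.h₁.exists_eq_one hv
    have := T.PS_le_perp (T.pair_le_perp hw hss hs) (h u) _ (h v)
    rwa [c.le hk, T.tt, hu, one_mul] at this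
  obtain ⟨b, b', hb, hb', h1, h2, h3, h4, h5⟩ := c.exists_nu hw (T.h₂.swap hs) 1
  have h6 : ∀ b, T.kr 1 b ∈ K → b s = s → b w = w → ∃ d, T.kr 1 b * k = k * T.kr 1 d :=
    fun b hb h1 h3 => by
      have h6 : ∀ v, (k⁻¹ * T.kr 1 b * k) (T.t v w') = T.t v w' := fun v => k.symm_apply_eq.2
        (T.PS_ext (f := (T.kr 1 b).toLinearMap) (g := 1) (fun v y hy => by
          simp [mem_fixStab_span.2 (show ∀ y ∈ ({w, s} : Set V₂), b y = y by simp [h1, h3]) y hy])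
          (h v))
      obtain ⟨a, d, had⟩ := c.mem_kron_of_stab hR hw0' hw'
        (mul_mem (mul_mem (inv_mem hk) hb) hk) fun v => by rw [h6]; exact T.t_mem_P v w'
      obtain ⟨d', hd'⟩ := T.kr_one_of_sub_mem (a := a) (b := d) (L := ⊥) hw0' fun v => by
        rw [had, h6, sub_self]; exact zero_mem _
      exact ⟨d', by rw [← hd', had]; group⟩
  obtain ⟨d, hd⟩ := h6 b hb h1 h3
  obtain ⟨d', hd'⟩ := h6 b' hb' h2 h4
  have h7 : ∀ v y, k (T.t v (d (d' y - y) - (d' y - y))) = T.t (T.cr w (k (T.t v y))) w :=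
    fun v y => by
      have h7 := T.ext_t (f := dev (T.kr 1 b) ∘ₗ dev (T.kr 1 b')) (g := T.t.flip w ∘ₗ T.cr w)
        (fun v y => by
          simp only [LinearMap.comp_apply, dev_apply, TStr.kr_t, ← map_sub (T.t _),
            LinearEquiv.coe_one, id, h5]
          simp) (k (T.t v y))
      simp only [LinearMap.comp_apply, dev_apply, map_sub, ← LinearEquiv.mul_apply, hd', hd,
        ← mul_assoc] at h7
      simpa [sub_sub_sub_comm] using h7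
  obtain ⟨y, hy⟩ : ∃ y, d (d' y - y) - (d' y - y) ≠ 0 := by
    by_contra! h8
    obtain ⟨v, hv⟩ := exists_ne (0 : V₁)
    obtain ⟨y, hy⟩ := T.h₂.exists_eq_one hw0
    have := T.ext_t (f := T.cr w ∘ₗ k.toLinearMap) (g := 0) (fun v y => T.t_inj hw0 (by
      simpa only [h8, map_zero, LinearMap.zero_apply, LinearMap.comp_apply, LinearEquiv.coe_coe]
        using (h7 v y).symm)) (k⁻¹ (T.t v y))
    simp [hy, hv] at this
  exact c.mem_kron_of_P hR hw0 hw hy hk fun v => h7 v y ▸ T.t_mem_P _ w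

theorem mem_kron_of_conj (hn : finrank F V₁ < finrank F V₂) {w : V₂} (hw0 : w ≠ 0)
    (hw : B₂ w w = 0) {x k : V ≃ₗ[F] V} (hx : ∀ y, x y - y ∈ T.PS (F ∙ w)) (hx1 : x ≠ 1)
    (hk : k ∈ K) (h : k * x * k⁻¹ ∈ T.kron) : k ∈ T.kron := by
  obtain ⟨a, b, hab⟩ := h
  have h1 : ∀ y, T.kr a b y - y ∈ mp k (T.PS (F ∙ w)) := fun y => by
    simpa [hab, mem_mp] using hx (k⁻¹ y)
  obtain ⟨b', hb'⟩ := T.kr_one_of_rank h1 (by rwa [finrank_mp, T.finrank_P hw0])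
  obtain ⟨y, hy⟩ : ∃ y, b' y - y ≠ 0 := by
    by_contra! h2
    rw [hb', show b' = 1 from LinearEquiv.ext fun y => sub_eq_zero.1 (h2 y), T.kr_one] at hab
    exact hx1 (by simpa using hab.symm)
  exact (T.kron.inv_mem_iff).1 (c.mem_kron_of_P hR hw0 hw hy (inv_mem hk) fun v => by
    simpa [hb', mem_mp] using h1 (T.t v y))

/-- The global argument when the second factor has transvections. -/
theorem le_kron [Finite V] (hn : finrank F V₁ < finrank F V₂) {γ : F} (hγ0 : γ ≠ 0)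
    (hγ : γ + ε * σ γ = 0) : K ≤ T.kron := by
  by_contra hK
  obtain ⟨w₁, w₂, h0, hw₁, hw₂, h12, h1⟩ := c.exists_flag
  set L := Submodule.span F {w₁, w₂} with hL
  have hL1 : L ≤ perp B₂ L := T.pair_le_perp hw₁ hw₂ h12
  have hL2 : finrank F L = 2 := finrank_span_pair_of_linearIndependent
    ((LinearIndependent.pair_iff' h0).2 fun a ha => h1 (Submodule.mem_span_singleton.2 ⟨a, ha⟩))
  have hx : ∀ w ∈ L, w ≠ 0 → ∃ x ∈ K, (∀ y, x y = y + T.t (γ • T.cr w y) w) ∧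
      ∀ k ∈ K, k * x * k⁻¹ ∈ T.kron → k ∈ T.kron := fun w hw hw0 => by
    obtain ⟨b, hb, hb'⟩ := T.h₂.exists_transv (hL1 hw w hw) hγ
    have h2 : ∀ y, T.kr 1 b y = y + T.t (γ • T.cr w y) w := T.ext_t (f := (T.kr 1 b).toLinearMap)
      (g := 1 + T.t.flip w ∘ₗ (γ • T.cr w)) fun v y => by simp [hb', mul_smul]
    refine ⟨_, c.e₂ (hL1 hw w hw) hb, h2, fun k hk => c.mem_kron_of_conj hR hn hw0 (hL1 hw w hw)
      (fun y => by rw [h2, add_sub_cancel_left]; exact T.t_mem_P _ _) (fun h => ?_) hk⟩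
    obtain ⟨v, hv⟩ := exists_ne (0 : V₁)
    obtain ⟨y, hy⟩ := T.h₂.exists_eq_one hw0
    simpa [h, hy, hγ0, T.t_ne_zero hv hw0] using h2 (T.t v y)
  obtain ⟨g, M⟩ := exists_max hK (T.PS L)
  have hP := T.PS_le_perp hL1
  have hP' : mp g (T.PS L) ≤ perp B (mp g (T.PS L)) := fun y hy =>
    (mem_perp_mp (c.le M.mem)).2 (hP hy)
  have n2 : ∀ w ∈ L, w ≠ 0 → ∀ p ∈ mp g (T.PS L), T.cr w p = 0 → p ∈ T.PS L :=
    fun w hw hw0 p hp hp' => by
      obtain ⟨x, h2, h3, h4⟩ := hx w hw hw0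
      by_contra h5
      exact M.nmem ((T.kron.inv_mem_iff).1 (h4 _ (inv_mem M.mem) (M.conj_mem M.mem h2 inf_le_right
        (fun y hy => by simp [h3, T.mem_perp_PS.1 (hP hy.1) w hw]) hp (fun h => h5 h.1)
        (by simpa [h3, hp']))))
  have hD : ∀ L' < L, ¬ T.PS L ⊓ mp g (T.PS L) ≤ T.PS L' := fun L' hL' h => by
    obtain ⟨w, hw, hw0, h2⟩ := exists_le_span hL2.le hL'
    replace h := h.trans (T.PS_mono h2)
    have h3 := Submodule.finrank_mono (show mp g (T.PS L) ⊓ perp B (T.PS (F ∙ w)) ≤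
      T.PS L ⊓ mp g (T.PS L) from fun p hp => ⟨n2 w hw hw0 p hp.1 (T.mem_perp_P.1 hp.2), hp.1⟩)
    have h4 := Submodule.finrank_mono (show mp g (T.PS L) ⊔ perp B (T.PS (F ∙ w)) ≤
      perp B (T.PS L ⊓ mp g (T.PS L)) from sup_le (fun p hp y hy => hP' hp y hy.2)
        fun p hp y hy => hp y (h hy))
    have h5 := Submodule.finrank_sup_add_finrank_inf_eq (mp g (T.PS L)) (perp B (T.PS (F ∙ w)))
    have h6 := T.h.finrank_add_finrank_perp (T.PS (F ∙ w))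
    have h7 := T.h.finrank_add_finrank_perp (T.PS L ⊓ mp g (T.PS L))
    rw [finrank_mp, T.finrank_PS, hL2] at h5
    rw [T.finrank_P hw0] at h6
    have := finrank_pos (R := F) (M := V₁)
    omega
  have h2 : w₂ ≠ 0 := by rintro rfl; exact h1 (zero_mem _)
  have hL3 : w₁ ∈ L := Submodule.subset_span (by simp)
  have hL4 : w₂ ∈ L := Submodule.subset_span (by simp)
  obtain ⟨x₁, h3, h4, h5⟩ := hx w₁ hL3 h0
  obtain ⟨x₂, h6, h7, h8⟩ := hx w₂ hL4 h2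
  have h9 : ∀ y ∈ perp B (T.PS L ⊔ mp g (T.PS L)), y ∈ perp B (T.PS L) ∧ g⁻¹ y ∈ perp B (T.PS L) :=
    fun y hy => by rwa [perp_sup, Submodule.mem_inf, mem_perp_mp (c.le M.mem)] at hy
  have h10 : ∀ k ∈ K ⊓ fixStab (perp B (T.PS L ⊔ mp g (T.PS L))), ∀ p ∈ T.PS L ⊓ mp g (T.PS L),
      k p = p := fun k hk p hp => hk.2 p (perp_sup (B := B) _ _ ▸ ⟨hP hp.1, hP' hp.2⟩)
  refine M.false_of_sub (x := fun c => if c then x₁ else x₂)
    (Γ := K ⊓ fixStab (perp B (T.PS L ⊔ mp g (T.PS L)))) inf_le_left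
    (fun k hk h => c.mem_kron_of_line hR h0 hw₁ hw₂ h12 h0 hk fun v => h _ (T.t_mem_PS v hL3))
    (fun k hk c => by cases c; exacts [h8 k hk, h5 k hk])
    (fun c y => by cases c <;> simp [h4, h7, Submodule.smul_mem, T.t_mem_PS, hL3, hL4])
    (fun y hy => ?_) (fun c => ?_) ⟨mul_mem (mul_mem M.mem h3) (K.inv_mem M.mem), fun y hy => ?_⟩
    h10 ?_
  · obtain ⟨s, hs, hs'⟩ := T.h₂.exists_perp_one h1 1
    obtain ⟨s', hs''⟩ := T.h₂.exists_eq_one' h0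
    simp only [↓reduceIte, Bool.false_eq_true, h4, h7, add_right_inj] at hy ⊢
    have := congrArg (T.cr s) hy
    rw [T.cr_t, T.cr_t, T.h₂.swap hs, hs', zero_smul, one_smul] at this
    rw [hy, ← this]
    simp
  · cases c
    · exact ⟨h6, fun y hy => by simp [h7, T.mem_perp_PS.1 (h9 y hy).1 _ hL4]⟩
    · exact ⟨h3, fun y hy => by simp [h4, T.mem_perp_PS.1 (h9 y hy).1 _ hL3]⟩
  · rw [LinearEquiv.mul_apply, LinearEquiv.mul_apply, if_pos rfl, h4, T.mem_perp_PS.1 (h9 y hy).2 _ hL3]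
    simp
  rintro _ hk ⟨a, b, rfl⟩
  have h11 : L.map b.toLinearMap = L := by
    by_contra h11
    refine hD (L ⊓ L.map b.toLinearMap) (lt_of_le_of_ne inf_le_left fun h => h11
      (Submodule.eq_of_le_of_finrank_eq (inf_eq_left.1 h) (LinearEquiv.finrank_map_eq b L).symm).symm)
      fun p hp => ?_
    rw [T.PS_inf, ← T.map_kr_PS a]
    exact ⟨hp.1, p, hp.1, h10 _ hk p hp⟩
  obtain ⟨b', hb'⟩ := T.kr_one_of_perp c.five (a := a) (b := b) hL2.le fun y hy => by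
    obtain ⟨p, hp, p', hp', h⟩ := Submodule.mem_sup.1 (T.h.sub_mem_of_fix (c.le hk.1) hk.2 y)
    have := sub_mem (sub_mem (T.apply_mem_of_stab h11 hy (c.le hk.1)) hy) (hP hp)
    rw [← h, add_sub_cancel_left] at this
    exact h ▸ add_mem hp (n2 w₁ hL3 h0 p' hp' (T.mem_perp_PS.1 this w₁ hL3))
  rw [hb'] at hk ⊢
  have h12 : L ≤ LinearMap.ker (dev b') := by
    by_contra h12
    refine hD (L ⊓ LinearMap.ker (dev b')) (lt_of_le_of_ne inf_le_left fun h => h12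
      (inf_eq_left.1 h)) fun p hp => ?_
    rw [T.PS_inf]
    exact ⟨hp.1, T.mem_PS_of_fix (T.mem_UG₂ (c.le hk.1)) (h10 _ hk p hp)⟩
  exact fun p hp => T.PS_ext (f := (T.kr 1 b').toLinearMap) (g := 1)
    (fun v y hy => by simp [show b' y = y from sub_eq_zero.1 (h12 hy)]) hp

end Ctx

end Cfsg.Lib.TMax
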