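import Cfsg.Agent.Lib.TMax.Glob
import Cfsg.Agent.Lib.TMax.Alg

/-!
# Overgroups of tensor product groups: the global argument for two orthogonal factors
-/

namespace Cfsg.Lib.TMax

open Module Cfsg.Lib.Unitary

set_option linter.unusedSectionVars false

variable {F V V₁ V₂ : Type*} [Field F] [AddCommGroup V] [Module F V] [AddCommGroup V₁]
  [Module F V₁] [AddCommGroup V₂] [Module F V₂]
  {B : V →ₗ[F] V →ₗ[F] F} {B₁ : V₁ →ₗ[F] V₁ →ₗ[F] F} {B₂ : V₂ →ₗ[F] V₂ →ₗ[F] F}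

/-- Quadratic unipotent elements. -/
def Sq (g : V ≃ₗ[F] V) : Prop := ∀ u, g⁻¹ u = u - (g u - u)

theorem Sq.conj {g : V ≃ₗ[F] V} (h : Sq g) (k : V ≃ₗ[F] V) : Sq (k * g * k⁻¹) := fun u => by
  have := h (k⁻¹ u)
  simp only [mul_inv_rev, inv_inv, LinearEquiv.mul_apply, this]
  simp

theorem Sq.skew (h : EF (RingHom.id F) 1 B) {g : V ≃ₗ[F] V} (hg : g ∈ UG B) (e : Sq g) (s y : V) :
    B (dev g s) y = -B s (dev g y) := by
  rw [dev_apply, dev_apply, h.apply_sub hg, e]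
  simp

theorem Sq.dev_dev {g : V ≃ₗ[F] V} (e : Sq g) : dev g * dev g = 0 := by
  ext u
  have := congrArg g (e u)
  simp only [map_sub, LinearEquiv.coe_inv, LinearEquiv.apply_symm_apply] at this
  simp only [Module.End.mul_apply, dev_apply, map_sub, LinearMap.zero_apply]
  linear_combination (norm := module) this

theorem exists_normal_form (h : EF (RingHom.id F) 1 B) {x x' : V ≃ₗ[F] V} (hx : x ∈ UG B)
    (hx' : x' ∈ UG B) (e : Sq x) (e' : Sq x') {k : V ≃ₗ[F] V} (hk : k ∈ Subgroup.closure {x, x'}) :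
    ∃ p p₂ : Module.End F V, (p * dev x = dev x * p ∧ p * dev x' = dev x' * p ∧
      ∀ u v, B (p u) v = B u (p v)) ∧ (p₂ * dev x = dev x * p₂ ∧ p₂ * dev x' = dev x' * p₂ ∧
      ∀ u v, B (p₂ u) v = B u (p₂ v)) ∧ k.toLinearMap * dev x = p * dev x + p₂ * dev x' * dev x := by
  have h1 := e.dev_dev
  have h2 := e'.dev_dev
  have h3 := e.skew h hx
  have h4 := e'.skew h hx'
  have h5 : ∀ y ∈ ({x, x'} : Set (V ≃ₗ[F] V)), ∀ y' ∈ ({y, y⁻¹} : Set (V ≃ₗ[F] V)), ∃ c : F,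
      y'.toLinearMap = 1 + c • dev x ∨ y'.toLinearMap = 1 + c • dev x' := by
    rintro y (rfl | rfl) y' (rfl | rfl)
    · exact ⟨1, Or.inl (by ext; simp)⟩
    · exact ⟨-1, Or.inl (by ext u; simp [-LinearEquiv.coe_inv, e u, sub_eq_add_neg, add_comm])⟩
    · exact ⟨1, Or.inr (by ext; simp)⟩
    · exact ⟨-1, Or.inr (by ext u; simp [-LinearEquiv.coe_inv, e' u, sub_eq_add_neg, add_comm])⟩
  generalize dev x = N at *
  generalize dev x' = N' at *
  let Z : Module.End F V → Prop := fun p => p * N = N * p ∧ p * N' = N' * p ∧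
    ∀ u v, B (p u) v = B u (p v)
  have Z1 : ∀ p q (c : F), Z p → Z q → Z (p + c • q) := fun p q c hp hq =>
    ⟨by simp [add_mul, mul_add, hp.1, hq.1], by simp [add_mul, mul_add, hp.2.1, hq.2.1],
      fun u v => by simp [hp.2.2, hq.2.2]⟩
  have Z2 : ∀ q, Z q → Z (q * (N * N' + N' * N)) := fun q hq => by
    refine ⟨?_, ?_, fun u v => ?_⟩
    · rw [← mul_assoc, ← hq.1, mul_assoc, mul_assoc]
      simp [mul_add, add_mul, mul_assoc, h1, ← mul_assoc N N]
    · rw [← mul_assoc, ← hq.2.1, mul_assoc, mul_assoc]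
      simp [mul_add, add_mul, mul_assoc, h2, ← mul_assoc N' N']
    · have h6 : Commute q (N * N' + N' * N) :=
        (Commute.mul_right hq.1 hq.2.1).add_right (Commute.mul_right hq.2.1 hq.1)
      nth_rewrite 2 [h6.eq]
      simp [hq.2.2, h3, h4, add_comm]
  have key : ∀ y' k : V ≃ₗ[F] V, (∃ c : F, y'.toLinearMap = 1 + c • N ∨ y'.toLinearMap = 1 + c • N') →
      (∃ p p₂, Z p ∧ Z p₂ ∧ k.toLinearMap * N = p * N + p₂ * N' * N) →
      ∃ p p₂, Z p ∧ Z p₂ ∧ (y' * k).toLinearMap * N = p * N + p₂ * N' * N := by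
    rintro y' k ⟨c, hc | hc⟩ ⟨p, p₂, hp, hp₂, hk⟩
    · refine ⟨_, _, Z1 _ _ c hp (Z2 _ hp₂), hp₂, ?_⟩
      rw [LinearEquiv.coe_toLinearMap_mul, mul_assoc, hk, hc]
      simp only [add_mul, mul_add, one_mul, smul_mul_assoc, ← mul_assoc N, ← hp.1, ← hp₂.1]
      simp only [mul_assoc, h1, mul_zero, smul_zero, add_zero]
      abel
    · refine ⟨_, _, hp, Z1 _ _ c hp₂ hp, ?_⟩
      rw [LinearEquiv.coe_toLinearMap_mul, mul_assoc, hk, hc]
      simp only [add_mul, mul_add, one_mul, smul_mul_assoc, ← mul_assoc N', ← hp.2.1, ← hp₂.2.1]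
      simp only [mul_assoc p₂ N' N', h2, mul_zero, zero_mul, smul_zero, add_zero]
      abel
  induction hk using Subgroup.closure_induction_left with
  | one => exact ⟨1, 0, by simp, by simp, by ext; simp⟩
  | mul_left y hy k _ ih => exact key y k (h5 y hy y (by simp)) ih
  | inv_mul_cancel y hy k _ ih => exact key _ k (h5 y hy _ (by simp)) ih

theorem isEich_mem_QE (h : EF (RingHom.id F) 1 B) {e a : V} {γ : F} {g : V ≃ₗ[F] V} (hg : g ∈ UG B)
    (he : B e e = 0) (ha : B e a = 0) (e1 : IsEich B e a γ g) : g ∈ QE B e :=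
  ⟨hg, by simp [e1 e, he, h.swap ha], fun v hv => ⟨-B a v, by simp [e1 v, hv, sub_eq_add_neg]⟩⟩

theorem skew_mem (h : EF (RingHom.id F) 1 B) (h2 : (2 : F) ≠ 0) [FiniteDimensional F V]
    {n : Module.End F V} (hn : ∀ s y, B (n s) y = -B s (n y)) {X : Submodule F V}
    (hX : finrank F X ≤ 2) (hnX : ∀ y, n y ∈ X) {w s : V} (hw : w ∈ X) (hw0 : w ≠ 0)
    (hs : B s w = 0) : n s ∈ F ∙ w := by
  refine h.mem_of_perp fun y hy => ?_
  by_contra h0
  obtain ⟨w', -, -, h1⟩ := exists_le_span hX (L' := X ⊓ LinearMap.ker (B y))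
    (lt_of_le_of_ne inf_le_left fun e => h0 (inf_eq_left.1 e (hnX s)))
  obtain ⟨a, rfl⟩ := Submodule.mem_span_singleton.1
    (h1 ⟨hw, h.swap (mem_perp_singleton.1 hy)⟩)
  obtain ⟨b, hb⟩ := Submodule.mem_span_singleton.1 (h1 (show n y ∈ _ from ⟨hnX y, by
    have := hn y y
    rw [h.comm] at this
    exact (mul_eq_zero.1 (show 2 * B y (n y) = 0 by linear_combination this)).resolve_left h2⟩))
  rw [h.comm, hn, ← hb] at h0
  rw [map_smul, smul_eq_zero_iff_right (left_ne_zero_of_smul hw0)] at hs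
  simp [hs] at h0

namespace TStr

variable (T : TStr 1 B₁ B₂ B)

theorem kr_long {w s : V₂} {b : V₂ ≃ₗ[F] V₂} (hb : IsEich B₂ w s 0 b) (y : V) :
    T.kr 1 b y = y + (T.t (T.cr w y) s - T.t (T.cr s y) w) :=
  T.ext_t (f := (T.kr 1 b).toLinearMap) (g := 1 + (T.t.flip s ∘ₗ T.cr w - T.t.flip w ∘ₗ T.cr s))
    (fun v y => by simp [hb y, add_sub_assoc]) y

theorem sq_long {w s : V₂} (hw : B₂ w w = 0) (hs : B₂ s s = 0) (hws : B₂ w s = 0) {b : V₂ ≃ₗ[F] V₂}
    (hb : IsEich B₂ w s 0 b) : Sq (T.kr 1 b) := fun u =>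
  (T.kr 1 b).symm_apply_eq.2 (by simp [T.kr_long hb, hw, hs, hws, T.h₂.swap hws])

variable [FiniteDimensional F V₁] [FiniteDimensional F V₂] [FiniteDimensional F V] [Nontrivial V₁]

theorem kr_one_of_sq (h2 : (2 : F) ≠ 0) (hn : finrank F V₁ < finrank F V₂) {a b}
    (hU : T.kr a b ∈ UG B) (e : Sq (T.kr a b)) {X : Submodule F V} (hX : ∀ y, T.kr a b y - y ∈ X)
    (hX' : finrank F X ≤ finrank F V₁ * 2) : ∃ b', T.kr a b = T.kr 1 b' := by
  by_cases h1 : ∀ v, a v ∈ F ∙ v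
  · obtain ⟨c, hc⟩ := exists_smul_of_forall (a := a.toLinearMap) h1
    exact T.exists_kr_one hc
  push Not at h1
  obtain ⟨v, hv⟩ := h1
  have : Nontrivial V₂ := nontrivial_of_finrank_pos (R := F) (by omega)
  obtain ⟨u, hu, hu'⟩ := T.h₁.exists_perp_one hv 1
  obtain ⟨u₁, hu₁⟩ := T.h₁.exists_eq_one' (show v ≠ 0 by rintro rfl; simp at hv)
  obtain ⟨a', ha'⟩ := T.symm.exists_kr_one (a := b⁻¹) (b := a⁻¹)
    (c := 2 / (B₁ u₁ (a⁻¹ v) - B₁ u₁ (a v) * B₁ u (a⁻¹ v))) fun y => by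
      have h3 := congrArg (T.symm.cr u) (e (T.t v y))
      have h4 := congrArg (T.symm.cr u₁) (e (T.t v y))
      simp only [T.kr_inv, T.kr_t, map_sub, T.symm_cr_t, hu', T.h₁.swap hu, hu₁, zero_smul,
        one_smul] at h3 h4
      have h5 : (B₁ u₁ (a⁻¹ v) - B₁ u₁ (a v) * B₁ u (a⁻¹ v)) • b⁻¹ y = (2 : F) • y := by
        linear_combination (norm := module) h4 - B₁ u₁ (a v) • h3
      rcases eq_or_ne y 0 with rfl | hy
      · simp
      have h6 := left_ne_zero_of_smul (h5 ▸ smul_ne_zero h2 hy)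
      rw [div_eq_inv_mul, mul_smul, ← h5, inv_smul_smul₀ h6]
  rw [symm_kr, symm_kr, ← kr_inv, inv_eq_iff_eq_inv, kr_inv, inv_one] at ha'
  rw [ha'] at hU e hX ⊢
  generalize a'⁻¹ = a at *
  obtain ⟨y, hy⟩ := exists_ne (0 : V₂)
  have h3 := Sq.skew T.h₁ (T.symm.mem_UG₂ (by simpa using hU)) fun v => T.t_inj hy (by
    simpa [T.kr_inv] using e (T.t v y))
  by_cases h4 : ∀ v v', B₁ (dev a v) v' = 0
  · exact ⟨1, by rw [show a = 1 from LinearEquiv.ext fun v => sub_eq_zero.1 (T.h₁.nondeg _ (h4 v))]⟩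
  push Not at h4
  obtain ⟨v, v', h4⟩ := h4
  have h5 := Submodule.finrank_mono (T.symm.PS_le (L := Submodule.span F {dev a v, dev a v'})
    (X := X) fun y _ hp => by
      obtain ⟨c, d, rfl⟩ := Submodule.mem_span_pair.1 hp
      simpa [smul_sub, sub_add_sub_comm] using hX (T.t (c • v + d • v') y))
  rw [finrank_PS, finrank_span_pair_of_linearIndependent ((LinearIndependent.pair_iff'
    (by rintro h0; simp [h0] at h4)).2 fun c hc => h4 (by
      have h6 := h3 v v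
      rw [T.h₁.comm] at h6
      rw [h3, ← hc, map_smul, (mul_eq_zero.1 (show 2 * B₁ v (dev a v) = 0 by
        linear_combination h6)).resolve_left h2, smul_zero, neg_zero]))] at h5
  omega

end TStr

namespace Ctx

variable {T : TStr 1 B₁ B₂ B} {K : Subgroup (V ≃ₗ[F] V)} (c : Ctx T K)
  [FiniteDimensional F V₁] [FiniteDimensional F V₂] [FiniteDimensional F V] [Nontrivial V₁]
  (hR : ∀ β ∈ c.ring, ∃ a : F, ∀ v, β v = a • v) (h2 : (2 : F) ≠ 0)
  (hn : finrank F V₁ < finrank F V₂)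
include c hR h2 hn

theorem mem_kron_of_long {w s : V₂} (hw0 : w ≠ 0) (hw : B₂ w w = 0) (hs : B₂ s s = 0)
    (hws : B₂ w s = 0) (h1 : s ∉ F ∙ w) {b} (hb : IsEich B₂ w s 0 b) (hb' : b ∈ UG B₂)
    {k : V ≃ₗ[F] V} (hk : k ∈ K) (h : k * T.kr 1 b * k⁻¹ ∈ T.kron) : k ∈ T.kron := by
  obtain ⟨a, d, had⟩ := h
  have h3 : ∀ y, T.kr a d y - y ∈ mp k (T.PS (Submodule.span F {w, s})) := fun y => by
    simpa [had, mem_mp, T.kr_long hb] using sub_mem
      (T.t_mem_PS _ (Submodule.subset_span (by simp))) (T.t_mem_PS _ (Submodule.subset_span (by simp)))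
  obtain ⟨d', hd'⟩ := T.kr_one_of_sq h2 hn (had ▸ mul_mem (mul_mem (c.le hk)
    (T.kr_mem_UG (one_mem _) hb')) (inv_mem (c.le hk))) (had ▸ (T.sq_long hw hs hws hb).conj k) h3
    (by rw [finrank_mp, T.finrank_PS]; exact Nat.mul_le_mul_left _ (finrank_span_pair_le _ _))
  obtain ⟨y, hy⟩ : ∃ y, d' y - y ≠ 0 := by
    by_contra! h4
    rw [hd', show d' = 1 from LinearEquiv.ext fun y => sub_eq_zero.1 (h4 y), T.kr_one] at had
    obtain ⟨v, hv⟩ := exists_ne (0 : V₁)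
    obtain ⟨y, hy, hy'⟩ := T.h₂.exists_perp_one h1 1
    simpa [show T.kr 1 b = 1 by simpa using had.symm, hy, T.h₂.comm s y, hy', T.t_ne_zero hv hw0]
      using T.kr_long hb (T.t v y)
  exact (T.kron.inv_mem_iff).1 (c.mem_kron_of_line hR hw0 hw hs hws hy (inv_mem hk) fun v => by
    simpa [hd', mem_mp] using h3 (T.t v y))

set_option maxHeartbeats 400000 in
/-- The global argument for two orthogonal factors. -/
theorem le_kron_orth [Finite V] : K ≤ T.kron := by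
  by_contra hK
  obtain ⟨w₁, w₂, h0, hw₁, hw₂, h12, h1⟩ := c.exists_flag
  set L := Submodule.span F {w₁, w₂} with hL
  have hL1 : L ≤ perp B₂ L := T.pair_le_perp hw₁ hw₂ h12
  have hli : LinearIndependent F ![w₁, w₂] :=
    (LinearIndependent.pair_iff' h0).2 fun a ha => h1 (Submodule.mem_span_singleton.2 ⟨a, ha⟩)
  have hL2 : finrank F L = 2 := finrank_span_pair_of_linearIndependent hli
  have hL3 : w₁ ∈ L := Submodule.subset_span (by simp)
  have hL4 : w₂ ∈ L := Submodule.subset_span (by simp)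
  obtain ⟨b₀, hb₀, hb₀'⟩ : ∃ b ∈ QE B₂ w₁, IsEich B₂ w₁ w₂ 0 b := by
    obtain ⟨b, hb, hb'⟩ := T.h₂.exists_gE (a := -w₂) (γ := 0) hw₁ (by simp [h12]) (by simp [hw₂])
    exact ⟨b, hb, fun y => by simp [hb', sub_eq_add_neg, add_right_comm]⟩
  have hx := c.e₂ hw₁ hb₀
  have hx1 := T.kr_long hb₀'
  have hx2 := T.sq_long hw₁ hw₂ h12 hb₀'
  have hx3 := fun k => c.mem_kron_of_long hR h2 hn h0 hw₁ hw₂ h12 h1 hb₀' hb₀.1 (k := k)
  have hx4 : ∀ y, T.kr 1 b₀ y - y ∈ T.PS L := fun y => by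
    simpa [hx1] using sub_mem (T.t_mem_PS _ hL4) (T.t_mem_PS _ hL3)
  have hx5 : ∀ y ∈ perp B (T.PS L), T.kr 1 b₀ y = y := fun y hy => by
    simp [hx1, T.mem_perp_PS.1 hy _ hL3, T.mem_perp_PS.1 hy _ hL4]
  obtain ⟨y₁, hy₁⟩ := T.h₂.exists_apply_eq hli ![1, 0]
  obtain ⟨y₂, hy₂⟩ := T.h₂.exists_apply_eq hli ![0, 1]
  simp only [Fin.forall_fin_two, Matrix.cons_val_zero, Matrix.cons_val_one] at hy₁ hy₂
  have hx6 : T.PS L ≤ LinearMap.range (dev (T.kr 1 b₀)) := T.PS_le fun v y hy => by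
    obtain ⟨a, d, rfl⟩ := Submodule.mem_span_pair.1 hy
    exact ⟨T.t v (d • y₁ - a • y₂), by simp [hx1, hy₁, hy₂, add_comm]⟩
  obtain ⟨g, M⟩ := exists_max hK (T.PS L)
  generalize hxx : T.kr 1 b₀ = x at *
  have hP := T.PS_le_perp hL1
  have hP' : mp g (T.PS L) ≤ perp B (mp g (T.PS L)) := fun y hy =>
    (mem_perp_mp (c.le M.mem)).2 (hP hy)
  have hx' := mul_mem (mul_mem M.mem hx) (inv_mem M.mem)
  have hx7 : ∀ y ∈ perp B (mp g (T.PS L)), (g * x * g⁻¹) y = y := fun y hy => by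
    rw [LinearEquiv.mul_apply, LinearEquiv.mul_apply, hx5 _ ((mem_perp_mp (c.le M.mem)).1 hy)]
    simp
  have n1 : ∀ u ∈ T.PS L, (g * x * g⁻¹) u ∈ T.PS L → u ∈ mp g (T.PS L) := fun u hu hu' => by
    by_contra h3
    exact M.nmem (hx3 g M.mem (by
      simpa using M.conj_mem (one_mem _) hx' inf_le_left (fun y hy => hx7 y (hP' hy.2)) hu
        (fun h => h3 h.2) hu'))
  have n2 : ∀ y ∈ T.PS L ⊔ mp g (T.PS L), y ∈ perp B (T.PS L) → y ∈ T.PS L := fun y hy hy' => by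
    obtain ⟨p, hp, p', hp', rfl⟩ := Submodule.mem_sup.1 hy
    by_contra h3
    exact M.nmem ((T.kron.inv_mem_iff).1 (hx3 _ (inv_mem M.mem) (M.conj_mem M.mem hx inf_le_right
      (fun y hy => hx5 y (hP hy.1)) hp' (fun h => h3 (add_mem hp h.1))
      (by rwa [hx5 _ (by simpa using sub_mem hy' (hP hp))]))))
  have bad : T.PS L ⊓ mp g (T.PS L) = ⊥ → ∀ L₄ : Submodule F V₂, 4 ≤ finrank F L₄ →
      ¬ T.PS L₄ ≤ T.PS L ⊔ mp g (T.PS L) := fun hD L₄ h3 h4 => by
    have h5 := Submodule.finrank_add_le_finrank_add_finrank (T.PS L) (mp g (T.PS L))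
    have h6 := T.finrank_PS L₄
    have h7 := Nat.mul_le_mul_left (finrank F V₁) h3
    have h8 := finrank_pos (R := F) (M := V₁)
    rw [finrank_mp, T.finrank_PS, hL2] at h5
    have h9 := Submodule.eq_of_le_of_finrank_le h4 (by omega)
    have h10 : finrank F L₄ = 4 := by
      rw [← h9] at h5
      nlinarith
    have h11 : ¬ perp B₂ L₄ ≤ ⊥ := fun h => by
      have := Submodule.finrank_mono h
      have := T.h₂.finrank_add_finrank_perp L₄
      have := c.five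
      rw [finrank_bot] at *
      omega
    obtain ⟨v, hv⟩ := exists_ne (0 : V₁)
    obtain ⟨z, hz, -, hz'⟩ := T.h₂.exists_aniso_perp h2 (fun h => h11 fun y hy => by
      have h12 := T.perp_PS L₄ ▸ T.t_mem_PS v hy
      rw [h9, perp_sup] at h12
      have h13 := n2 _ (h4 (T.t_mem_PS v (h hy))) h12.1
      by_contra h14
      exact T.t_ne_zero hv h14 ((Submodule.eq_bot_iff _).1 hD _
        ⟨h13, n1 _ h13 (by rwa [hx7 _ h12.2])⟩)) h11
    have hE0 : ∀ w ∈ L, ∃ E ∈ UG B₂, ∃ γ, IsEich B₂ w z γ E ∧ B₂ w z = 0 ∧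
        g⁻¹ * T.kr 1 E * g ∈ T.kron := fun w hw => by
      have h12 : B₂ w z = 0 := hz w (T.mem_of_t_mem hv (h9 ▸ Submodule.mem_sup_left (T.t_mem_PS v hw)))
      obtain ⟨E, hE, γ, hE'⟩ := T.h₂.exists_isEich (hL1 hw w hw) h12
      refine ⟨E, hE, γ, hE', h12, ?_⟩
      obtain ⟨p, hp, hp0⟩ := Submodule.exists_mem_ne_zero_of_ne_bot
        (p := mp g (T.PS L) ⊓ T.PS (L₄ ⊓ perp B₂ (F ∙ w))) fun h => by
          have e1 := Submodule.finrank_sup_add_finrank_inf_eq (mp g (T.PS L))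
            (T.PS (L₄ ⊓ perp B₂ (F ∙ w)))
          have e2 := Submodule.finrank_mono (show mp g (T.PS L) ⊔ T.PS (L₄ ⊓ perp B₂ (F ∙ w)) ≤
            T.PS L₄ from sup_le (h9 ▸ le_sup_right) (T.PS_mono inf_le_left))
          have e3 := Submodule.finrank_sup_add_finrank_inf_eq L₄ (perp B₂ (F ∙ w))
          have e4 := T.h₂.finrank_add_finrank_perp (F ∙ w)
          have e5 := Submodule.finrank_le (L₄ ⊔ perp B₂ (F ∙ w))
          have e6 : finrank F (F ∙ w) ≤ 1 := finrank_span_le_card ({w} : Set V₂) |>.trans (by simp)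
          have e7 := Nat.mul_le_mul_left (finrank F V₁)
            (show 3 ≤ finrank F ↥(L₄ ⊓ perp B₂ (F ∙ w)) by omega)
          rw [h, finrank_bot, finrank_mp, T.finrank_PS, T.finrank_PS, hL2] at e1
          rw [h10] at h6
          omega
      refine M.conj_mem M.mem (c.e₂ (hL1 hw w hw) (isEich_mem_QE T.h₂ hE (hL1 hw w hw) h12 hE'))
        inf_le_right (by simp [hD]) hp.1 (by simpa [hD]) ?_
      rw [show T.kr 1 E p = p from T.PS_ext (f := (T.kr 1 E).toLinearMap) (g := 1) (fun v y hy => by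
        simp [hE' y, mem_perp_singleton.1 hy.2, T.h₂.swap (hz y hy.1)]) hp.2]
      exact hp.1
    obtain ⟨E₁, h13, γ₁, h14, h15, h16⟩ := hE0 w₁ hL3
    obtain ⟨E₂, h17, γ₂, h18, h19, h20⟩ := hE0 w₂ hL4
    have h21 := isEich_mul hw₁ (by simp [h18 z, h19, T.h₂.swap h15, T.h₂.swap h12]) (by simp [h15])
      (isEich_conj h17 (by simp [h18 w₁, T.h₂.swap h15, T.h₂.swap h12]) h14)
      (isEich_inv hw₁ (T.h₂.swap h15) h15 h14)
    refine M.nmem ((T.kron.inv_mem_iff).1 (c.mem_kron_of_long hR h2 hn h0 hw₁ (s := -B₂ z z • w₂)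
      (by simp [hw₂]) (by simp [h12]) (by rwa [Submodule.smul_mem_iff _ (neg_ne_zero.2 hz')])
      (b := E₂ * E₁ * E₂⁻¹ * E₁⁻¹) (by convert h21 using 1 <;> simp [h18 z, h19, sub_eq_add_neg])
      (mul_mem (mul_mem (mul_mem h17 h13) (inv_mem h17)) (inv_mem h13)) (inv_mem M.mem) ?_))
    convert mul_mem (mul_mem (mul_mem h20 h16) (inv_mem h20)) (inv_mem h16) using 1
    rw [show T.kr 1 (E₂ * E₁ * E₂⁻¹ * E₁⁻¹) = T.kr 1 E₂ * T.kr 1 E₁ * (T.kr 1 E₂)⁻¹ * (T.kr 1 E₁)⁻¹ by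
      simp [T.kr_inv, T.kr_mul]]
    group
  have hΓ : Subgroup.closure {x, g * x * g⁻¹} ≤ K ⊓ fixStab (perp B (T.PS L ⊔ mp g (T.PS L))) := by
    rw [Subgroup.closure_le, perp_sup]
    rintro _ (rfl | rfl)
    exacts [⟨hx, fun y hy => hx5 y hy.1⟩, ⟨hx', fun y hy => hx7 y hy.2⟩]
  have h10 : ∀ k ∈ Subgroup.closure {x, g * x * g⁻¹}, ∀ p ∈ T.PS L ⊓ mp g (T.PS L), k p = p :=
    fun k hk p hp => (hΓ hk).2 p (perp_sup (B := B) _ _ ▸ ⟨hP hp.1, hP' hp.2⟩)
  have h11 : ∀ k ∈ Subgroup.closure {x, g * x * g⁻¹}, ∀ y, k y - y ∈ T.PS L ⊔ mp g (T.PS L) :=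
    fun k hk => T.h.sub_mem_of_fix (c.le (hΓ hk).1) (hΓ hk).2
  have hxΓ : x ∈ Subgroup.closure {x, g * x * g⁻¹} := Subgroup.subset_closure (by simp)
  have stab : ∀ a b, T.kr a b ∈ Subgroup.closure {x, g * x * g⁻¹} → L.map b.toLinearMap = L →
      ∀ p ∈ T.PS L, T.kr a b p = p := fun a b hk hb => by
    have hU := c.le (hΓ hk).1
    have h3 : ∀ p ∈ T.PS L, T.kr a b p ∈ T.PS L := fun p hp => by
      rw [← hb, ← T.map_kr_PS a]; exact Submodule.mem_map_of_mem hp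
    replace hb : ∀ y ∈ L, ∀ v, T.kr a b (T.t v y) ∈ T.PS L := fun y hy v => h3 _ (T.t_mem_PS v hy)
    obtain ⟨b', hb'⟩ := T.kr_one_of_perp c.five hL2.le (a := a) (b := b) fun y hy =>
      n2 _ (h11 _ hk y) (sub_mem (fun p hp => by
        obtain ⟨p, rfl⟩ := (T.kr a b).surjective p
        rw [hU, hy p (((mem_subStab_of_le h3) p).2 hp)]) hy)
    rw [hb'] at hk hU h3 hb ⊢
    obtain ⟨p, p₂, ⟨e1, -, e2⟩, ⟨e3, e4, -⟩, e5⟩ :=
      exists_normal_form T.h (c.le hx) (c.le hx') hx2 (hx2.conj g) hk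
    have h4 : ∀ y, T.kr 1 b' (dev x y) = dev x (p y) := fun y => by
      have h4 := LinearMap.congr_fun e5 y
      rw [e1, e4, mul_assoc, e3] at h4
      simp only [Module.End.mul_apply, LinearMap.add_apply, LinearEquiv.coe_coe] at h4
      have h5 : dev (g * x * g⁻¹) (dev x (p₂ y)) ∈ T.PS L := by
        rw [← sub_eq_iff_eq_add'.2 h4]
        exact sub_mem (h3 _ (hx4 _)) (hx4 _)
      rw [h4, dev_apply (g * x * g⁻¹), hx7 (dev x (p₂ y)) (hP' (n1 _ (hx4 _) (by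
        simpa using add_mem h5 (hx4 (p₂ y))))), sub_self, add_zero]
    obtain ⟨v, hv⟩ := exists_ne (0 : V₁)
    obtain ⟨u, hu⟩ := T.h₁.exists_eq_one hv
    have h5 : ∀ y y', B₂ (b' (B₂ w₁ y • w₂ - B₂ w₂ y • w₁)) y' =
        -B₂ y (b' (B₂ w₁ y' • w₂ - B₂ w₂ y' • w₁)) := fun y y' => by
      have h5 : B (T.kr 1 b' (dev x (T.t v y))) (T.t u y') =
          -B (T.t v y) (T.kr 1 b' (dev x (T.t u y'))) := by
        rw [h4, h4, hx2.skew T.h (c.le hx), e2, ← Module.End.mul_apply p, e1, Module.End.mul_apply]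
      simpa [hx1, T.tt, hu] using h5
    obtain ⟨a₁, a₂, e6⟩ := Submodule.mem_span_pair.1 (T.mem_of_t_mem hv (by simpa using hb _ hL3 v))
    obtain ⟨a₃, a₄, e7⟩ := Submodule.mem_span_pair.1 (T.mem_of_t_mem hv (by simpa using hb _ hL4 v))
    have e8 := h5 y₁ y₁
    have e9 := h5 y₂ y₂
    have e10 := h5 y₁ y₂
    simp only [hy₁, hy₂, one_smul, zero_smul, sub_zero, zero_sub, map_neg, ← e6, ← e7, map_add,
      map_smul, LinearMap.add_apply, LinearMap.smul_apply, LinearMap.neg_apply, smul_eq_mul,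
      T.h₂.comm y₁, T.h₂.comm y₂] at e8 e9 e10
    have h6 : ∀ y ∈ L, b' y = a₁ • y := fun y hy => by
      obtain ⟨s, t, rfl⟩ := Submodule.mem_span_pair.1 hy
      rw [map_add, map_smul, map_smul, ← e6, ← e7,
        (mul_eq_zero.1 (show 2 * a₂ = 0 by linear_combination -e9)).resolve_left h2,
        (mul_eq_zero.1 (show 2 * a₃ = 0 by linear_combination e8)).resolve_left h2,
        show a₄ = a₁ by linear_combination e10]
      module
    have h7 : ∀ p ∈ T.PS L, T.kr 1 b' p = a₁ • p := fun p hp =>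
      T.PS_ext (f := (T.kr 1 b').toLinearMap) (g := a₁ • 1) (fun v y hy => by simp [h6 y hy]) hp
    by_cases h8 : a₁ = 1
    · simpa [h8] using h7
    have h9 := sub_ne_zero.2 h8
    refine (bad ((Submodule.eq_bot_iff _).2 fun p hp => ?_) (LinearMap.range (dev b')) ?_
      (T.PS_le ?_)).elim
    · have := (h7 p hp.1).symm.trans (h10 _ hk p hp)
      exact (smul_eq_zero_iff_right h9).1 (by rw [sub_smul, this, one_smul, sub_self])
    · have hb2 := T.mem_UG₂ hU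
      have e11 := Submodule.finrank_sup_add_finrank_inf_eq (LinearMap.range (dev b')) (perp B₂ L)
      have e12 := Submodule.finrank_mono (show L ≤ LinearMap.range (dev b') ⊓ perp B₂ L from
        fun y hy => ⟨⟨(a₁ - 1)⁻¹ • y, by
          rw [map_smul, dev_apply, h6 y hy, inv_smul_eq_iff₀ h9, sub_smul, one_smul]⟩, hL1 hy⟩)
      have e13 := T.h₂.finrank_add_finrank_perp L
      rw [show LinearMap.range (dev b') ⊔ perp B₂ L = ⊤ from eq_top_iff.2 fun y _ =>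
        Submodule.mem_sup.2 ⟨_, ⟨((1 - a₁)⁻¹ * a₁) • y, rfl⟩,
          y - dev b' (((1 - a₁)⁻¹ * a₁) • y), fun w hw => ?_, by abel⟩,
        finrank_top] at e11
      · omega
      have e14 : a₁ * B₂ w (b' y) = B₂ w y := by rw [← hb2 w y, h6 w hw]; simp
      have := sub_ne_zero.2 (Ne.symm h8)
      simp only [map_sub, map_smul, dev_apply, smul_eq_mul, ← e14]
      field_simp
      ring
    · rintro v _ ⟨y, rfl⟩
      simpa using h11 _ hk (T.t v y)
  refine M.false_of_sub (x := fun c => if c then x else x⁻¹) (hΓ.trans inf_le_left)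
    (fun k hk h => c.mem_kron_of_line hR h0 hw₁ hw₂ h12 h0 hk fun v => h _ (T.t_mem_PS v hL3))
    (fun k hk c => ?_) (fun c y => ?_) (fun y hy => ?_) (fun c => ?_)
    (Subgroup.subset_closure (by simp)) h10 ?_
  · cases c
    · exact fun h => hx3 k hk (by simpa [mul_assoc] using inv_mem h)
    · exact hx3 k hk
  · cases c
    · simpa [-LinearEquiv.coe_inv, hx2 y] using neg_mem (hx4 y)
    · exact hx4 y
  · simp only [↓reduceIte, Bool.false_eq_true, hx2 y] at hy ⊢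
    exact sub_eq_zero.1 ((smul_eq_zero_iff_right h2).1 (by linear_combination (norm := module) hy))
  · cases c
    exacts [inv_mem hxΓ, hxΓ]
  rintro _ hk ⟨a, b, rfl⟩
  by_cases h3 : L.map b.toLinearMap = L
  · exact stab a b hk h3
  have h4 : T.PS (L.map b.toLinearMap) ≤ T.PS L ⊔ mp g (T.PS L) := by
    rw [← T.map_kr_PS a]
    rintro _ ⟨p, hp, rfl⟩
    simpa using add_mem (h11 _ hk p) (Submodule.mem_sup_left hp)
  have h5 := LinearEquiv.finrank_map_eq b L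
  by_cases h6 : L ⊓ L.map b.toLinearMap = ⊥
  · refine (bad ((Submodule.eq_bot_iff _).2 fun p hp => ?_) (L ⊔ L.map b.toLinearMap) ?_
      (by rw [T.PS_sup]; exact sup_le le_sup_left h4)).elim
    · have : p ∈ T.PS (L ⊓ L.map b.toLinearMap) := by
        rw [T.PS_inf, ← T.map_kr_PS a]
        exact ⟨hp.1, p, hp.1, h10 _ hk p hp⟩
      rw [h6] at this
      exact T.PS_le (X := ⊥) (by simp) this
    · have := Submodule.finrank_sup_add_finrank_inf_eq L (L.map b.toLinearMap)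
      rw [h6, finrank_bot] at this
      omega
  obtain ⟨w, hw, hw0⟩ := Submodule.exists_mem_ne_zero_of_ne_bot h6
  have h7 := mul_mem (mul_mem hk hxΓ) (inv_mem hk)
  have h8 := hx2.conj (T.kr a b)
  have h9 : ∀ y, (T.kr a b * x * (T.kr a b)⁻¹) y - y ∈ T.PS (L.map b.toLinearMap) := fun y => by
    rw [← T.map_kr_PS a]
    exact ⟨_, hx4 ((T.kr a b)⁻¹ y), by simp⟩
  have h12 : T.kr a b * x * (T.kr a b)⁻¹ = T.kr 1 (b * b₀ * b⁻¹) := by
    simp [← hxx, T.kr_inv, T.kr_mul]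
  obtain ⟨v, hv⟩ := exists_ne (0 : V₁)
  have h13 := stab 1 (b * b₀ * b⁻¹) (h12 ▸ h7) (mem_subStab_iff_map.1 (mem_subStab_of_le
    fun s hs => by
      rw [h12] at h7 h8 h9
      generalize b * b₀ * b⁻¹ = d at *
      simpa using add_mem hs ((Submodule.span_singleton_le_iff_mem _ _).2 hw.1 (skew_mem T.h₂ h2
        (Sq.skew T.h₂ (T.mem_UG₂ (c.le (hΓ h7).1)) fun y => T.symm.t_inj hv (by
          simpa [T.kr_inv] using h8 (T.t v y))) (h5.trans hL2).le
        (fun y => T.mem_of_t_mem hv (by simpa using h9 (T.t v y))) hw.2 hw0 (hL1 hw.1 s hs)))))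
  refine (h3 (Submodule.eq_of_le_of_finrank_eq (fun y hy => T.mem_of_t_mem hv
    (n2 _ (h4 (T.t_mem_PS v hy)) ?_)) h5)).elim
  obtain ⟨p, hp, hp'⟩ := (T.map_kr_PS a b L).ge (T.t_mem_PS v hy)
  obtain ⟨u, rfl⟩ := hx6 hp
  intro p hp
  rw [← hp', show (T.kr a b).toLinearMap (dev x u) =
    (T.kr a b * x * (T.kr a b)⁻¹) (T.kr a b u) - T.kr a b u by simp, h12,
    T.h.apply_sub (c.le (hΓ (h12 ▸ h7)).1), show (T.kr 1 (b * b₀ * b⁻¹))⁻¹ p = p from
      (T.kr 1 _).symm_apply_eq.2 (h13 p hp).symm]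
  simp

end Ctx

end Cfsg.Lib.TMax
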