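import Cfsg.Agent.Lib.TMax.Ring

/-!
# Overgroups of tensor product groups: the local analysis
-/

namespace Cfsg.Lib.TMax

open Module Cfsg.Lib.Unitary

set_option linter.unusedSectionVars false

variable {F V V₁ V₂ : Type*} [Field F] [AddCommGroup V] [Module F V] [AddCommGroup V₁]
  [Module F V₁] [AddCommGroup V₂] [Module F V₂] {σ : F →+* F} {ε : F}
  {B : V →ₛₗ[σ] V →ₗ[F] F} {B₁ : V₁ →ₛₗ[σ] V₁ →ₗ[F] F} {B₂ : V₂ →ₛₗ[σ] V₂ →ₗ[F] F}

theorem isEich_mul {e w w' : V} {γ γ' : F} {g g' : V ≃ₗ[F] V} (he : B e e = 0) (hw : B w e = 0)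
    (hw' : B e w' = 0) (h : IsEich B e w γ g) (h' : IsEich B e w' γ' g') :
    IsEich B e (w + w') (γ + γ' - B w w') (g * g') := fun x => by
  rw [LinearEquiv.mul_apply, h', h]
  simp only [map_add, map_sub, map_smul, he, hw, hw', smul_eq_mul, LinearMap.add_apply]
  module

theorem isEich_inv {e w : V} {γ : F} {g : V ≃ₗ[F] V} (he : B e e = 0) (hw : B w e = 0)
    (hw' : B e w = 0) (h : IsEich B e w γ g) : IsEich B e (-w) (-γ - B w w) g⁻¹ := fun x => by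
  rw [LinearEquiv.coe_inv, LinearEquiv.symm_apply_eq, h]
  simp only [map_add, map_sub, map_smul, map_neg, he, hw, hw', smul_eq_mul, LinearMap.neg_apply]
  module

theorem isEich_conj {e w : V} {γ : F} {g k : V ≃ₗ[F] V} (hk : k ∈ UG B) (hke : k e = e)
    (h : IsEich B e w γ g) : IsEich B e (k w) γ (k * g * k⁻¹) := fun x => by
  rw [LinearEquiv.mul_apply, LinearEquiv.mul_apply, h, ← UG_apply_left hk, ← UG_apply_left hk]
  simp [hke]

namespace EF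

/-- The vectors `w` such that `K` contains an Eichler map with data `e, w`. -/
def AE (h : EF σ 1 B) (K : Subgroup (V ≃ₗ[F] V)) {e : V} (he : B e e = 0) : AddSubgroup V where
  carrier := {w | B e w = 0 ∧ ∃ g ∈ K, ∃ γ, IsEich B e w γ g}
  zero_mem' := ⟨map_zero _, 1, one_mem _, 0, fun x => by simp⟩
  add_mem' := by
    rintro w w' ⟨hw, g, hg, γ, e1⟩ ⟨hw', g', hg', γ', e2⟩
    exact ⟨by simp [hw, hw'], g * g', mul_mem hg hg', _, isEich_mul he (h.swap hw) hw' e1 e2⟩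
  neg_mem' := by
    rintro w ⟨hw, g, hg, γ, e1⟩
    exact ⟨by simp [hw], g⁻¹, inv_mem hg, _, isEich_inv he (h.swap hw) hw e1⟩

theorem exists_isEich (h : EF σ 1 B) {e a : V} (he : B e e = 0) (ha : B e a = 0) :
    ∃ g ∈ UG B, ∃ γ, IsEich B e a γ g := by
  obtain ⟨g, hg, γ, hg'⟩ := h.exists_gE' (a := -a) he (by simp [ha])
  exact ⟨g, hg.1, γ, fun x => by rw [hg']; simp only [map_neg, LinearMap.neg_apply]; module⟩

variable (h : EF σ ε B)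
include h

theorem comm_of_fix [FiniteDimensional F V] {P : Submodule F V} {k z : V ≃ₗ[F] V} (hk : k ∈ UG B)
    (hz : z ∈ UG B) (h1 : ∀ x ∈ P, k x = x) (h2 : ∀ x ∈ perp B P, z x = x) : k * z * k⁻¹ = z := by
  ext x
  have h3 : k⁻¹ x - x ∈ perp B P := fun p hp => by
    rw [h.apply_sub (inv_mem hk), inv_inv, h1 p hp, sub_self, map_zero, LinearMap.zero_apply]
  have h4 := h2 _ h3
  have h5 := h1 _ (h.sub_mem_of_fix hz h2 x)
  rw [map_sub, sub_eq_iff_eq_add] at h4 h5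
  rw [LinearEquiv.mul_apply, LinearEquiv.mul_apply, h4, map_add, map_sub, h5]
  simp

theorem exists_simil [FiniteDimensional F V] {w w' : V} (hw : B w w = 0) (hw' : B w' w' = 0)
    (h1 : B w w' = 1) {b₀ : V →ₗ[F] V} (h2 : ∀ y, B w y = 0 → B w (b₀ y) = 0) (h3 : b₀ w = w)
    {μ : F} (hμ : μ ≠ 0) (hμ' : σ μ = μ)
    (h4 : ∀ y y', B w y = 0 → B w y' = 0 → μ * B (b₀ y) (b₀ y') = B y y') :
    ∃ b : V ≃ₗ[F] V, b w = w ∧ (∀ y y', μ * B (b y) (b y') = B y y') ∧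
      ∀ y, B w y = 0 → b₀ y - b y ∈ F ∙ w := by
  have h5 : B w' w = ε := by rw [h.flip, h1, map_one, mul_one]
  let π : V →ₗ[F] V := 1 - (ε • B w').smulRight w - (B w).smulRight w'
  have hπ : ∀ x, π x = x - (ε * B w' x) • w - B w x • w' := fun _ => rfl
  have h6 : ∀ x, B w (π x) = 0 := fun x => by simp [hπ, hw, h1]
  have h7 : ∀ x, B w' (π x) = 0 := fun x => by
    simp only [hπ, map_sub, map_smul, h5, hw', smul_eq_mul]
    linear_combination (-B w' x) * h.eps_sq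
  have h8 : ∀ x y, B w x = 0 → B w y = 0 → B (π x) (π y) = B x y := fun x y hx hy => by
    simp [hπ, hx, hy, hw, h.swap hx]
  let b : V →ₗ[F] V := π ∘ₗ b₀ ∘ₗ π + (ε • B w').smulRight w + (μ⁻¹ • B w).smulRight w'
  have hb : ∀ x, b x = π (b₀ (π x)) + (ε * B w' x) • w + (μ⁻¹ * B w x) • w' := fun _ => rfl
  have h9 : ∀ y y', μ * B (b y) (b y') = B y y' := fun y y' => by
    have e1 : ∀ y, y = π y + (ε * B w' y) • w + B w y • w' := fun y => by rw [hπ]; module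
    have e2 := h4 _ _ (h6 y) (h6 y')
    rw [← h8 _ _ (h2 _ (h6 y)) (h2 _ (h6 y'))] at e2
    conv_rhs => rw [e1 y, e1 y']
    simp only [hb, map_add, map_smul, LinearMap.add_apply, LinearMap.map_smulₛₗ,
      LinearMap.smul_apply, smul_eq_mul, h6, h7, h.swap (h6 _), h.swap (h7 _), hw, hw', h1, h5,
      map_mul, map_inv₀, hμ', ← e2]
    field_simp
    ring
  refine ⟨LinearEquiv.ofInjectiveEndo b (by
    rw [← LinearMap.ker_eq_bot, eq_bot_iff]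
    exact fun y hy => h.nondeg _ fun y' => by rw [← h9, show b y = 0 from hy]; simp), ?_, h9,
    fun y hy => ?_⟩
  · change b w = w
    have : π w = 0 := by simp [hπ, h5, hw, h.eps_sq]
    simp [hb, this, h5, hw, h.eps_sq]
  · change b₀ y - b y ∈ _
    have : b₀ y - b y = (ε * B w' (b₀ (π y))) • w := by
      rw [hb, hπ (b₀ _), h2 _ (h6 y), hy]
      generalize ε * B w' (b₀ (π y)) = d
      simp only [hπ y, hy, h3, map_sub, map_smul, zero_smul, mul_zero, sub_zero, add_zero]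
      abel
    exact this ▸ Submodule.smul_mem _ _ (Submodule.mem_span_singleton_self w)

end EF

namespace TStr

variable (T : TStr ε B₁ B₂ B)

theorem t_cr {w w' : V₂} (h : B₂ w' w = 1) {p : V} (hp : p ∈ T.PS (F ∙ w)) :
    T.t (T.cr w' p) w = p := by
  obtain ⟨v, rfl⟩ := T.mem_P.1 hp
  simp [h]

theorem exists_A [FiniteDimensional F V₁] {w w' : V₂} (hw : w ≠ 0) (hw' : w' ≠ 0) {z : V ≃ₗ[F] V}
    (h : ∀ v, z (T.t v w) ∈ T.PS (F ∙ w')) :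
    ∃ A : V₁ ≃ₗ[F] V₁, ∀ v, z (T.t v w) = T.t (A v) w' := by
  obtain ⟨s, hs⟩ := T.h₂.exists_eq_one' hw'
  let A : V₁ →ₗ[F] V₁ := T.cr s ∘ₗ z.toLinearMap ∘ₗ T.t.flip w
  have hA : ∀ v, z (T.t v w) = T.t (A v) w' := fun v => (T.t_cr hs (h v)).symm
  exact ⟨LinearEquiv.ofInjectiveEndo A fun v v' e =>
    T.t_inj hw (z.injective (by rw [hA, hA, e])), hA⟩

theorem B_P {w : V₂} (hw : B₂ w w = 0) (u : V₁) : B (T.t u w) (T.t u w) = 0 := by simp [tt, hw]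

end TStr

namespace Ctx

variable {T : TStr ε B₁ B₂ B} {K : Subgroup (V ≃ₗ[F] V)} (c : Ctx T K)
  [FiniteDimensional F V₁] [FiniteDimensional F V₂] [FiniteDimensional F V] [Nontrivial V₁]
include c

section Small

variable (hR : ∀ β ∈ c.ring, ∃ a : F, ∀ v, β v = a • v)
include hR

theorem exists_cr {w : V₂} {hw : B₂ w w = 0} (hw0 : w ≠ 0) {α : V →ₗ[F] V₁} (h : α ∈ T.uA K hw) :
    ∃ s, B₂ w s = 0 ∧ ∀ x, T.cr w x = 0 → α x = T.cr s x := by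
  obtain ⟨v₀, hv⟩ := exists_ne (0 : V₁)
  obtain ⟨u₀, hu⟩ := T.h₁.exists_eq_one' hv
  obtain ⟨s, hs⟩ := T.h₂.exists_eq (B₁ u₀ ∘ₗ α ∘ₗ T.t v₀)
  refine ⟨s, T.h₂.swap (by simp [hs, h.1]), fun x hx => T.cr_ext (fun v y hy => ?_) hx⟩
  refine sub_eq_zero.1 (T.h₂.span_iso_perp c.iso c.five hw0
    (S := (LinearMap.ker ((α - T.cr s) ∘ₗ T.t v)).toAddSubgroup) (fun y h1 h2 => ?_) hy)
  obtain ⟨a, ha⟩ := hR _ (c.alpha_mem hw0 h2 h1 h)
  simp only [LinearMap.comp_apply, LinearMap.flip_apply] at ha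
  simp [hs, ha, hu]

theorem mem_kron_of_unip {w : V₂} (hw0 : w ≠ 0) (hw : B₂ w w = 0) {y : V ≃ₗ[F] V} (hy : y ∈ K)
    (h1 : ∀ v, y (T.t v w) = T.t v w) (h2 : ∀ x, T.cr w x = 0 → y x - x ∈ T.PS (F ∙ w)) :
    y ∈ T.kron := by
  obtain ⟨w', hw'⟩ := T.h₂.exists_eq_one' hw0
  obtain ⟨w₁, hw₁⟩ := T.h₂.exists_eq_one hw0
  obtain ⟨s, hs, hs'⟩ := c.exists_cr hR (hw := hw) hw0 (α := T.cr w' ∘ₗ dev y)
    ⟨fun v => by simp [h1], y, hy, fun x hx => by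
      rw [LinearMap.comp_apply, dev_apply, T.t_cr hw' (h2 x hx), add_sub_cancel]⟩
  obtain ⟨b, -, -, hb, hb'⟩ := c.exists_E hw hs
  have h3 : ∀ x, T.cr w x = 0 → ((T.kr 1 b)⁻¹ * y) x = x := fun x hx =>
    (T.kr 1 b).symm_apply_eq.2 (by
      rw [hb' x hx, ← hs' x hx, LinearMap.comp_apply, dev_apply, T.t_cr hw' (h2 x hx),
        add_sub_cancel]
      rfl)
  have h4 := mul_mem (inv_mem hb) hy
  rw [← T.kron.mul_mem_cancel_left (inv_mem (T.kr_mem 1 b))]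
  generalize (T.kr 1 b)⁻¹ * y = r at h3 h4
  have h5 : ∀ x, r x = x + T.t ((T.cr w' ∘ₗ dev r ∘ₗ T.t.flip w₁) (T.cr w x)) w := fun x => by
    have := h3 (x - T.t (T.cr w x) w₁) (by simp [hw₁])
    rw [LinearMap.comp_apply, LinearMap.comp_apply, dev_apply, T.t_cr hw'
      (T.h.sub_mem_of_fix (c.le h4) (fun x hx => h3 x (T.mem_perp_P.1 hx)) _)]
    rw [map_sub, sub_eq_iff_eq_add] at this
    rw [this, LinearMap.flip_apply]
    abel
  obtain ⟨a, ha⟩ := hR _ (c.zeta_mem hw0 h4 h5)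
  exact ⟨1, LinearEquiv.transvection (f := a • B₂ w) (v := w) (by simp [hw]), T.eq_of_t fun v y => by
    rw [h5, ha]; simp [LinearMap.transvection.apply, smul_smul, mul_comm]⟩

/-- The stabiliser of `V₁ ⊗ w` preserves the tensor decomposition. -/
theorem mem_kron_of_stab {w : V₂} (hw0 : w ≠ 0) (hw : B₂ w w = 0) {z : V ≃ₗ[F] V} (hz : z ∈ K)
    (hP : ∀ v, z (T.t v w) ∈ T.PS (F ∙ w)) : z ∈ T.kron := by
  obtain ⟨A, hA⟩ := T.exists_A hw0 hw0 hP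
  have hA' : ∀ v, z⁻¹ (T.t v w) = T.t (A⁻¹ v) w := fun v => z.symm_apply_eq.2 (by simp [hA])
  have h1 : ∀ s₁, B₂ w s₁ = 0 → ∃ s, ∀ x, T.cr w x = 0 → T.cr s₁ (z x) = A (T.cr s x) :=
    fun s₁ hs₁ => by
      obtain ⟨s, -, hs⟩ := c.exists_cr hR hw0
        (c.conj_mem hw (inv_mem hz) hA' (c.isB_one w hw s₁ hs₁))
      exact ⟨s, fun x hx => by simp [← hs x hx]⟩
  obtain ⟨v₀, hv⟩ := exists_ne (0 : V₁)
  obtain ⟨u₁, hu⟩ := T.h₁.exists_eq_one' ((map_ne_zero_iff A A.injective).2 hv)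
  let b₀ : V₂ →ₗ[F] V₂ := T.symm.cr u₁ ∘ₗ z.toLinearMap ∘ₗ T.t v₀
  have h2 : ∀ s y, B₂ s (b₀ y) = B₁ u₁ (T.cr s (z (T.t v₀ y))) := fun s y => by
    rw [← T.B_t, T.B_t']; rfl
  have h3 : ∀ v y, B₂ w y = 0 → z (T.t v y) - T.t (A v) (b₀ y) ∈ T.PS (F ∙ w) := fun v y hy =>
    T.mem_P'.2 fun s₁ hs₁ => by
      obtain ⟨s, hs⟩ := h1 s₁ hs₁
      rw [map_sub, T.cr_t, h2, hs _ (by simp [hy]), hs _ (by simp [hy])]
      simp [hu]
  have h4 : ∀ y, B₂ w y = 0 → B₂ w (b₀ y) = 0 := fun y hy => by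
    rw [h2, show T.cr w (z (T.t v₀ y)) = 0 from c.cr_eq_zero (inv_mem hz) hA' (by simp [hy]),
      map_zero]
  have h5 : ∀ v v' y y', B₂ w y = 0 → B₂ w y' = 0 →
      B₁ v v' * B₂ y y' = B₁ (A v) (A v') * B₂ (b₀ y) (b₀ y') := fun v v' y y' hy hy' => by
    obtain ⟨p, hp⟩ := T.mem_P.1 (h3 v y hy)
    obtain ⟨p', hp'⟩ := T.mem_P.1 (h3 v' y' hy')
    rw [← T.tt, ← c.le hz, eq_add_of_sub_eq hp.symm, eq_add_of_sub_eq hp'.symm]
    simp [T.tt, hw, h4 y' hy', T.h₂.swap (h4 y hy)]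
  obtain ⟨y₀, y₁, h6, -, h7, -, h8⟩ := T.h₂.exists_nonperp c.five w w
  obtain ⟨v₁, hv₁⟩ := T.h₁.exists_eq_one hv
  have h9 := h5 v₀ v₁ y₀ y₁ h6 h7
  rw [hv₁, one_mul] at h9
  have h10 : ∀ v v', B₁ (A v) (A v') = B₁ (A v₀) (A v₁) * B₁ v v' := fun v v' =>
    mul_right_cancel₀ (right_ne_zero_of_mul (h9 ▸ h8)) (by
      rw [← h5 v v' y₀ y₁ h6 h7, h9]; ring)
  obtain ⟨w', hw', hww⟩ := T.h₂.exists_hyp hw0 hw
  obtain ⟨b, hb1, hb2, hb3⟩ := T.h₂.exists_simil hw hw' hww h4 (by simp [b₀, hA, hu])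
    (left_ne_zero_of_mul (h9 ▸ h8)) (μ := B₁ (A v₀) (A v₁)) (by
      rw [T.h₁.symm, h10, T.h₁.flip v₀ v₁, hv₁, map_one, mul_one, mul_left_comm, T.h₁.eps_sq,
        mul_one]) (fun y y' hy hy' => by rw [← h5 _ _ _ _ hy hy', hv₁, one_mul])
  have h11 : ∀ x, T.cr w x = 0 → z x - T.kr A b x ∈ T.PS (F ∙ w) := fun x hx =>
    T.PS_le (X := (T.PS (F ∙ w)).comap (z.toLinearMap - (T.kr A b).toLinearMap)) (fun v y hy => by
      have := add_mem (h3 v y (mem_perp_singleton.1 hy))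
        (T.t_mem_PS (A v) (hb3 y (mem_perp_singleton.1 hy)))
      simpa using this) (T.perp_PS _ ▸ T.mem_perp_P.2 hx)
  have h12 := c.unip w hw z hz A b (T.mem_UG_of_t fun v y v' y' => by
    rw [T.kr_t, T.kr_t, T.tt, h10, ← hb2 y y']; ring) (fun v => by simp [hA, hb1]) h11 ⟨1, by simp [hb1]⟩
  rw [← T.kron.mul_mem_cancel_left (inv_mem (T.kr_mem A b))]
  refine c.mem_kron_of_unip hR hw0 hw (mul_mem (inv_mem h12) hz)
    (fun v => (T.kr A b).symm_apply_eq.2 (by simp [hA, hb1])) fun x hx => ?_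
  obtain ⟨p, hp⟩ := T.mem_P.1 (h11 x hx)
  refine T.mem_P.2 ⟨A⁻¹ p, (T.kr A b).injective ?_⟩
  simp [hb1, hp]

end Small

section Big

variable (hR : ∀ β, β ∈ c.ring)
include hR

theorem mem_AE_of_cr (u : V₁) {w : V₂} (hw0 : w ≠ 0) (hw : B₂ w w = 0) {x : V}
    (hx : T.cr w x = 0) : x ∈ T.h.AE K (T.B_P hw u) := by
  have h1 : ∀ k ∈ K, (∀ v, k (T.t v w) = T.t v w) → ∀ v s, B₂ w s = 0 →
      k (T.t v s) - T.t v s ∈ T.h.AE K (T.B_P hw u) := fun k hk hk' v s hs => by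
    have h2 : B (T.t u w) (T.t v s) = 0 := by simp [T.tt, hs]
    obtain ⟨E, hE, γ, hE'⟩ := T.h.exists_isEich (T.B_P hw u) h2
    obtain ⟨-, y, hy, hy'⟩ := hR (-(B₁ v).smulRight u) w hw s hs
    have h3 := T.h.comm_of_fix (P := T.PS (F ∙ w)) (z := E⁻¹ * y) (c.le hk)
      (mul_mem (inv_mem hE) (c.le hy)) (fun x hx => by
        obtain ⟨v, rfl⟩ := T.mem_P.1 hx
        exact hk' v) fun x hx => E.symm_apply_eq.2 (by
          rw [T.mem_perp_P] at hx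
          rw [LinearEquiv.coe_coe, hy' x hx, hE', T.B_t, T.B_t, hx]
          simp [sub_eq_add_neg])
    have h4 : B (T.t u w) (k (T.t v s)) = 0 := by rw [← hk', c.le hk, h2]
    refine ⟨by rw [map_sub, h2, h4, sub_self], k * y * k⁻¹ * y⁻¹,
      mul_mem (mul_mem (mul_mem hk hy) (inv_mem hk)) (inv_mem hy), ?_⟩
    rw [sub_eq_add_neg, show k * y * k⁻¹ * y⁻¹ = k * E * k⁻¹ * E⁻¹ by
      calc _ = k * E * k⁻¹ * (k * (E⁻¹ * y) * k⁻¹) * y⁻¹ := by group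
        _ = _ := by rw [h3]; group]
    exact ⟨_, isEich_mul (T.B_P hw u) (T.h.swap h4) (by simp [h2]) (isEich_conj (c.le hk) (hk' u) hE')
      (isEich_inv (T.B_P hw u) (T.h.swap h2) h2 hE')⟩
  refine T.PS_ind (T.perp_PS _ ▸ T.mem_perp_P.2 hx) (zero_mem _) (fun v y hy => ?_)
    fun _ _ => add_mem
  refine T.h₂.span_iso_perp c.iso c.five hw0
    (S := (T.h.AE K (T.B_P hw u)).comap (T.t v).toAddMonoidHom) (fun s h2 h3 => ?_)
    (mem_perp_singleton.1 hy)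
  obtain ⟨z, z', h4, h5, h6, h7, h8⟩ := T.h₂.exists_nonperp c.five w s
  obtain ⟨b, -, hb1, hb2, -⟩ := c.exists_E h3 h5
  simpa [hb1 z' h7, smul_smul, h8] using h1 _ hb2
    (fun v => by simp [hb1 w (T.h₂.swap h2), T.h₂.swap h4]) ((B₂ z z')⁻¹ • v) z' h6

theorem mem_AE {u : V₁} (hu : u ≠ 0) {w : V₂} (hw0 : w ≠ 0) (hw : B₂ w w = 0) {a : V}
    (ha : B (T.t u w) a = 0) : a ∈ T.h.AE K (T.B_P hw u) := by
  obtain ⟨w', hw'⟩ := T.h₂.exists_eq_one hw0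
  obtain ⟨y, h0, h1, h2, h3⟩ := T.h₂.exists_iso_perp c.iso c.five w w'
  obtain ⟨y', h4, h5⟩ := T.h₂.exists_perp_one (w := w) (x := y) (fun h => by
    obtain ⟨d, rfl⟩ := Submodule.mem_span_singleton.1 h
    have := T.h₂.swap_ne (hw' ▸ one_ne_zero)
    simp_all) 1
  obtain ⟨u', hu'⟩ := T.h₁.exists_eq_one hu
  have h6 := T.h₂.swap_ne (h5 ▸ one_ne_zero)
  replace h5 : B₂ y ((B₂ y y')⁻¹ • y') = 1 := by simp [h6]
  replace h4 : B₂ w ((B₂ y y')⁻¹ • y') = 0 := by simp [h4]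
  generalize (B₂ y y')⁻¹ • y' = y₁ at h4 h5
  rw [T.B_t] at ha
  obtain ⟨-, k, hk, γ, hk'⟩ := c.mem_AE_of_cr hR u h0 h1 (x := T.t (T.cr w a) w')
    (by simp [T.h₂.swap h3])
  have h7 : k (T.t u w) = T.t u w := by simp [hk' _, T.tt, T.h₂.swap h2, T.h₁.swap ha]
  obtain ⟨h8, g, hg, γ', hg'⟩ := c.mem_AE_of_cr hR u hw0 hw (x := T.t u' y₁) (by simp [h4])
  have h9 : k (T.t u' y₁) ∈ T.h.AE K (T.B_P hw u) :=
    ⟨by rw [← h7, c.le hk, h8], _, mul_mem (mul_mem hk hg) (inv_mem hk), _,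
      isEich_conj (c.le hk) h7 hg'⟩
  rw [hk', T.tt, hu', h5, one_mul, one_smul] at h9
  have h10 := c.mem_AE_of_cr hR u hw0 hw (x := a - (T.t u' y₁ + T.t (T.cr w a) w' -
    B (T.t (T.cr w a) w') (T.t u' y₁) • T.t u y + (γ * 1) • T.t u y))
    (by simp [hw', h4, h2])
  simpa using add_mem h10 h9

end Big

end Ctx

end Cfsg.Lib.TMax
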