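import Cfsg.Agent.Lib.TMax.Base

/-!
# The ring attached to an overgroup of a tensor product group
-/

namespace Cfsg.Lib.TMax

open Module Cfsg.Lib.Unitary

set_option linter.unusedSectionVars false

variable {F V V₁ V₂ : Type*} [Field F] [AddCommGroup V] [Module F V] [AddCommGroup V₁]
  [Module F V₁] [AddCommGroup V₂] [Module F V₂] {σ : F →+* F} {ε : F}
  {B : V →ₛₗ[σ] V →ₗ[F] F} {B₁ : V₁ →ₛₗ[σ] V₁ →ₗ[F] F} {B₂ : V₂ →ₛₗ[σ] V₂ →ₗ[F] F}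

/-- `K` is a group of isometries containing the tensor product group. -/
structure Ctx (T : TStr ε B₁ B₂ B) (K : Subgroup (V ≃ₗ[F] V)) : Prop where
  le : K ≤ UG B
  unip : ∀ w, B₂ w w = 0 → ∀ z ∈ K, ∀ a b, T.kr a b ∈ UG B →
    (∀ v, z (T.t v w) = T.kr a b (T.t v w)) →
    (∀ x, T.cr w x = 0 → z x - T.kr a b x ∈ T.PS (F ∙ w)) → (∃ c : F, b w = c • w) → T.kr a b ∈ K
  e₁ : ∀ u, B₁ u u = 0 → ∀ a ∈ QE B₁ u, T.kr a 1 ∈ K
  iso : Iso3 B₂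
  five : 5 ≤ finrank F V₂

namespace TStr

variable (T : TStr ε B₁ B₂ B) (K : Subgroup (V ≃ₗ[F] V))

/-- The elements of `K` acting on `(V₁ ⊗ w)^⊥` like elements of the unipotent radical. -/
def uA {w : V₂} (hw : B₂ w w = 0) : AddSubgroup (V →ₗ[F] V₁) where
  carrier := {α | (∀ v, α (T.t v w) = 0) ∧ ∃ y ∈ K, ∀ x, T.cr w x = 0 → y x = x + T.t (α x) w}
  zero_mem' := ⟨fun _ => rfl, 1, one_mem _, fun x _ => by simp⟩
  add_mem' := by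
    rintro a b ⟨ha, y, hy, hy'⟩ ⟨hb, z, hz, hz'⟩
    refine ⟨fun v => by simp [ha, hb], y * z, mul_mem hy hz, fun x hx => ?_⟩
    rw [LinearEquiv.mul_apply, hz' x hx, map_add, hy' x hx, hy' _ (by simp [hw]), ha]
    simp [add_assoc]
  neg_mem' := by
    rintro a ⟨ha, y, hy, hy'⟩
    refine ⟨fun v => by simp [ha], y⁻¹, inv_mem hy, fun x hx => ?_⟩
    rw [LinearEquiv.coe_inv, LinearEquiv.symm_apply_eq, map_add, hy' x hx, hy' _ (by simp [hw]), ha]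
    simp

/-- The ring of endomorphisms of `V₁` attached to `K`. -/
def IsB (β : Module.End F V₁) : Prop :=
  ∀ w (hw : B₂ w w = 0) s, B₂ w s = 0 → β ∘ₗ T.cr s ∈ T.uA K hw

variable {T K}

theorem uA_congr {w : V₂} {hw : B₂ w w = 0} {α α' : V →ₗ[F] V₁} (h : α ∈ T.uA K hw)
    (e : ∀ x, T.cr w x = 0 → α' x = α x) : α' ∈ T.uA K hw := by
  obtain ⟨h1, y, hy, hy'⟩ := h
  exact ⟨fun v => by rw [e _ (by simp [hw]), h1], y, hy, fun x hx => by rw [e x hx, hy' x hx]⟩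

end TStr

namespace Ctx

variable {T : TStr ε B₁ B₂ B} {K : Subgroup (V ≃ₗ[F] V)} (c : Ctx T K)
include c

theorem cr_eq_zero {w w' : V₂} {k : V ≃ₗ[F] V} (hk : k ∈ K) {A : V₁ → V₁}
    (hA : ∀ v, k (T.t v w) = T.t (A v) w') {x : V} (hx : T.cr w' x = 0) : T.cr w (k⁻¹ x) = 0 :=
  T.cr_eq_zero.2 fun v => by rw [← UG_apply_left (c.le hk), hA, T.B_t, hx, map_zero]

theorem conj_mem {w w' : V₂} {hw : B₂ w w = 0} (hw' : B₂ w' w' = 0) {k : V ≃ₗ[F] V} (hk : k ∈ K)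
    {A : V₁ ≃ₗ[F] V₁} (hA : ∀ v, k (T.t v w) = T.t (A v) w') {α : V →ₗ[F] V₁}
    (h : α ∈ T.uA K hw) : A.toLinearMap ∘ₗ α ∘ₗ (k⁻¹).toLinearMap ∈ T.uA K hw' := by
  obtain ⟨h1, y, hy, hy'⟩ := h
  refine ⟨fun v => ?_, k * y * k⁻¹, mul_mem (mul_mem hk hy) (inv_mem hk), fun x hx => ?_⟩
  · obtain ⟨v, rfl⟩ := A.surjective v
    simp [← hA, h1]
  · rw [LinearEquiv.mul_apply, LinearEquiv.mul_apply, hy' _ (c.cr_eq_zero hk hA hx), map_add, hA]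
    simp

theorem comp_mem {w : V₂} {hw : B₂ w w = 0} {k : V ≃ₗ[F] V} (hk : k ∈ K)
    (hA : ∀ v, k (T.t v w) = T.t v w) {α : V →ₗ[F] V₁} (h : α ∈ T.uA K hw) :
    α ∘ₗ dev k ∈ T.uA K hw := by
  have := sub_mem (c.conj_mem hw (inv_mem hk) (A := 1)
    (fun v => k.symm_apply_eq.2 (hA v).symm) h) h
  convert this using 1
  ext x
  simp

variable [FiniteDimensional F V₁] [FiniteDimensional F V₂] [FiniteDimensional F V]

theorem e₂ {w : V₂} (hw : B₂ w w = 0) {b} (hb : b ∈ QE B₂ w) : T.kr 1 b ∈ K :=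
  c.unip w hw 1 (one_mem _) 1 b (T.kr_mem_UG (one_mem _) hb.1) (fun v => by simp [hb.2.1])
    (fun x hx => T.PS_le (X := (T.PS (F ∙ w)).comap (1 - (T.kr 1 b).toLinearMap)) (fun v y hy => by
      obtain ⟨a, ha⟩ := hb.2.2 y (mem_perp_singleton.1 hy)
      simpa [ha] using Submodule.smul_mem _ a (T.t_mem_P v w)) (T.perp_PS _ ▸ T.mem_perp_P.2 hx))
    ⟨1, by simp [hb.2.1]⟩

theorem exists_E {w s : V₂} (hw : B₂ w w = 0) (hs : B₂ w s = 0) :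
    ∃ b ∈ QE B₂ w, (∀ y, B₂ w y = 0 → b y = y + B₂ s y • w) ∧ T.kr 1 b ∈ K ∧
      ∀ x, T.cr w x = 0 → T.kr 1 b x = x + T.t (T.cr s x) w := by
  obtain ⟨b, hb, hb'⟩ := T.h₂.exists_E hw hs
  exact ⟨b, hb, hb', c.e₂ hw hb, fun x hx => T.cr_ext (f := (T.kr 1 b).toLinearMap)
    (g := 1 + T.t.flip w ∘ₗ T.cr s) (fun v y hy => by simp [hb' y hy]) hx⟩

theorem isB_one : T.IsB K 1 := fun w hw s hs => by
  obtain ⟨b, -, -, hb, hb'⟩ := c.exists_E hw hs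
  exact ⟨fun v => by simp [T.h₂.swap hs], _, hb, hb'⟩

theorem exists_nu {w s : V₂} (hs : B₂ s s = 0) (hws : B₂ w s = 0) (a : F) :
    ∃ b b', T.kr 1 b ∈ K ∧ T.kr 1 b' ∈ K ∧ b w = w ∧ b' w = w ∧ b s = s ∧ b' s = s ∧
      ∀ y, b (b' y - y) - (b' y - y) = (a * B₂ s y) • s := by
  obtain ⟨z, z', h1, h2, h3, h4, h5⟩ := T.h₂.exists_nonperp c.five w s
  obtain ⟨d, hd⟩ : ∃ d : F, -σ (B₂ (d • z') z) = a := by
    obtain ⟨d, hd⟩ := T.h₂.exists_smul_eq (T.h₂.swap_ne h5) (-σ a)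
    exact ⟨d, by rw [hd, map_neg, T.h₂.invol, neg_neg]⟩
  replace h3 : B₂ w (d • z') = 0 := by simp [h3]
  replace h4 : B₂ s (d • z') = 0 := by simp [h4]
  generalize d • z' = z' at *
  obtain ⟨b, hb, hb1, hb2, -⟩ := c.exists_E hs h2
  obtain ⟨b', hb', hb1', hb2', -⟩ := c.exists_E hs h4
  have h6 := T.h₂.swap hws
  refine ⟨b, b', hb2, hb2', by simp [hb1 w h6, T.h₂.swap h1], by simp [hb1' w h6, T.h₂.swap h3],
    hb.2.1, hb'.2.1, fun y => ?_⟩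
  have h8 : ∀ p, B₂ s p = 0 → B₂ p (b' y - y) = -σ (B₂ z' p) * B₂ s y := fun p hp => by
    rw [T.h₂.apply_sub hb'.1, show b'⁻¹ p = p - B₂ z' p • s from b'.symm_apply_eq.2 (by
      rw [map_sub, map_smul, hb'.2.1, hb1' p hp, add_sub_cancel_right])]
    simp
  rw [hb1 _ (by rw [h8 s hs, T.h₂.swap h4]; simp), h8 z h2, hd, add_sub_cancel_left]

/-- Composition with `1 ⊗ ν_s`. -/
theorem nu_mem {w s : V₂} {hw : B₂ w w = 0} (hs : B₂ s s = 0) (hws : B₂ w s = 0)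
    {α : V →ₗ[F] V₁} (h : α ∈ T.uA K hw) (a : F) :
    a • α ∘ₗ T.t.flip s ∘ₗ T.cr s ∈ T.uA K hw := by
  obtain ⟨b, b', hb, hb', h1, h2, -, -, h9⟩ := c.exists_nu hs hws a
  convert c.comp_mem hb' (fun v => by simp [h2]) (c.comp_mem hb (fun v => by simp [h1]) h) using 1
  refine LinearMap.ext (T.ext_t fun v y => ?_)
  simp only [LinearMap.comp_apply, dev_apply, TStr.kr_t, ← map_sub (T.t _), LinearEquiv.coe_one,
    id, h9]
  simp [mul_smul]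

theorem exists_trans {w w' : V₂} (hw0 : w ≠ 0) (hw0' : w' ≠ 0) (hw : B₂ w w = 0)
    (hw' : B₂ w' w' = 0) : ∃ b, T.kr 1 b ∈ K ∧ b ∈ UG B₂ ∧ ∃ a : F, a ≠ 0 ∧ b w = a • w' := by
  obtain ⟨b, hb, h⟩ := T.h₂.ptRel c.iso c.five
    (N := (K.comap (MonoidHom.mk' (T.kr 1) fun b b' => by rw [T.kr_mul, mul_one])) ⊓ UG B₂)
    (fun e he b hb => ⟨c.e₂ he hb, hb.1⟩) hw0 hw0' hw hw'
  exact ⟨b, hb.1, hb.2, h⟩

theorem irr {w s₀ : V₂} {hw : B₂ w w = 0} {β : Module.End F V₁} (h0 : B₂ w s₀ = 0)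
    (h1 : s₀ ∉ F ∙ w) (h : β ∘ₗ T.cr s₀ ∈ T.uA K hw) (hw0 : w ≠ 0) {s : V₂} (hs : B₂ w s = 0) :
    β ∘ₗ T.cr s ∈ T.uA K hw := by
  let S : AddSubgroup V₂ :=
    { carrier := {s | β ∘ₗ T.cr s ∈ T.uA K hw}
      zero_mem' := by simp
      add_mem' := fun {a b} ha hb => by
        simpa [T.cr_add, LinearMap.comp_add] using add_mem ha hb
      neg_mem' := fun {a} ha => by simpa [T.cr_neg] using ha }
  obtain ⟨e, f, h2, h3, h4, h5, h6⟩ := T.h₂.exists_hyp_perp c.iso c.five hw0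
  obtain ⟨y, hy, hy'⟩ := T.h₂.exists_perp_one h1 1
  obtain ⟨s₁, h7, h8, h9⟩ := T.h₂.exists_iso_ne (W := LinearMap.ker (B₂ w)) h2 h3 h4 h5 h6
    (l := B₂ s₀) hy (T.h₂.swap_ne (hy' ▸ one_ne_zero))
  refine T.h₂.span_iso_perp c.iso c.five hw0 (S := S) (fun v hv hv' => T.h₂.conn (S := S) h h7 h8 h9
    (fun s hs s' h10 h11 h12 => ?_) hv hv') hs
  have := c.nu_mem (hw := hw) h11 h10 hs (B₂ s s')⁻¹
  change β ∘ₗ T.cr s' ∈ T.uA K hw
  convert this using 1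
  ext x
  simp [smul_smul, h12]

theorem toB {w s₀ : V₂} {hw : B₂ w w = 0} {β : Module.End F V₁} (h0 : B₂ w s₀ = 0)
    (h1 : s₀ ∉ F ∙ w) (h : β ∘ₗ T.cr s₀ ∈ T.uA K hw) (hw0 : w ≠ 0) : T.IsB K β := by
  intro w' hw' s hs
  rcases eq_or_ne w' 0 with rfl | hw0'
  · exact ⟨fun v => by simp, 1, one_mem _, fun x _ => by simp⟩
  obtain ⟨b, hb, hb', a, ha, hab⟩ := c.exists_trans hw0 hw0' hw hw'
  have h2 := c.conj_mem hw' hb (A := LinearEquiv.smulOfNeZero F V₁ a ha)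
    (fun v => by simp [hab]) (c.irr h0 h1 h hw0 (s := σ a⁻¹ • b⁻¹ s) (by
      rw [map_smul, ← UG_apply_left hb', hab]; simp [hs]))
  convert h2 using 1
  ext x
  simp [T.kr_inv, T.cr_smul, T.h₂.invol, T.cr_kr 1 (inv_mem hb'), smul_smul, ha]

theorem exists_flag : ∃ w s : V₂, w ≠ 0 ∧ B₂ w w = 0 ∧ B₂ s s = 0 ∧ B₂ w s = 0 ∧ s ∉ F ∙ w := by
  obtain ⟨w, h0, h1, -⟩ := T.h₂.exists_iso_perp c.iso c.five 0 0
  obtain ⟨s, hs⟩ := T.h₂.exists_line c.iso c.five h0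
  exact ⟨w, s, h0, h1, hs⟩

theorem isB_mul_adj {β γ γ' : Module.End F V₁} (hβ : T.IsB K β) (hγ : T.IsB K γ)
    (e : ∀ x y, B₁ (γ x) y = B₁ x (γ' y)) : T.IsB K (β * γ') := by
  obtain ⟨w, s, h0, hw, hs, hws, h1⟩ := c.exists_flag
  obtain ⟨z, z', h2, h3, h4, h5, h6⟩ := T.h₂.exists_nonperp c.five w s
  obtain ⟨d, hd⟩ := T.h₂.exists_smul_eq h6 (-1)
  obtain ⟨h7, y, hy, hy'⟩ := hγ s hs (d • z) (by simp [h3])
  have h8 := c.comp_mem hy (fun v => by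
    rw [hy' _ (by simp [T.h₂.swap hws])]; simp [T.h₂.swap h2]) (hβ w hw z' h4)
  refine c.toB (hw := hw) hws h1 ?_ h0
  convert h8 using 1
  ext x
  refine congrArg β (T.h₁.ext' fun v => ?_)
  rw [← T.B_t, dev_apply, T.h.apply_sub (c.le hy), show y⁻¹ (T.t v z') = T.t v z' + T.t (γ v) s from
    y.symm_apply_eq.2 (by
      rw [map_add, hy' _ (by simp [h5]), hy' _ (by simp [hs]), h7, LinearMap.comp_apply, T.cr_t, hd]
      simp), add_sub_cancel_left, T.B_t, e]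

/-- The ring attached to `K`. -/
def ring : Subalgebra F (Module.End F V₁) where
  carrier := {β | T.IsB K β}
  mul_mem' {β γ} hβ hγ := by
    obtain ⟨γ', h⟩ := T.h₁.exists_adj γ
    exact c.isB_mul_adj hβ (c.isB_mul_adj c.isB_one hγ h) (T.h₁.adj_symm h)
  add_mem' hβ hγ w hw s hs := by
    rw [LinearMap.add_comp]; exact add_mem (hβ w hw s hs) (hγ w hw s hs)
  algebraMap_mem' a w hw s hs := by
    convert c.isB_one w hw (σ a • s) (by simp [hs]) using 1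
    ext x
    simp [T.cr_smul, T.h₂.invol]

theorem mem_ring {β : Module.End F V₁} : β ∈ c.ring ↔ T.IsB K β := Iff.rfl

theorem adj_mem {γ γ' : Module.End F V₁} (hγ : γ ∈ c.ring)
    (e : ∀ x y, B₁ (γ x) y = B₁ x (γ' y)) : γ' ∈ c.ring := c.isB_mul_adj c.isB_one hγ e

theorem conj_mem_ring {β : Module.End F V₁} (hβ : β ∈ c.ring) {a : V₁ ≃ₗ[F] V₁}
    (ha : T.kr a 1 ∈ K) : a.toLinearMap * β * (a⁻¹).toLinearMap ∈ c.ring := fun w hw s hs => by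
  convert c.conj_mem hw ha (A := a) (fun v => by simp) (hβ w hw s hs) using 1
  ext x
  simp [T.kr_inv, T.cr_kr _ (one_mem _)]

theorem alpha_mem {w s : V₂} {hw : B₂ w w = 0} (hw0 : w ≠ 0) (hs : B₂ s s = 0) (hws : B₂ w s = 0)
    {α : V →ₗ[F] V₁} (h : α ∈ T.uA K hw) : α ∘ₗ T.t.flip s ∈ c.ring := by
  by_cases h1 : s ∈ F ∙ w
  · obtain ⟨a, rfl⟩ := Submodule.mem_span_singleton.1 h1
    convert c.ring.zero_mem using 1
    ext v
    simp [h.1]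
  exact c.toB hws h1 (by simpa [LinearMap.comp_assoc] using c.nu_mem hs hws h 1) hw0

theorem zeta_mem {s : V₂} (hs0 : s ≠ 0) {r : V ≃ₗ[F] V} (hr : r ∈ K)
    {ζ : Module.End F V₁} (h : ∀ x, r x = x + T.t (ζ (T.cr s x)) s) : ζ ∈ c.ring := by
  obtain ⟨w, hw, h1, h2⟩ := T.h₂.exists_line c.iso c.five hs0
  have hw0 : w ≠ 0 := by rintro rfl; exact h2 (zero_mem _)
  have h3 : s ∉ F ∙ w := fun h3 => h2 (by
    obtain ⟨a, rfl⟩ := Submodule.mem_span_singleton.1 h3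
    rw [Submodule.span_singleton_smul_eq (IsUnit.mk0 a (left_ne_zero_of_smul hs0))]
    exact Submodule.mem_span_singleton_self w)
  obtain ⟨z, hz, hz'⟩ := T.h₂.exists_perp_one h3 1
  refine c.toB (hw := hw) (T.h₂.swap h1) h3 ?_ hw0
  convert c.comp_mem hr (fun v => by simp [h, h1]) (c.isB_one w hw z hz) using 1
  ext x
  simp [h, hz']

end Ctx

end Cfsg.Lib.TMax
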