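import Cfsg.Agent.Lib.TMax.GlobO
import Cfsg.Agent.Lib.OMax.ExtB
import Cfsg.Agent.Lib.Asch.Conv
import Cfsg.Agent.Lib.Linear.Tens

/-!
# Tensor product subgroups of orthogonal and unitary groups are maximal
-/

namespace Cfsg.Lib.TMax

open Module Cfsg.Lib.Unitary

set_option linter.unusedSectionVars false

variable {F V V₁ V₂ : Type*} [Field F] [AddCommGroup V] [Module F V] [AddCommGroup V₁]
  [Module F V₁] [AddCommGroup V₂] [Module F V₂] {σ : F →+* F} {ε : F}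
  {B : V →ₛₗ[σ] V →ₗ[F] F} {B₁ : V₁ →ₛₗ[σ] V₁ →ₗ[F] F} {B₂ : V₂ →ₛₗ[σ] V₂ →ₗ[F] F}

/-- The elements of `U` acting trivially on `P` and on `P^⊥ / P` lie in `G`. -/
def Unip (B : V →ₛₗ[σ] V →ₗ[F] F) (U G : Subgroup (V ≃ₗ[F] V)) (P : Submodule F V) : Prop :=
  ∀ y ∈ U, (∀ x ∈ P, y x = x) → (∀ x ∈ perp B P, y x - x ∈ P) → y ∈ G

/-- The ambient group `G` of a tensor structure. -/
structure Amb (T : TStr ε B₁ B₂ B) (U G : Subgroup (V ≃ₗ[F] V)) : Prop where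
  le : G ≤ U
  le' : U ≤ UG B
  kr : ∀ a b, T.kr a b ∈ UG B → T.kr a b ∈ U
  u₂ : ∀ w, B₂ w w = 0 → Unip B U G (T.PS (F ∙ w))
  u₁ : ∀ u, B₁ u u = 0 → Unip B U G (T.symm.PS (F ∙ u))

variable [FiniteDimensional F V₁] [FiniteDimensional F V₂] [FiniteDimensional F V]
  {T : TStr ε B₁ B₂ B} {U G K : Subgroup (V ≃ₗ[F] V)}

theorem TStr.symm_symm (T : TStr ε B₁ B₂ B) : T.symm.symm = T := by
  obtain ⟨φ, _, _, _, _⟩ := T
  simp only [TStr.symm, TStr.mk.injEq]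
  exact LinearEquiv.ext fun x => by simp

theorem Amb.symm (A : Amb T U G) : Amb T.symm U G :=
  ⟨A.le, A.le', fun b a h => by rw [T.symm_kr] at h ⊢; exact A.kr _ _ h, A.u₁,
    by rw [T.symm_symm]; exact A.u₂⟩

theorem Amb.unip (A : Amb T U G) {w : V₂} (hw : B₂ w w = 0) {z : V ≃ₗ[F] V} (hz : z ∈ G) {a b}
    (hab : T.kr a b ∈ UG B) (h1 : ∀ v, z (T.t v w) = T.kr a b (T.t v w))
    (h2 : ∀ x, T.cr w x = 0 → z x - T.kr a b x ∈ T.PS (F ∙ w)) (h3 : ∃ c : F, b w = c • w) :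
    T.kr a b ∈ G := by
  obtain ⟨c, hc⟩ := h3
  have h4 : ∀ p ∈ T.PS (F ∙ w), z⁻¹ p ∈ T.PS (F ∙ w) := by
    intro p hp
    obtain ⟨v, rfl⟩ := T.mem_P.1 hp
    by_cases hw0 : w = 0
    · simp [hw0]
    have hc0 : c ≠ 0 := by
      rintro rfl
      exact hw0 (b.map_eq_zero_iff.1 (by rw [hc, zero_smul]))
    have : z (T.t (c⁻¹ • a⁻¹ v) w) = T.t v w := by
      rw [h1, T.kr_t, hc, ← T.t_smul]
      simp [hc0]
    rw [← this, LinearEquiv.coe_inv, LinearEquiv.symm_apply_apply]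
    exact T.t_mem_P _ _
  have h5 : z⁻¹ * T.kr a b ∈ G := by
    refine A.u₂ w hw _ (mul_mem (inv_mem (A.le hz)) (A.kr _ _ hab)) (fun x hx => ?_) fun x hx => ?_
    · obtain ⟨v, rfl⟩ := T.mem_P.1 hx
      rw [LinearEquiv.mul_apply, ← h1]
      simp
    · have := h4 _ (neg_mem (h2 x (T.mem_perp_P.1 hx)))
      simpa using this
  simpa using mul_mem hz h5

theorem Amb.ctx (A : Amb T U G) (hK : T.kron ⊓ G ≤ K) (hKG : K ≤ G) (hI : Iso3 B₂)
    (h5 : 5 ≤ finrank F V₂) : Ctx T K where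
  le := hKG.trans (A.le.trans A.le')
  unip _ hw _ hz a b hab h1 h2 h3 := hK ⟨T.kr_mem a b, A.unip hw (hKG hz) hab h1 h2 h3⟩
  e₁ u hu a ha := by
    refine hK ⟨T.kr_mem a 1, ?_⟩
    obtain ⟨h1, h2, h3⟩ := mem_QE.1 ha
    rw [← T.symm_kr]
    refine A.symm.unip hu (one_mem _) (T.symm.kr_mem_UG (one_mem _) h1) (fun v => by simp [h2])
      (fun x hx => ?_) ⟨1, by simp [h2]⟩
    have := T.symm.cr_ext (f := (T.symm.PS (F ∙ u)).mkQ ∘ₗ (1 - (T.symm.kr 1 a).toLinearMap))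
      (g := 0) (w := u) (fun v y hy => by
        obtain ⟨c, hc⟩ := h3 y hy
        simp only [LinearMap.comp_apply, LinearMap.zero_apply, Submodule.mkQ_apply,
          Submodule.Quotient.mk_eq_zero, LinearMap.sub_apply, Module.End.one_apply,
          LinearEquiv.coe_coe, TStr.kr_t, hc, map_add, LinearEquiv.coe_one, id, sub_add_cancel_left]
        exact neg_mem (T.symm.t_mem_PS _ (Submodule.smul_mem _ _
          (Submodule.mem_span_singleton_self u)))) hx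
    exact (Submodule.Quotient.mk_eq_zero _).1 this
  iso := hI
  five := h5

theorem Ctx.alg (c : Ctx T K) : Alg B₁ c.ring
    (K.comap (MonoidHom.mk' (fun a => T.kr a 1) fun a b => by rw [T.kr_mul, mul_one]) ⊓ UG B₁) where
  adj _ h _ e := c.adj_mem h e
  qe e he _ ha := ⟨c.e₁ e he _ ha, ha.1⟩
  le := inf_le_right
  conj _ ha _ hβ := c.conj_mem_ring hβ ha.1

/-- The dichotomy for the subring attached to an overgroup. -/
def Dich (T : TStr ε B₁ B₂ B) : Prop :=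
  ∀ (K : Subgroup (V ≃ₗ[F] V)) (c : Ctx T K), K ≤ T.kron ∨ ∀ β, β ∈ c.ring

theorem dich_trace [Finite V] (hn : finrank F V₁ < finrank F V₂) {e : V₁} (he0 : e ≠ 0)
    (he : B₁ e e = 0) {γ : F} (hγ0 : γ ≠ 0) (hγ : γ + ε * σ γ = 0)
    (hq : (∃ c', c' ≠ 0 ∧ c' ≠ γ ∧ c' + ε * σ c' = 0) ∨ 3 ≤ finrank F V₁) : Dich T := by
  intro K c
  have : Nontrivial V₁ := ⟨e, 0, he0⟩
  by_cases hR : ∀ β ∈ c.ring, ∃ a : F, ∀ v, β v = a • v
  · exact Or.inl (c.le_kron hR hn hγ0 hγ)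
  · exact Or.inr (T.h₁.top_of_trace c.alg he0 he hγ0 hγ hq hR)

theorem TStr.not_mem_kron (T : TStr ε B₁ B₂ B) (h2 : 2 ≤ finrank F V₁) (h3 : 3 ≤ finrank F V₂)
    {u : V₁} {w s : V₂} (hu : u ≠ 0) (hw : w ≠ 0) (hs : s ∉ F ∙ w) {γ : F} {g : V ≃ₗ[F] V}
    (h : IsEich B (T.t u w) (T.t u s) γ g) : g ∉ T.kron := by
  rintro ⟨a, b, rfl⟩
  have : Nontrivial V₁ := ⟨u, 0, hu⟩
  have h4 : ∀ x, T.kr a b x - x ∈ Submodule.span F {T.t u w, T.t u s} := fun x => by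
    rw [h, Submodule.mem_span_pair]
    exact ⟨γ * B (T.t u w) x - B (T.t u s) x, B (T.t u w) x, by module⟩
  obtain ⟨b', hb⟩ := T.kr_one_of_rank h4
    ((finrank_span_pair_le (F := F) (T.t u w) (T.t u s)).trans_lt h3)
  obtain ⟨v, hv⟩ : ∃ v, v ∉ F ∙ u := by
    by_contra! h5
    have h6 := finrank_span_singleton (K := F) hu
    rw [show (F ∙ u) = ⊤ from eq_top_iff.2 fun v _ => h5 v, finrank_top] at h6
    omega
  obtain ⟨u', hu', hv'⟩ := T.h₁.exists_perp_one hv 1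
  have h5 : ∀ y, b' y = y := fun y => by
    obtain ⟨p, r, h5⟩ := Submodule.mem_span_pair.1 (h4 (T.t v y))
    have := congrArg (T.symm.cr u') h5
    rw [hb] at this
    exact sub_eq_zero.1 (by simpa [hv', T.h₁.swap hu'] using this.symm)
  have h6 : T.kr a b = 1 := by
    rw [hb, ← T.kr_one]
    congr 1
    exact LinearEquiv.ext h5
  obtain ⟨x, hx⟩ := T.h.exists_eq_one (T.t_ne_zero hu hw)
  have h7 := h x
  rw [h6, hx] at h7
  obtain ⟨u₁, h8⟩ := T.h₁.exists_eq_one' hu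
  have h9 := congrArg (T.symm.cr u₁) h7
  simp only [LinearEquiv.coe_one, id, map_add, map_sub, map_smul, TStr.symm_cr_t, h8,
    one_smul] at h9
  exact hs (Submodule.mem_span_singleton.2 ⟨B (T.t u s) x - γ * 1, by
    linear_combination (norm := module) h9⟩)

/-- A hyperbolic pair of pure tensors. -/
theorem TStr.exists_pair (T : TStr ε B₁ B₂ B) [Nontrivial V₁] (hI : Iso3 B₂)
    (h3 : 3 ≤ finrank F V₂) : ∃ u u' w w', u ≠ 0 ∧ u' ≠ 0 ∧ w ≠ 0 ∧ w' ≠ 0 ∧ B₂ w w = 0 ∧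
      B₂ w' w' = 0 ∧ B (T.t u w) (T.t u' w') = 1 := by
  obtain ⟨u, hu⟩ := exists_ne (0 : V₁)
  obtain ⟨u', hu'⟩ := T.h₁.exists_eq_one hu
  obtain ⟨w, -, hw0, hw⟩ := hI ⊤ (by simpa)
  obtain ⟨w', h1, h2⟩ := T.h₂.exists_hyp hw0 hw
  exact ⟨u, u', w, w', hu, by rintro rfl; simp at hu', hw0, by rintro rfl; simp at h2, hw, h1,
    by rw [T.tt, hu', h2, one_mul]⟩

/-! ### Unitary groups -/

section Unitary

variable {q : ℕ}

theorem _root_.Cfsg.Lib.Unitary.IsHerm.ef (h : IsHerm σ B) : EF σ 1 B :=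
  ⟨h.invol, Or.inl rfl, fun u v => by rw [h.symm, one_mul], h.nondeg, fun s => by
    obtain ⟨c, hc⟩ := h.exists_trace_eq (h.self_fixed s)
    exact ⟨c, by rw [one_mul, hc]⟩⟩

theorem EF.isHerm (h : EF σ 1 B) (hσ : IsBar q σ) : IsHerm σ B :=
  ⟨hσ.ne_id, h.invol, fun u v => by rw [h.symm, one_mul], h.nondeg⟩

theorem EF.iso3_herm (h : EF σ 1 B) (hσ : IsBar q σ) : Iso3 B := by
  intro W hW
  have := hσ.finite
  by_cases hd : Disjoint W (perp B W)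
  · obtain ⟨v, h0, hv⟩ := ((h.isHerm hσ).restrict hd).exists_isotropic (by omega)
    exact ⟨v, v.2, by simpa using h0, hv⟩
  · obtain ⟨v, hv, h0⟩ := Submodule.exists_mem_ne_zero_of_ne_bot (mt disjoint_iff.2 hd)
    exact ⟨v, hv.1, h0, hv.2 v hv.1⟩

theorem EF.unip_SUG [Finite F] (h : EF σ ε B) (P : Submodule F V) : Unip B (UG B) (SUG B) P := by
  intro y hy h1 h2
  obtain ⟨p, hp⟩ := CharP.exists F
  have := Fact.mk (CharP.char_is_prime F p)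
  have h3 : ∀ x, dev y x ∈ perp B P := fun x s hs => by
    have : y⁻¹ s = s := by rw [LinearEquiv.coe_inv, LinearEquiv.symm_apply_eq, h1 s hs]
    simpa [this] using h.apply_sub hy s x
  have h4 : (dev y : Module.End F V) ^ 3 = 0 := by
    ext x
    have := h1 _ (h2 _ (h3 x))
    simp only [pow_succ, pow_zero, one_mul, Module.End.mul_apply, LinearMap.zero_apply]
    exact sub_eq_zero.2 this
  refine mem_SUG.2 ⟨hy, Units.ext (eq_one_of_pow_char_pow p (m := 3) ?_)⟩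
  rw [← Units.val_pow_eq_pow_val, ← map_pow, pow_eq_one_of_dev_pow p h4, map_one, Units.val_one]

theorem max_U {T : TStr 1 B₁ B₂ B} (hσ : IsBar q σ) (h2 : 2 ≤ finrank F V₁)
    (h5 : 5 ≤ finrank F V₂) (hn : finrank F V₁ < finrank F V₂) (hq : q ≠ 2 ∨ 3 ≤ finrank F V₁) :
    ¬ SUG B ≤ T.kron ∧ ∀ K, T.kron ⊓ SUG B ≤ K → K ≤ SUG B → K ≤ T.kron ∨ SUG B ≤ K := by
  have := hσ.finite
  have : Finite V := Module.finite_of_finite F
  have : Nontrivial V₁ := Module.nontrivial_of_finrank_pos (R := F) (by omega)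
  have h := T.h.isHerm hσ
  have hI := T.h₂.iso3_herm hσ
  obtain ⟨u, u', w, w', hu, hu', hw0, hw0', hw, hw', huw⟩ := T.exists_pair hI (by omega)
  have h4 : 4 ≤ finrank F V := by rw [T.finrank_eq]; nlinarith
  constructor
  · intro hle
    obtain ⟨s, -, h1, h3⟩ := T.h₂.exists_line hI h5 hw0
    obtain ⟨g, hg, γ, e⟩ := T.h.exists_isEich (T.B_P hw u) (a := T.t u s) (by simp [T.tt, h1])
    refine T.not_mem_kron h2 (by omega) hu hw0 h3 e (hle ?_)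
    rw [e.eq (T.B_P hw u) (by simp [T.tt, h1]) (by simp [T.tt, T.h₂.swap h1])] at hg ⊢
    exact h.QE_le_SUG (T.t_ne_zero hu hw0) (T.B_P hw u) (h.eichler_mem_QE
      (h.gamma_eq_of_isEich (T.B_P hw u) (T.t_ne_zero hu hw0) (by simp [T.tt, h1]) hg
        (isEich_eichler _ _ _ _ _ _)))
  intro K hK hKG
  have c : Ctx T K := Amb.ctx ⟨SUG_le_UG, le_rfl, fun _ _ h => h, fun _ _ => T.h.unip_SUG _,
    fun _ _ => T.h.unip_SUG _⟩ hK hKG hI h5
  obtain ⟨e, he0, he⟩ := (T.h₁.isHerm hσ).exists_isotropic h2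
  obtain ⟨δ, hδ0, hδ⟩ := hσ.exists_skew
  refine (dich_trace hn he0 he hδ0 (by simp [hδ]) (hq.imp_left fun hq => ?_) K c).imp_right
    fun hR => ?_
  · obtain ⟨s, h1, h2, h3⟩ := hσ.exists_fixed_ne hq
    exact ⟨s * δ, mul_ne_zero h2 hδ0, fun h => h3 (by simpa [hδ0] using h), by simp [h1, hδ]⟩
  exact h.SUG_le_of_QE_QE (T.B_P hw u) hσ h4 c.le (T.B_P hw' u') (by simp [huw])
    (h.QE_le_of_AE (T.B_P hw u) (by omega) c.le (T.t_ne_zero hu hw0)
      fun a ha => c.mem_AE hR hu hw0 hw ha)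
    (h.QE_le_of_AE (T.B_P hw' u') (by omega) c.le (T.t_ne_zero hu' hw0')
      fun a ha => c.mem_AE hR hu' hw0' hw' ha)

end Unitary

end Cfsg.Lib.TMax
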