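import Cfsg.Agent.Lib.TMax.Std

/-!
# Tensor product subgroups of orthogonal groups; the matrix versions
-/

namespace Cfsg.Lib.TMax

open Module Cfsg.Lib.Unitary QuadraticMap

set_option linter.unusedSectionVars false

section Orth

open Cfsg.Lib.Orth hiding perp mem_perp glEquiv finrank_span_pair_le

variable {F V V₁ V₂ : Type*} [Field F] [AddCommGroup V] [Module F V] [AddCommGroup V₁]
  [Module F V₁] [AddCommGroup V₂] [Module F V₂] {ε : F} {Q : QuadraticForm F V}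
  {B₁ : V₁ →ₗ[F] V₁ →ₗ[F] F} {B₂ : V₂ →ₗ[F] V₂ →ₗ[F] F}

theorem ef_polar (hQ : ND Q) : EF (RingHom.id F) 1 (polarBilin Q) :=
  ⟨fun _ => rfl, Or.inl rfl, fun u v => by simp [polar_comm], fun _ h => hQ.eq_zero h,
    fun s => ⟨Q s, by simp [polar_self', two_mul]⟩⟩

theorem O_le_UG : O Q ≤ UG (polarBilin Q) := fun g hg u v => O.map_polar ⟨g, hg⟩ u v

theorem EF.iso3_id [Finite F] [FiniteDimensional F V₁] : Iso3 B₁ := by
  intro W hW
  obtain ⟨w, h0, hw⟩ := OMax.exists_ne_zero_of_two_mul_lt (0 : W →ₗ[F] F) (B₁.domRestrict₁₂ W W)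
    (by rw [finrank_self]; omega)
  exact ⟨w, w.2, by simpa using h0, (zero_add _).symm.trans hw⟩

variable [FiniteDimensional F V]

theorem unip_omega (hQ : ND Q) (hE : ¬ Exc Q) {P : Submodule F V} (hP : TS Q P) :
    Unip (polarBilin Q) (O Q) ((commutator (O Q)).map (O Q).subtype) P := by
  intro y hy h1 h2
  classical
  let b := finBasis F P
  let α : perp (polarBilin Q) P →ₗ[F] P :=
    ((dev y).domRestrict _).codRestrict P fun x => h2 x x.2
  have h3 : ∀ i, ∃ z, ∀ x : perp (polarBilin Q) P, polar Q z x = b.coord i (α x) := fun i => by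
    obtain ⟨f, hf⟩ := LinearMap.exists_extend (b.coord i ∘ₗ α)
    obtain ⟨z, hz⟩ := (ef_polar hQ).exists_eq f
    exact ⟨z, fun x => (LinearMap.congr_fun hz x).trans (LinearMap.congr_fun hf x)⟩
  choose z hz using h3
  have h4 : ∀ i, ∀ p ∈ P, polar Q (z i) p = 0 := fun i p hp => by
    have : α ⟨p, hP.le_perp hp⟩ = 0 := Subtype.ext (sub_eq_zero.2 (h1 p hp))
    simpa [this] using hz i ⟨p, hP.le_perp hp⟩
  have h5 : ∀ s : Finset (Fin (finrank F P)), ∃ g ∈ commutator (O Q),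
      ∀ x ∈ perp (polarBilin Q) P, g.1 x = x + ∑ i ∈ s, polar Q (z i) x • (b i : V) := by
    intro s
    induction s using Finset.induction_on with
    | empty => exact ⟨1, one_mem _, fun x _ => by simp⟩
    | insert i s hi ih =>
      obtain ⟨g, hg, e⟩ := ih
      refine ⟨eich Q (b i) (z i) * g, mul_mem (eich_mem_commutator hQ hE _ _) hg, fun x hx => ?_⟩
      have h6 : ∑ i ∈ s, polar Q (z i) x • (b i : V) ∈ P :=
        P.sum_mem fun j _ => P.smul_mem _ (b j).2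
      rw [O.mul_apply, e x hx, eich_apply_of_perp (hP _ (b i).2)
        (by rw [polar_comm, h4 i _ (b i).2])
        (by rw [polar_add_right, hP.polar_eq (b i).2 h6, add_zero]; exact hx _ (b i).2),
        Finset.sum_insert hi, polar_add_right, h4 i _ h6, add_zero]
      abel
  obtain ⟨g, hg, e⟩ := h5 Finset.univ
  have h6 : g⁻¹ * ⟨y, hy⟩ ∈ fixer Q (Orth.perp Q P) := fun x hx => by
    rw [O.mul_apply, O.inv_apply_eq, e x hx]
    have h7 := congrArg Subtype.val (b.sum_repr (α ⟨x, hx⟩))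
    simp only [AddSubmonoidClass.coe_finset_sum, SetLike.val_smul] at h7
    rw [Finset.sum_congr rfl fun i _ => congrArg (· • (b i : V)) (hz i ⟨x, hx⟩)]
    exact (add_sub_cancel x (y x)).symm.trans (congrArg (x + ·) h7.symm)
  rw [fixer_eq_genIn hQ, perp_perp hQ] at h6
  have h7 := genIn_le (K := commutator (O Q)) (fun v hv h => absurd (hP v hv) h)
    (fun u _ z _ _ _ => eich_mem_commutator hQ hE u z) h6
  exact ⟨⟨y, hy⟩, by simpa using mul_mem hg h7, rfl⟩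

omit [FiniteDimensional F V] in
theorem isEich_eich {e a : V} (he : Q e = 0) (ha : polar Q e a = 0) :
    IsEich (polarBilin Q) e a (-Q a) (eich Q e (-a)).1 := fun x => by
  rw [eich_apply he (by simp [ha])]
  simp only [polarBilin_apply_apply, polar_neg_left, QuadraticMap.map_neg]
  module

omit [FiniteDimensional F V] in
theorem eq_eich (hQ : ND Q) {e a : V} (he0 : e ≠ 0) (he : Q e = 0) (ha : polar Q e a = 0) {γ : F}
    {g : O Q} (h : IsEich (polarBilin Q) e a γ g.1) : g = eich Q e (-a) := by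
  have h1 : ∀ x, g.1 x = (eich Q e (-a)).1 x + ((γ + Q a) * polar Q e x) • e := fun x => by
    rw [h, isEich_eich he ha]
    simp only [polarBilin_apply_apply]
    module
  obtain ⟨x, hx⟩ := hQ.exists_polar_ne he0
  have h2 := congrArg Q (h1 x)
  rw [Q_add, O.map_Q, O.map_Q, Q_smul, he, polar_smul_right', O.polar_left,
    show ((eich Q e (-a))⁻¹).1 e = e from O.inv_apply_eq _ |>.2
      (eich_apply_self he (by simp [ha])).symm, polar_comm Q x e] at h2
  have h3 : γ + Q a = 0 := by simpa [hx] using h2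
  exact O.ext fun x => by rw [h1, h3, zero_mul, zero_smul, add_zero]

variable [FiniteDimensional F V₁] [FiniteDimensional F V₂] {T : TStr ε B₁ B₂ (polarBilin Q)}

theorem TStr.ts_P (T : TStr ε B₁ B₂ (polarBilin Q)) {w : V₂} (h : ∀ v, Q (T.t v w) = 0) :
    TS Q (T.PS (F ∙ w)) := fun x hx => by
  obtain ⟨v, rfl⟩ := T.mem_P.1 hx
  exact h v

theorem max_O [Finite F] (hQ : ND Q) (hk : ∀ a b, T.kr a b ∈ UG (polarBilin Q) → T.kr a b ∈ O Q)
    (hs : ∀ v w, B₁ v v = 0 ∨ B₂ w w = 0 → Q (T.t v w) = 0) (h2 : 2 ≤ finrank F V₁)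
    (h5 : 5 ≤ finrank F V₂) (hD : Dich T) :
    ¬ commutator (O Q) ≤ T.kron.comap (O Q).subtype ∧
      ∀ K, T.kron.comap (O Q).subtype ⊓ commutator (O Q) ≤ K → K ≤ commutator (O Q) →
        K ≤ T.kron.comap (O Q).subtype ∨ commutator (O Q) ≤ K := by
  have : Nontrivial V₁ := Module.nontrivial_of_finrank_pos (R := F) (by omega)
  have hI : Iso3 B₂ := EF.iso3_id
  obtain ⟨u, u', w, w', hu, hu', hw0, hw0', hw, hw', huw⟩ := T.exists_pair hI (by omega)
  have h4 : 5 ≤ finrank F V := by rw [T.finrank_eq]; nlinarith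
  have hE : ¬ Exc Q := not_exc_of_five_le h4
  constructor
  · intro hle
    obtain ⟨s, -, h1, h3⟩ := T.h₂.exists_line hI h5 hw0
    exact T.not_mem_kron h2 (by omega) hu hw0 h3
      (isEich_eich (hs u w (Or.inr hw)) ((T.tt u w u s).trans (by rw [h1, mul_zero])))
      (hle (eich_mem_commutator hQ hE _ _))
  intro K hK hKG
  have c : Ctx T (K.map (O Q).subtype) := Amb.ctx ⟨Subgroup.map_subtype_le _, O_le_UG, hk,
    fun w hw => unip_omega hQ hE (T.ts_P fun v => hs v w (Or.inr hw)),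
    fun u hu => unip_omega hQ hE (TStr.ts_P T.symm fun v => by simpa using hs u v (Or.inl hu))⟩
    (by rintro _ ⟨h1, g, hg, rfl⟩; exact ⟨g, hK ⟨h1, hg⟩, rfl⟩) (Subgroup.map_mono hKG) hI h5
  refine (hD _ c).imp Subgroup.map_le_iff_le_comap.1 fun hR => ?_
  have key : ∀ u w, u ≠ 0 → w ≠ 0 → B₂ w w = 0 → OMax.FullAt K ⊤ (T.t u w) := by
    intro u w hu hw0 hw
    refine OMax.fullAt_iff.2 fun z _ he hz => ?_
    obtain ⟨-, _, ⟨g, hg, rfl⟩, γ, e⟩ := c.mem_AE hR hu hw0 hw (a := -z) (by simpa using hz)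
    have := eq_eich hQ (T.t_ne_zero hu hw0) he (by simpa using hz) e
    rwa [this, neg_neg] at hg
  exact OMax.commutator_le_of_pair hQ (by omega) (hs u w (Or.inr hw)) (hs u' w' (Or.inr hw'))
    (by rw [← polarBilin_apply_apply, huw]; exact one_ne_zero) (key u w hu hw0 hw)
    (key u' w' hu' hw0' hw')

theorem max_O_sp [Finite F] (hQ : ND Q) {T : TStr (-1) B₁ B₂ (polarBilin Q)}
    (ha : ∀ v, B₁ v v = 0) (hs : ∀ v w, Q (T.t v w) = 0) (h2 : 2 ≤ finrank F V₁)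
    (h5 : 5 ≤ finrank F V₂) (hn : finrank F V₁ < finrank F V₂)
    (hq : Nat.card F ≠ 2 ∨ 3 ≤ finrank F V₁) :
    ¬ commutator (O Q) ≤ T.kron.comap (O Q).subtype ∧
      ∀ K, T.kron.comap (O Q).subtype ⊓ commutator (O Q) ≤ K → K ≤ commutator (O Q) →
        K ≤ T.kron.comap (O Q).subtype ∨ commutator (O Q) ≤ K := by
  have : Nontrivial V₁ := Module.nontrivial_of_finrank_pos (R := F) (by omega)
  have : Finite V := Module.finite_of_finite F
  obtain ⟨e, he⟩ := exists_ne (0 : V₁)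
  refine max_O hQ (fun a b h x => ?_) (fun v w _ => hs v w) h2 h5
    (dich_trace hn he (ha e) one_ne_zero (by simp) (hq.imp_left fun hq => ?_))
  · induction x using T.ind with
    | h0 => simp
    | ht v w => rw [T.kr_t, hs, hs]
    | ha x y hx hy => rw [map_add, Q_add, Q_add, hx, hy]; exact congrArg _ (h x y)
  · obtain ⟨c, h0, h1⟩ : ∃ c : F, c ≠ 0 ∧ c ≠ 1 := by
      by_contra! h
      exact hq (Nat.card_eq_two_iff' (0 : F) |>.2 ⟨1, one_ne_zero, fun c hc => h c hc⟩)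
    exact ⟨c, h0, h1, by simp⟩

theorem max_O_orth [Finite F] (hQ : ND Q) {T : TStr 1 B₁ B₂ (polarBilin Q)} (h2 : (2 : F) ≠ 0)
    (h3 : 3 ≤ finrank F V₁) (hn : finrank F V₁ < finrank F V₂) (h5 : 5 ≤ finrank F V₂)
    (hW : finrank F V₁ ≠ 4 ∨ ∀ u v, u ≠ 0 → B₁ u u = 0 → B₁ v v = 0 → B₁ u v = 0 → v ∈ F ∙ u)
    (hq : 4 ≤ Nat.card F ∨ 4 ≤ finrank F V₁) :
    ¬ commutator (O Q) ≤ T.kron.comap (O Q).subtype ∧
      ∀ K, T.kron.comap (O Q).subtype ⊓ commutator (O Q) ≤ K → K ≤ commutator (O Q) →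
        K ≤ T.kron.comap (O Q).subtype ∨ commutator (O Q) ≤ K := by
  have : Nontrivial V₁ := Module.nontrivial_of_finrank_pos (R := F) (by omega)
  have : Finite V := Module.finite_of_finite F
  refine max_O hQ (fun a b h x => mul_left_cancel₀ h2 ?_) (fun v w h => mul_left_cancel₀ h2 ?_)
    (by omega) h5 fun K c => ?_
  · rw [← polar_self', ← polar_self']; exact h x x
  · rw [← polar_self', mul_zero]; exact (T.tt v w v w).trans (mul_eq_zero.2 h)
  by_cases hR : ∀ β ∈ c.ring, ∃ a : F, ∀ v, β v = a • v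
  · exact Or.inl (c.le_kron_orth hR h2 hn)
  obtain ⟨e, -, he0, he⟩ := EF.iso3_id (B₁ := B₁) ⊤ (by simpa)
  refine Or.inr (T.h₁.top_of_orth h2 c.alg h3 he0 he ?_ (hq.symm.imp_right fun hq => ?_) hR)
  · by_cases h4 : 5 ≤ finrank F V₁
    · exact Or.inl h4
    refine Or.inr (hW.elim (fun h6 u v hu0 hu hv huv => ?_) id)
    by_contra h7
    have h8 := T.h₁.finrank_add_finrank_perp (Submodule.span F {u, v})
    have h9 := Submodule.finrank_mono (T.symm.pair_le_perp hu hv huv)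
    rw [finrank_span_pair_of_linearIndependent
      ((LinearIndependent.pair_iff' hu0).2 fun a ha => h7 (Submodule.mem_span_singleton.2 ⟨a, ha⟩))]
      at h8 h9
    omega
  · classical
    have := Fintype.ofFinite F
    obtain ⟨t, -, ht⟩ := Finset.exists_mem_notMem_of_card_lt_card (s := {(0 : F), 1, -1})
      (t := Finset.univ) (Finset.card_le_three.trans_lt (by simpa [Nat.succ_le_iff] using hq))
    simp only [Finset.mem_insert, Finset.mem_singleton, not_or] at ht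
    exact ⟨t, ht.1, fun h => (mul_self_eq_one_iff.1 ((_root_.sq t).symm.trans h)).elim ht.2.1 ht.2.2⟩

end Orth

/-! ### Matrices -/

section Matrix

open Matrix Cfsg.Geo Cfsg.Lib.Asch Cfsg.Lib.Linear
open scoped MatrixGroups TensorProduct

variable {F : Type*} [Field F] {σ : F →+* F} {ε : F} {ι : Type} [Fintype ι] [DecidableEq ι]

/-- The sesquilinear map attached to a form on column vectors. -/
def bil {f : (ι → F) → (ι → F) → F} (h : SForm σ ε f) (c : F) :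
    (ι → F) →ₛₗ[σ] (ι → F) →ₗ[F] F :=
  LinearMap.mk₂'ₛₗ σ (RingHom.id F) (fun u v => c * f v u)
    (fun u u' v => by rw [h.add_right, mul_add])
    (fun a u v => by rw [h.smul_right, smul_eq_mul, mul_left_comm])
    (fun u v v' => by rw [h.add_left, mul_add])
    (fun a u v => by rw [h.smul_left, RingHom.id_apply, smul_eq_mul, mul_left_comm])

@[simp] theorem bil_apply {f : (ι → F) → (ι → F) → F} (h : SForm σ ε f) (c : F) (u v : ι → F) :
    bil h c u v = c * f v u := rfl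

theorem ef_bil {f : (ι → F) → (ι → F) → F} (h : SForm σ ε f) {c : F} (hc : c ≠ 0) (hc' : σ c = c)
    (hε : ε = 1 ∨ ε = -1) (tv : ∀ s, ∃ γ, c * f s s = γ + ε * σ γ) : EF σ ε (bil h c) :=
  ⟨h.invol, hε, fun u v => by
    rw [bil_apply, bil_apply, map_mul, hc', h.herm u v]
    rcases hε with rfl | rfl <;> ring,
    fun a ha => h.nondeg a fun x => (mul_eq_zero.1 (ha x)).resolve_left hc, tv⟩

variable {n₁ n₂ : ℕ} {f : (ι → F) → (ι → F) → F} {f₁ : (Fin n₁ → F) → (Fin n₁ → F) → F}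
  {f₂ : (Fin n₂ → F) → (Fin n₂ → F) → F} {e : ι ≃ Fin n₁ × Fin n₂} {P : GL ι F}

theorem exists_tstr [Nonempty ι] {B : (ι → F) →ₛₗ[σ] (ι → F) →ₗ[F] F} (h : EF σ 1 B)
    (hB : ∀ u v, B u v = f v u) (h₁ : SForm σ ε f₁) (h₂ : SForm σ ε f₂) (hε : ε = 1 ∨ ε = -1)
    (tv₁ : ∀ c, σ c = c → ∀ s, ∃ γ, c * f₁ s s = γ + ε * σ γ)
    (tv₂ : ∀ s, ∃ γ, 1 * f₂ s s = γ + ε * σ γ) (hT : IsTensorFormStructure σ f f₁ f₂ e P) :
    ∃ c ≠ 0, ∃ T : TStr ε (bil h₁ c) (bil h₂ 1) B, (∀ v w, T.t v w = P.1 *ᵥ (tens v w ∘ e)) ∧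
      ∀ g, g ∈ tensorProductSubgroup n₁ n₂ e P ↔ glEquiv ι F g ∈ T.kron := by
  obtain ⟨c, hc, hT⟩ := hT
  let φ : (Fin n₁ → F) ⊗[F] (Fin n₂ → F) ≃ₗ[F] (ι → F) :=
    (((Pi.basisFun F _).tensorProduct (Pi.basisFun F _)).equivFun.trans
      (LinearEquiv.funCongrLeft F F e)).trans (glEquiv ι F P)
  have hφ : ∀ v w, φ (v ⊗ₜ w) = P.1 *ᵥ (tens v w ∘ e) := fun v w => by
    simp only [φ, LinearEquiv.trans_apply, glEquiv_apply]
    congr 1
    ext i
    simp only [LinearEquiv.funCongrLeft_apply, LinearMap.funLeft_apply, Basis.equivFun_apply,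
      Function.comp_apply, tens]
    rw [show e i = ((e i).1, (e i).2) from rfl, Basis.tensorProduct_repr_tmul_apply]
    simp [mul_comm]
  have h3 : ∀ v w v' w', B (φ (v ⊗ₜ w)) (φ (v' ⊗ₜ w')) = c * f₁ v' v * (1 * f₂ w' w) := by
    intro v w v' w'
    have : σ ∘ tens v w = tens (σ ∘ v) (σ ∘ w) := by ext; simp [tens]
    rw [hB, hφ, hφ, hT, formOfGram_eq, this, kron_mulVec_tens, tens_dot_tens, h₁.eq_dot,
      h₂.eq_dot, one_mul, mul_assoc]
  have hc' : σ c = c := by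
    obtain ⟨i⟩ := ‹Nonempty ι›
    obtain ⟨v, hv⟩ : ∃ v, f₁ v (Pi.single (e i).1 1) ≠ 0 := by
      by_contra! h4
      simpa using congrFun (h₁.nondeg _ h4) (e i).1
    obtain ⟨w, hw⟩ : ∃ w, f₂ w (Pi.single (e i).2 1) ≠ 0 := by
      by_contra! h4
      simpa using congrFun (h₂.nondeg _ h4) (e i).2
    have h4 := h.symm (φ (v ⊗ₜ w)) (φ (Pi.single (e i).1 1 ⊗ₜ Pi.single (e i).2 1))
    rw [h3, h3, h₁.herm v, h₂.herm w] at h4
    rw [h₁.herm] at hv
    rw [h₂.herm] at hw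
    refine mul_right_cancel₀ (mul_ne_zero (right_ne_zero_of_mul hv) (right_ne_zero_of_mul hw)) ?_
    simp only [map_mul, one_mul] at h4
    rcases hε with rfl | rfl <;> linear_combination h4
  let T : TStr ε (bil h₁ c) (bil h₂ 1) B :=
    ⟨φ, h3, ef_bil h₁ hc hc' hε (tv₁ c hc'), ef_bil h₂ one_ne_zero (map_one σ) hε tv₂, h⟩
  have h5 : ∀ a b, glEquiv ι F (trGL e P (kr a b)) = T.kr (glEquiv _ F a) (glEquiv _ F b) := by
    intro a b
    refine T.eq_of_t fun v w => ?_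
    rw [T.kr_t, T.t_def, T.t_def]
    simp only [T, hφ, glEquiv_apply]
    rw [← kr_mulVec_tens]
    change (P * glReindex e.symm _ * P⁻¹).1 *ᵥ _ = _
    rw [GL_mul_mulVec, GL_mul_mulVec, GL_inv_mulVec_mulVec, coe_glReindex, reindex_apply,
      submatrix_mulVec_equiv]
    congr 3
    ext i
    simp
  refine ⟨c, hc, T, hφ, fun g => ?_⟩
  rw [tensorProductSubgroup, mem_map_map_iff, kroneckerSubgroup_eq, mem_kronGL]
  constructor
  · rintro ⟨a, b, h6⟩
    rw [(MulEquiv.symm_apply_eq _).1 h6, h5]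
    exact T.kr_mem _ _
  · rintro ⟨a, b, h6⟩
    obtain ⟨a, rfl⟩ := (glEquiv _ F).surjective a
    obtain ⟨b, rfl⟩ := (glEquiv _ F).surjective b
    rw [← h5] at h6
    exact ⟨a, b, (MulEquiv.symm_apply_eq _).2 ((glEquiv ι F).injective h6).symm⟩

theorem isMaximalIn_unitary {q n : ℕ} (hσ : IsBar q σ) {e : Fin n ≃ Fin n₁ × Fin n₂}
    {P : GL (Fin n) F} (h2 : 2 ≤ n₁) (h5 : 5 ≤ n₂) (hn : n₁ < n₂) (hq : q ≠ 2 ∨ 3 ≤ n₁)
    (h₁ : IsUnitaryFormPow q f₁) (h₂ : IsUnitaryFormPow q f₂)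
    (hT : IsTensorFormStructure (fun x : F => x ^ q) (hermForm n F q) f₁ f₂ e P) :
    IsMaximalIn (GU n F q ⊓ specialLinear (Fin n) F)
      (tensorProductSubgroup n₁ n₂ e P ⊓ (GU n F q ⊓ specialLinear (Fin n) F)) := by
  have : Nonempty (Fin n) := ⟨e.symm (⟨0, by omega⟩, ⟨0, by omega⟩)⟩
  have h₁' := sform_of_unitaryPow hσ h₁
  have h₂' := sform_of_unitaryPow hσ h₂
  rw [show (fun x : F => x ^ q) = σ from funext fun x => (hσ.eq x).symm] at hT
  obtain ⟨c, -, T, -, h3⟩ := exists_tstr hσ.isHerm.ef (fun u v => (hσ.hermForm_eq v u).symm) h₁' h₂'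
    (Or.inl rfl)
    (fun c hc s => by
      simpa [eq_comm] using hσ.exists_trace_eq (s := c * f₁ s s)
        (by rw [map_mul, hc, ← one_mul (σ _), ← h₁'.herm]))
    (fun s => by
      simpa [eq_comm] using hσ.exists_trace_eq (s := f₂ s s) (by rw [← one_mul (σ _), ← h₂'.herm]))
    hT
  obtain ⟨h4, h6⟩ := max_U (T := T) hσ (by simpa) (by simpa) (by simpa) (by simpa)
  exact hσ.isMaximalIn_of (fun g _ => h3 g) h4 h6

open Cfsg.Lib.Orth hiding perp mem_perp glEquiv finrank_span_pair_le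

variable [Fintype F] {Q : QuadraticForm F (ι → F)}

theorem isMaximalIn_sp (hQ : ND Q) (h2 : 2 ≤ n₁) (h5 : 5 ≤ n₂) (hn : n₁ < n₂)
    (hq : Fintype.card F ≠ 2 ∨ 3 ≤ n₁) (h₁ : IsSymplecticForm f₁) (h₂ : IsSymplecticForm f₂)
    (hT : IsTensorFormStructure id (polar Q) f₁ f₂ e P)
    (hs : ∀ v w, Q (P.1 *ᵥ (tens v w ∘ e)) = 0) :
    IsMaximalIn (omegaGL Q) (tensorProductSubgroup n₁ n₂ e P ⊓ omegaGL Q) := by
  have : Nonempty ι := ⟨e.symm (⟨0, by omega⟩, ⟨0, by omega⟩)⟩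
  obtain ⟨c, -, T, h0, h3⟩ := exists_tstr (ef_polar hQ) (fun u v => polar_comm Q u v)
    (sform_of_symplectic h₁) (sform_of_symplectic h₂) (Or.inr rfl)
    (fun c _ s => ⟨0, by simp [h₁.alternating]⟩) (fun s => ⟨0, by simp [h₂.alternating]⟩) hT
  obtain ⟨h4, h6⟩ := max_O_sp hQ (T := T) (fun v => by simp [h₁.alternating]) (fun v w => by rw [h0, hs])
    (by simpa) (by simpa) (by simpa) (by simpa)
  exact OMax.isMaximalIn_of (fun g => h3 g) h4 h6

theorem isMaximalIn_orth (hQ : ND Q) (hodd : Odd (Fintype.card F)) (h3 : 3 ≤ n₁) (h3' : 3 ≤ n₂)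
    (hn : n₁ ≠ n₂) (h5 : 5 ≤ n₁ ∨ 5 ≤ n₂) (hq : Fintype.card F ≠ 3 ∨ n₁ ≠ 3 ∧ n₂ ≠ 3)
    (hW₁ : n₁ ≠ 4) (hW₂ : n₂ = 4 → ¬ IsPlusTypeOn (fun v => f₂ v v) ⊤)
    (h₁ : IsSymmetricForm f₁) (h₂ : IsSymmetricForm f₂)
    (hT : IsTensorFormStructure id (polar Q) f₁ f₂ e P) :
    IsMaximalIn (omegaGL Q) (tensorProductSubgroup n₁ n₂ e P ⊓ omegaGL Q) := by
  have : Nonempty ι := ⟨e.symm (⟨0, by omega⟩, ⟨0, by omega⟩)⟩
  have h2 := two_ne_zero_of_odd_card hodd
  have h₂' := sform_of_symmetric h₂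
  obtain ⟨c, -, T, -, h0⟩ := exists_tstr (ef_polar hQ) (fun u v => polar_comm Q u v)
    (sform_of_symmetric h₁) h₂' (Or.inl rfl)
    (fun c _ s => ⟨c * f₁ s s / 2, by simp only [RingHom.id_apply]; field_simp; ring⟩)
    (fun s => ⟨f₂ s s / 2, by simp only [RingHom.id_apply]; field_simp; ring⟩) hT
  have h7 := Fintype.one_lt_card (α := F)
  obtain ⟨k, hk⟩ := hodd
  rcases hn.lt_or_gt with hn | hn
  · obtain ⟨h4, h6⟩ := max_O_orth hQ (T := T) h2 (by simpa) (by simpa) (by simp; omega)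
      (Or.inl (by simpa)) (by simp; omega)
    exact OMax.isMaximalIn_of (fun g => h0 g) h4 h6
  · obtain ⟨h4, h6⟩ := max_O_orth hQ (T := T.symm) h2 (by simpa) (by simpa) (by simp; omega)
      (or_iff_not_imp_left.2 fun h4 u v hu0 hu hv huv => by
        by_contra h8
        have h9 : n₂ = 4 := by simpa using h4
        refine hW₂ h9 ⟨Submodule.span F {u, v}, le_top, fun x hx => ?_, ?_⟩
        · simpa using T.pair_le_perp hu hv huv hx x hx
        · rw [finrank_span_pair_of_linearIndependent ((LinearIndependent.pair_iff' hu0).2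
            fun a ha => h8 (Submodule.mem_span_singleton.2 ⟨a, ha⟩))]
          simp [h9])
      (by simp; omega)
    rw [T.symm_kron] at h4 h6
    exact OMax.isMaximalIn_of (fun g => h0 g) h4 h6

end Matrix

end Cfsg.Lib.TMax
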