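import Cfsg.Agent.Lib.TMax.FourC

/-!
# Overgroups of `GU₂ ∘ GU₃` in `SU₆`: local analysis
-/

namespace Cfsg.Lib.TMax

open Module Cfsg.Lib.Unitary

set_option linter.unusedSectionVars false

variable {F V V₁ V₂ : Type*} [Field F] [AddCommGroup V] [Module F V] [AddCommGroup V₁]
  [Module F V₁] [AddCommGroup V₂] [Module F V₂] {σ : F →+* F} {q : ℕ}
  {B : V →ₛₗ[σ] V →ₗ[F] F} {B₁ : V₁ →ₛₗ[σ] V₁ →ₗ[F] F} {B₂ : V₂ →ₛₗ[σ] V₂ →ₗ[F] F}

/-- `K` is a group of isometries containing the tensor product group (unitary case, factors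
of dimensions two and three). -/
structure Ctx3 (q : ℕ) (T : TStr 1 B₁ B₂ B) (K : Subgroup (V ≃ₗ[F] V)) : Prop where
  le : K ≤ UG B
  unip : ∀ w, B₂ w w = 0 → ∀ z ∈ K, ∀ a b, T.kr a b ∈ UG B →
    (∀ v, z (T.t v w) = T.kr a b (T.t v w)) →
    (∀ x, T.cr w x = 0 → z x - T.kr a b x ∈ T.PS (F ∙ w)) → (∃ c : F, b w = c • w) → T.kr a b ∈ K
  e₁ : ∀ u, B₁ u u = 0 → ∀ a ∈ QE B₁ u, T.kr a 1 ∈ K
  bar : IsBar q σ
  q3 : 3 ≤ q
  two : finrank F V₁ = 2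
  three : finrank F V₂ = 3

/-- `K` contains no transvection whose centre is a product of isotropic vectors. -/
def NoTv (T : TStr 1 B₁ B₂ B) (K : Subgroup (V ≃ₗ[F] V)) : Prop :=
  ∀ u w, u ≠ 0 → w ≠ 0 → B₁ u u = 0 → B₂ w w = 0 → ∀ (d : F), ∀ g ∈ K,
    (∀ x, g x = x + (d * B (T.t u w) x) • T.t u w) → d = 0

theorem EF.mem_span_of_two (h : EF σ 1 B) [FiniteDimensional F V] (h2 : finrank F V = 2) {u v : V}
    (hu0 : u ≠ 0) (hu : B u u = 0) (huv : B u v = 0) : v ∈ F ∙ u := by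
  have h1 := h.finrank_add_finrank_perp (F ∙ u)
  rw [finrank_span_singleton hu0] at h1
  exact (Submodule.eq_of_le_of_finrank_le (S₂ := perp B (F ∙ u))
    ((Submodule.span_singleton_le_iff_mem _ _).2 (mem_perp_singleton.2 hu))
    (by rw [finrank_span_singleton hu0]; omega)).ge (mem_perp_singleton.2 huv)

namespace Ctx3

variable {T : TStr 1 B₁ B₂ B} {K : Subgroup (V ≃ₗ[F] V)} (c : Ctx3 q T K)
include c

theorem cr_eq_zero {w w' : V₂} {k : V ≃ₗ[F] V} (hk : k ∈ K) {A : V₁ → V₁}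
    (hA : ∀ v, k (T.t v w) = T.t (A v) w') {x : V} (hx : T.cr w' x = 0) : T.cr w (k⁻¹ x) = 0 :=
  T.cr_eq_zero.2 fun v => by rw [← UG_apply_left (c.le hk), hA, T.B_t, hx, map_zero]

theorem conj_mem {w w' : V₂} {hw : B₂ w w = 0} (hw' : B₂ w' w' = 0) {k : V ≃ₗ[F] V} (hk : k ∈ K)
    {A : V₁ ≃ₗ[F] V₁} (hA : ∀ v, k (T.t v w) = T.t (A v) w') {α : V →ₗ[F] V₁}
    (h : α ∈ T.uA K hw) : A.toLinearMap ∘ₗ α ∘ₗ (k⁻¹).toLinearMap ∈ T.uA K hw' := by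
  obtain ⟨h1, y, hy, hy'⟩ := h
  refine ⟨fun v => ?_, k * y * k⁻¹, mul_mem (mul_mem hk hy) (inv_mem hk), fun x hx => ?_⟩
  · obtain ⟨v, rfl⟩ := A.surjective v
    simp [← hA, h1]
  · rw [LinearEquiv.mul_apply, LinearEquiv.mul_apply, hy' _ (c.cr_eq_zero hk hA hx), map_add, hA]
    simp

variable [FiniteDimensional F V₁] [FiniteDimensional F V₂] [FiniteDimensional F V]

theorem e₂ {w : V₂} (hw : B₂ w w = 0) {b} (hb : b ∈ QE B₂ w) : T.kr 1 b ∈ K :=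
  c.unip w hw 1 (one_mem _) 1 b (T.kr_mem_UG (one_mem _) hb.1) (fun v => by simp [hb.2.1])
    (fun x hx => T.PS_le (X := (T.PS (F ∙ w)).comap (1 - (T.kr 1 b).toLinearMap)) (fun v y hy => by
      obtain ⟨a, ha⟩ := hb.2.2 y (mem_perp_singleton.1 hy)
      simpa [ha] using Submodule.smul_mem _ a (T.t_mem_P v w)) (T.perp_PS _ ▸ T.mem_perp_P.2 hx))
    ⟨1, by simp [hb.2.1]⟩

theorem exists_E {w s : V₂} (hw : B₂ w w = 0) (hs : B₂ w s = 0) :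
    ∃ b ∈ QE B₂ w, (∀ y, B₂ w y = 0 → b y = y + B₂ s y • w) ∧ T.kr 1 b ∈ K ∧
      ∀ x, T.cr w x = 0 → T.kr 1 b x = x + T.t (T.cr s x) w := by
  obtain ⟨b, hb, hb'⟩ := T.h₂.exists_E hw hs
  exact ⟨b, hb, hb', c.e₂ hw hb, fun x hx => T.cr_ext (f := (T.kr 1 b).toLinearMap)
    (g := 1 + T.t.flip w ∘ₗ T.cr s) (fun v y hy => by simp [hb' y hy]) hx⟩

theorem isB_one : T.IsB K 1 := fun w hw s hs => by
  obtain ⟨b, -, -, hb, hb'⟩ := c.exists_E hw hs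
  exact ⟨fun v => by simp [T.h₂.swap hs], _, hb, hb'⟩

/-- Transvections of the second factor. -/
theorem exists_tv {w : V₂} (hw : B₂ w w = 0) {γ : F} (hγ : γ + σ γ = 0) :
    ∃ b, T.kr 1 b ∈ K ∧ (∀ y, b y = y + (γ * B₂ w y) • w) ∧
      ∀ x, T.kr 1 b x = x + T.t (γ • T.cr w x) w := by
  obtain ⟨b, hb, hb'⟩ := T.h₂.exists_transv (c := γ) hw (by rwa [one_mul])
  exact ⟨b, c.e₂ hw hb, hb', T.ext_t (f := (T.kr 1 b).toLinearMap)
    (g := 1 + T.t.flip w ∘ₗ (γ • T.cr w)) fun v y => by simp [hb', mul_smul]⟩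

theorem su₂ {b} (hb : b ∈ SUG B₂) : T.kr 1 b ∈ K := by
  have := c.bar.finite
  have h := T.h₂.isHerm c.bar
  rw [← h.TG_eq_SUG c.bar (by have := c.q3; omega)] at hb
  exact TG_le (N := K.comap (MonoidHom.mk' (T.kr 1) fun b b' => by rw [T.kr_mul, mul_one]))
    (fun u d hu hd => c.e₂ hu (h.transv_mem_QE d hu hd)) hb

theorem exists_trans {w w' : V₂} (hw0 : w ≠ 0) (hw0' : w' ≠ 0) (hw : B₂ w w = B₂ w' w') :
    ∃ b, T.kr 1 b ∈ K ∧ b ∈ UG B₂ ∧ b w = w' := by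
  have := c.bar.finite
  obtain ⟨b, hb, h⟩ := (T.h₂.isHerm c.bar).exists_SUG_vec c.three.ge hw0 hw0' hw
  exact ⟨b, c.su₂ hb, hb.1, h⟩

theorem mid {w s : V₂} (hw0 : w ≠ 0) (hw : B₂ w w = 0) (h2 : B₂ w s = 0) (h1 : B₂ s s ≠ 0)
    {y : V₂} (hy : B₂ w y = 0) : ∃ a b : F, a • s + b • w = y := by
  have h3 := T.h₂.finrank_add_finrank_perp (F ∙ w)
  rw [finrank_span_singleton hw0, c.three] at h3
  refine Submodule.mem_span_pair.1
    ((Submodule.eq_of_le_of_finrank_le (S₂ := perp B₂ (F ∙ w)) (Submodule.span_le.2 ?_) ?_).ge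
      (mem_perp_singleton.2 hy))
  · rintro _ (rfl | rfl)
    exacts [mem_perp_singleton.2 h2, mem_perp_singleton.2 hw]
  · rw [Set.pair_comm, finrank_span_pair_of_linearIndependent
      ((LinearIndependent.pair_iff' hw0).2 fun a ha => h1 (by simp [← ha, hw]))]
    omega

theorem exists_mid {w : V₂} (hw0 : w ≠ 0) (hw : B₂ w w = 0) : ∃ s, B₂ w s = 0 ∧ B₂ s s ≠ 0 ∧
    ∀ y, B₂ w y = 0 → ∃ a b : F, a • s + b • w = y := by
  obtain ⟨s, h1, h2⟩ := (T.h₂.isHerm c.bar).exists_nonisotropic_orth c.three.ge w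
  exact ⟨s, h2, h1, fun y hy => c.mid hw0 hw h2 h1 hy⟩

theorem cr_dev {w s s' : V₂} (hw : B₂ w w = 0) (hs : B₂ w s = 0) (hs' : B₂ w s' = 0)
    {γ γ' : Module.End F V₁} (e : ∀ x y, B₁ (γ x) y = B₁ x (γ' y)) {y : V ≃ₗ[F] V} (hy : y ∈ K)
    (hy' : ∀ x, T.cr w x = 0 → y x = x + T.t ((γ ∘ₗ T.cr s') x) w) (x : V) :
    T.cr s (y x - x) = -B₂ s s' • γ' (T.cr w x) := by
  refine T.h₁.ext' fun v => ?_
  rw [← T.B_t, T.h.apply_sub (c.le hy), show y⁻¹ (T.t v s) = T.t v s - T.t (B₂ s' s • γ v) w from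
    y.symm_apply_eq.2 (by
      rw [map_sub, hy' _ (by simp [hs]), hy' _ (by simp [hw])]
      simp [T.h₂.swap hs']), sub_sub_cancel_left, map_neg, LinearMap.neg_apply, T.B_t]
  simp [e, T.h₂.symm]

section Small

variable (hT : NoTv T K)
include hT

theorem zeta_scalar {w : V₂} (hw0 : w ≠ 0) (hw : B₂ w w = 0) {r : V ≃ₗ[F] V} (hr : r ∈ K)
    {ζ : Module.End F V₁} (h : ∀ x, r x = x + T.t (ζ (T.cr w x)) w) : ∃ a : F, ∀ v, ζ v = a • v := by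
  let Z : AddSubgroup (Module.End F V₁) :=
    { carrier := {ζ | ∃ r ∈ K, ∀ x, r x = x + T.t (ζ (T.cr w x)) w}
      zero_mem' := ⟨1, one_mem _, fun x => by simp⟩
      add_mem' := by
        rintro a b ⟨y, hy, hy'⟩ ⟨z, hz, hz'⟩
        exact ⟨y * z, mul_mem hy hz, fun x => by simp [hy', hz', hw]; abel⟩
      neg_mem' := by
        rintro a ⟨y, hy, hy'⟩
        exact ⟨y⁻¹, inv_mem hy, fun x => y.symm_apply_eq.2 (by simp [hy', hw])⟩ }
  have h1 : ∀ s : F, σ s = s → s ≠ 0 → ∀ ζ ∈ Z, s • ζ ∈ Z := by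
    rintro s hs hs0 ζ ⟨y, hy, hy'⟩
    obtain ⟨l, rfl⟩ := c.bar.exists_norm_eq hs
    obtain ⟨b, hb, hb', e⟩ := c.exists_trans (w' := l • w) hw0
      (smul_ne_zero (left_ne_zero_of_mul hs0) hw0) (by simp [hw])
    refine ⟨_, mul_mem (mul_mem hb hy) (inv_mem hb), fun x => ?_⟩
    rw [LinearEquiv.mul_apply, LinearEquiv.mul_apply, hy', map_add, T.kr_inv,
      T.cr_kr _ (inv_mem hb'), ← LinearEquiv.mul_apply, T.kr_mul]
    simp [e, T.cr_smul, smul_smul, mul_comm]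
  obtain ⟨ζ', e⟩ := T.h₁.exists_adj ζ
  replace e := T.h₁.adj_symm e
  have h2 : ∀ y, B₁ y y = 0 → ∀ d : F, d + σ d = 0 →
      d • (rk B₁ y (ζ' y) - rk B₁ (ζ y) y - (d * B₁ y (ζ y)) • rk B₁ y y) ∈ Z := fun y hy d hd => by
    obtain ⟨a, ha, ha'⟩ := T.h₁.exists_transv hy (c := d) (by rwa [one_mul])
    have h3 : ∀ p, a⁻¹ p = p - (d * B₁ y p) • y := fun p => a.symm_apply_eq.2 (by simp [ha', hy])
    have hk := c.e₁ y hy a ha
    convert sub_mem (show a.toLinearMap * ζ * (a⁻¹).toLinearMap ∈ Z from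
      ⟨_, mul_mem (mul_mem hk hr) (inv_mem hk), fun x => ?_⟩) (show ζ ∈ Z from ⟨r, hr, h⟩) using 1
    · ext p
      simp only [LinearMap.sub_apply, LinearMap.smul_apply, rk_apply, Module.End.mul_apply,
        LinearEquiv.coe_coe, h3, ha', map_sub, map_smul, smul_eq_mul, e]
      module
    · rw [LinearEquiv.mul_apply, LinearEquiv.mul_apply, h, map_add, T.kr_inv,
        T.cr_kr _ (inv_mem (one_mem _)), ← LinearEquiv.mul_apply, T.kr_mul]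
      simp
  obtain ⟨δ, hδ0, hδ⟩ := c.bar.exists_skew
  obtain ⟨s, hs, hs0, hs1⟩ := c.bar.exists_fixed_ne (by have := c.q3; omega)
  obtain ⟨u, hu0, hu⟩ := have := c.bar.finite; (T.h₁.isHerm c.bar).exists_isotropic c.two.ge
  refine T.h₁.scalar_of_fix (T.h₁.t3_of_trace hδ0 (by simp [hδ])) hu0 hu fun y hy => ?_
  rcases eq_or_ne y 0 with rfl | hy0
  · simp
  obtain ⟨g, hg, hg'⟩ := sub_mem (h1 s hs hs0 _ (h2 y hy δ (by simp [hδ])))
    (h2 y hy (s * δ) (by simp [hδ, hs]))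
  have := hT y w hy0 hw0 hy hw (s * (s - 1) * δ ^ 2 * B₁ y (ζ y)) g hg fun x => by
    rw [hg', T.B_t, ← LinearMap.smul_apply, ← map_smul]
    congr 3
    simp only [LinearMap.sub_apply, LinearMap.smul_apply, rk_apply]
    module
  exact T.h₁.mem_span_of_two c.two hy0 hy (by simpa [hs0, hδ0, sub_eq_zero, hs1] using this)

theorem beta_scalar {w s : V₂} {hw : B₂ w w = 0} (hw0 : w ≠ 0) (hws : B₂ w s = 0)
    (hs : B₂ s s ≠ 0) {β : Module.End F V₁} (hβ : β ∘ₗ T.cr s ∈ T.uA K hw) :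
    ∃ a : F, ∀ v, β v = a • v := by
  obtain ⟨β', e⟩ := T.h₁.exists_adj β
  have key : ∀ a : F, ∃ d : F, ∀ v, σ a • β' v - a • β v = d • v := fun a => by
    have h2 : B₂ w ((a / B₂ s s) • s) = 0 := by simp [hws]
    have h4 : B₂ s ((a / B₂ s s) • s) = a := by simp [hs]
    generalize (a / B₂ s s) • s = s' at h2 h4
    have h3 : B₂ s' s = σ a := by rw [T.h₂.flip, h4, one_mul]
    obtain ⟨h5, y, hy, hy'⟩ := hβ
    obtain ⟨h6, z, hz, hz'⟩ := c.isB_one w hw s' h2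
    have h7 : ∀ k ∈ K, (∀ v, k (T.t v w) = T.t v w) → ∀ x, T.cr w (k x - x) = 0 := fun k hk hk' x =>
      T.cr_eq_zero.2 fun v => by
        rw [T.h.apply_sub (c.le hk), show k⁻¹ (T.t v w) = T.t v w from k.symm_apply_eq.2 (hk' v).symm]
        simp
    have h8 : ∀ v, y (T.t v w) = T.t v w := fun v => by rw [hy' _ (by simp [hw]), h5]; simp
    have h9 : ∀ v, z (T.t v w) = T.t v w := fun v => by rw [hz' _ (by simp [hw]), h6]; simp
    refine c.zeta_scalar hT hw0 hw (mul_mem (inv_mem (mul_mem hz hy)) (mul_mem hy hz))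
      (ζ := σ a • β' - a • β) fun x => ?_
    refine (z * y).symm_apply_eq.2 ?_
    have e1 := hy' _ (h7 z hz h9 x)
    have e2 := hz' _ (h7 y hy h8 x)
    rw [LinearMap.comp_apply, c.cr_dev hw hws h2 (γ' := 1) (fun _ _ => rfl) hz hz', map_sub, h4] at e1
    rw [LinearMap.comp_apply, c.cr_dev hw h2 hws e hy hy', map_sub, h3] at e2
    simp only [LinearEquiv.mul_apply, map_add, h8, h9, LinearEquiv.coe_coe, LinearMap.sub_apply,
      LinearMap.smul_apply, Module.End.one_apply, map_sub, map_smul, neg_smul, map_neg,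
      LinearMap.neg_apply] at e1 e2 ⊢
    linear_combination (norm := module) e1 - e2
  obtain ⟨μ, hμ⟩ := c.bar.exists_ne
  obtain ⟨d, hd⟩ := key 1
  obtain ⟨d', hd'⟩ := key μ
  refine ⟨(σ μ - μ)⁻¹ * (d' - σ μ * d), fun v => ?_⟩
  rw [mul_smul, eq_inv_smul_iff₀ (sub_ne_zero.2 hμ)]
  have := hd v
  rw [map_one] at this
  linear_combination (norm := module) hd' v - σ μ • this

theorem exists_cr {w : V₂} {hw : B₂ w w = 0} (hw0 : w ≠ 0) {α : V →ₗ[F] V₁} (h : α ∈ T.uA K hw) :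
    ∃ s, B₂ w s = 0 ∧ ∀ x, T.cr w x = 0 → α x = T.cr s x := by
  obtain ⟨s, h1, h2, h3⟩ := c.exists_mid hw0 hw
  have h4 : ∀ x, T.cr w x = 0 → (((B₂ s s)⁻¹ • α ∘ₗ T.t.flip s) ∘ₗ T.cr s) x = α x := fun x hx =>
    T.cr_ext (fun v y hy => by
      obtain ⟨a, b, rfl⟩ := h3 y hy
      simp [h.1, T.h₂.swap h1, smul_smul, h2, mul_comm a]) hx
  obtain ⟨a, ha⟩ := c.beta_scalar hT hw0 h1 h2 (TStr.uA_congr h h4)
  exact ⟨σ a • s, by simp [h1], fun x hx => by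
    rw [← h4 x hx, LinearMap.comp_apply, ha]; simp [T.cr_smul, T.h₂.invol]⟩

variable [Nontrivial V₁]

theorem mem_kron_of_unip {w : V₂} (hw0 : w ≠ 0) (hw : B₂ w w = 0) {y : V ≃ₗ[F] V} (hy : y ∈ K)
    (h1 : ∀ v, y (T.t v w) = T.t v w) (h2 : ∀ x, T.cr w x = 0 → y x - x ∈ T.PS (F ∙ w)) :
    y ∈ T.kron := by
  obtain ⟨w', hw'⟩ := T.h₂.exists_eq_one' hw0
  obtain ⟨w₁, hw₁⟩ := T.h₂.exists_eq_one hw0
  obtain ⟨s, hs, hs'⟩ := c.exists_cr hT (hw := hw) hw0 (α := T.cr w' ∘ₗ dev y)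
    ⟨fun v => by simp [h1], y, hy, fun x hx => by
      rw [LinearMap.comp_apply, dev_apply, T.t_cr hw' (h2 x hx), add_sub_cancel]⟩
  obtain ⟨b, -, -, hb, hb'⟩ := c.exists_E hw hs
  have h3 : ∀ x, T.cr w x = 0 → ((T.kr 1 b)⁻¹ * y) x = x := fun x hx =>
    (T.kr 1 b).symm_apply_eq.2 (by
      rw [hb' x hx, ← hs' x hx, LinearMap.comp_apply, dev_apply, T.t_cr hw' (h2 x hx),
        add_sub_cancel]
      rfl)
  have h4 := mul_mem (inv_mem hb) hy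
  rw [← T.kron.mul_mem_cancel_left (inv_mem (T.kr_mem 1 b))]
  generalize (T.kr 1 b)⁻¹ * y = r at h3 h4
  have h5 : ∀ x, r x = x + T.t ((T.cr w' ∘ₗ dev r ∘ₗ T.t.flip w₁) (T.cr w x)) w := fun x => by
    have := h3 (x - T.t (T.cr w x) w₁) (by simp [hw₁])
    rw [LinearMap.comp_apply, LinearMap.comp_apply, dev_apply, T.t_cr hw'
      (T.h.sub_mem_of_fix (c.le h4) (fun x hx => h3 x (T.mem_perp_P.1 hx)) _)]
    rw [map_sub, sub_eq_iff_eq_add] at this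
    rw [this, LinearMap.flip_apply]
    abel
  obtain ⟨a, ha⟩ := c.zeta_scalar hT hw0 hw h4 h5
  exact ⟨1, LinearEquiv.transvection (f := a • B₂ w) (v := w) (by simp [hw]), T.eq_of_t fun v y => by
    rw [h5, ha]; simp [LinearMap.transvection.apply, smul_smul, mul_comm]⟩

/-- The stabiliser of `V₁ ⊗ w` preserves the tensor decomposition. -/
theorem mem_kron_of_stab {w : V₂} (hw0 : w ≠ 0) (hw : B₂ w w = 0) {z : V ≃ₗ[F] V} (hz : z ∈ K)
    (hP : ∀ v, z (T.t v w) ∈ T.PS (F ∙ w)) : z ∈ T.kron := by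
  obtain ⟨A, hA⟩ := T.exists_A hw0 hw0 hP
  have hA' : ∀ v, z⁻¹ (T.t v w) = T.t (A⁻¹ v) w := fun v => z.symm_apply_eq.2 (by simp [hA])
  have h1 : ∀ s₁, B₂ w s₁ = 0 → ∃ s, ∀ x, T.cr w x = 0 → T.cr s₁ (z x) = A (T.cr s x) :=
    fun s₁ hs₁ => by
      obtain ⟨s, -, hs⟩ := c.exists_cr hT hw0
        (c.conj_mem hw (inv_mem hz) hA' (c.isB_one w hw s₁ hs₁))
      exact ⟨s, fun x hx => by simp [← hs x hx]⟩
  obtain ⟨v₀, hv⟩ := exists_ne (0 : V₁)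
  obtain ⟨u₁, hu⟩ := T.h₁.exists_eq_one' ((map_ne_zero_iff A A.injective).2 hv)
  let b₀ : V₂ →ₗ[F] V₂ := T.symm.cr u₁ ∘ₗ z.toLinearMap ∘ₗ T.t v₀
  have h2 : ∀ s y, B₂ s (b₀ y) = B₁ u₁ (T.cr s (z (T.t v₀ y))) := fun s y => by
    rw [← T.B_t, T.B_t']; rfl
  have h3 : ∀ v y, B₂ w y = 0 → z (T.t v y) - T.t (A v) (b₀ y) ∈ T.PS (F ∙ w) := fun v y hy =>
    T.mem_P'.2 fun s₁ hs₁ => by
      obtain ⟨s, hs⟩ := h1 s₁ hs₁
      rw [map_sub, T.cr_t, h2, hs _ (by simp [hy]), hs _ (by simp [hy])]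
      simp [hu]
  have h4 : ∀ y, B₂ w y = 0 → B₂ w (b₀ y) = 0 := fun y hy => by
    rw [h2, show T.cr w (z (T.t v₀ y)) = 0 from c.cr_eq_zero (inv_mem hz) hA' (by simp [hy]),
      map_zero]
  have h5 : ∀ v v' y y', B₂ w y = 0 → B₂ w y' = 0 →
      B₁ v v' * B₂ y y' = B₁ (A v) (A v') * B₂ (b₀ y) (b₀ y') := fun v v' y y' hy hy' => by
    obtain ⟨p, hp⟩ := T.mem_P.1 (h3 v y hy)
    obtain ⟨p', hp'⟩ := T.mem_P.1 (h3 v' y' hy')
    rw [← T.tt, ← c.le hz, eq_add_of_sub_eq hp.symm, eq_add_of_sub_eq hp'.symm]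
    simp [T.tt, hw, h4 y' hy', T.h₂.swap (h4 y hy)]
  obtain ⟨y₀, h6, h8, -⟩ := c.exists_mid hw0 hw
  obtain ⟨v₁, hv₁⟩ := T.h₁.exists_eq_one hv
  have h9 := h5 v₀ v₁ y₀ y₀ h6 h6
  rw [hv₁, one_mul] at h9
  have h10 : ∀ v v', B₁ (A v) (A v') = B₁ (A v₀) (A v₁) * B₁ v v' := fun v v' =>
    mul_right_cancel₀ (right_ne_zero_of_mul (h9 ▸ h8)) (by
      rw [← h5 v v' y₀ y₀ h6 h6, h9]; ring)
  obtain ⟨w', hw', hww⟩ := T.h₂.exists_hyp hw0 hw
  obtain ⟨b, hb1, hb2, hb3⟩ := T.h₂.exists_simil hw hw' hww h4 (by simp [b₀, hA, hu])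
    (left_ne_zero_of_mul (h9 ▸ h8)) (μ := B₁ (A v₀) (A v₁)) (by
      rw [T.h₁.symm, h10, T.h₁.flip v₀ v₁, hv₁, map_one, mul_one, mul_left_comm, T.h₁.eps_sq,
        mul_one]) (fun y y' hy hy' => by rw [← h5 _ _ _ _ hy hy', hv₁, one_mul])
  have h11 : ∀ x, T.cr w x = 0 → z x - T.kr A b x ∈ T.PS (F ∙ w) := fun x hx =>
    T.PS_le (X := (T.PS (F ∙ w)).comap (z.toLinearMap - (T.kr A b).toLinearMap)) (fun v y hy => by
      have := add_mem (h3 v y (mem_perp_singleton.1 hy))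
        (T.t_mem_PS (A v) (hb3 y (mem_perp_singleton.1 hy)))
      simpa using this) (T.perp_PS _ ▸ T.mem_perp_P.2 hx)
  have h12 := c.unip w hw z hz A b (T.mem_UG_of_t fun v y v' y' => by
    rw [T.kr_t, T.kr_t, T.tt, h10, ← hb2 y y']; ring) (fun v => by simp [hA, hb1]) h11 ⟨1, by simp [hb1]⟩
  rw [← T.kron.mul_mem_cancel_left (inv_mem (T.kr_mem A b))]
  refine c.mem_kron_of_unip hT hw0 hw (mul_mem (inv_mem h12) hz)
    (fun v => (T.kr A b).symm_apply_eq.2 (by simp [hA, hb1])) fun x hx => ?_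
  obtain ⟨p, hp⟩ := T.mem_P.1 (h11 x hx)
  refine T.mem_P.2 ⟨A⁻¹ p, (T.kr A b).injective ?_⟩
  simp [hb1, hp]

end Small

section Big

variable (hT : ¬ NoTv T K)
include hT

theorem transv_mem {u : V₁} {w : V₂} (hu : B₁ u u = 0) (hw : B₂ w w = 0) (d : F) (hd : d + σ d = 0) :
    transv B (T.t u w) d (T.B_P hw u) hd ∈ K := by
  unfold NoTv at hT
  push Not at hT
  obtain ⟨u₀, w₀, h1, h2, h3, h4, d₀, g, hg, e1, h5⟩ := hT
  have h := T.h.isHerm c.bar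
  have h6 : d₀ + σ d₀ = 0 := by
    simpa using h.gamma_eq_of_isEich (T.B_P h4 u₀) (T.t_ne_zero h1 h2) (w := 0) (γ := d₀)
      (map_zero _) (c.le hg) fun x => by simp [e1]
  by_cases h0 : u = 0 ∨ w = 0 ∨ d = 0
  · convert K.one_mem
    ext x
    rcases h0 with rfl | rfl | rfl <;> simp
  push Not at h0
  obtain ⟨a, ha, l, hl, e2⟩ := T.h₁.ptRel_of_T3 (T.h₁.t3_of_trace h5 (by rwa [one_mul]))
    (N := K.comap (MonoidHom.mk' (fun a => T.kr a 1) fun a b => by rw [T.kr_mul, mul_one]))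
    (fun e he a ha => c.e₁ e he a ha) h1 h0.1 h3 hu
  obtain ⟨m, hm⟩ := c.bar.exists_norm_eq (μ := d / d₀) (by
    rw [map_div₀, eq_neg_of_add_eq_zero_right hd, eq_neg_of_add_eq_zero_right h6, neg_div_neg_eq])
  have hm0 : m ≠ 0 := left_ne_zero_of_mul (hm ▸ div_ne_zero h0.2.2 h5)
  obtain ⟨b, hb, -, e3⟩ := c.exists_trans (w' := (m / l) • w) h2
    (smul_ne_zero (div_ne_zero hm0 hl) h0.2.1) (by simp [h4, hw])
  have hk := mul_mem (show T.kr a 1 ∈ K from ha) hb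
  have e4 : (T.kr a 1 * T.kr 1 b) (T.t u₀ w₀) = m • T.t u w := by simp [e2, e3, smul_smul, hl]
  convert mul_mem (mul_mem hk hg) (inv_mem hk) using 1
  ext x
  rw [LinearEquiv.mul_apply _ _⁻¹, LinearEquiv.mul_apply _ g, e1, ← UG_apply_left (c.le hk), map_add,
    map_smul, e4, ← LinearEquiv.mul_apply, mul_inv_cancel, transv_apply, ← div_mul_cancel₀ d h5, ← hm]
  simp only [LinearMap.map_smulₛₗ, LinearMap.smul_apply, smul_eq_mul, smul_smul,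
    LinearEquiv.coe_one, id]
  congr 2
  ring

theorem mem_AE₁ {u : V₁} {w s : V₂} (hu : B₁ u u = 0) (hw0 : w ≠ 0) (hw : B₂ w w = 0)
    (hs : B₂ w s = 0) : T.t u s ∈ (T.h.isHerm c.bar).AE K (T.B_P hw u) := by
  have h := T.h.isHerm c.bar
  obtain ⟨w', h1, h2⟩ := T.h₂.exists_hyp hw0 hw
  obtain ⟨δ, hδ0, hδ⟩ := c.bar.exists_skew
  have h3 : B₂ w' w = 1 := by rw [T.h₂.flip, h2, map_one, mul_one]
  have h4 : B₂ (δ • w' + w) (δ • w' + w) = 0 := by simp [h1, h2, h3, hw, hδ]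
  have h5 := h.smul_mem_AE_of_transv (T.B_P hw u) (v := T.t u (δ • w'))
    (T.B_P (by simp [h1]) u) (c := δ) (by simp [hδ]) (by simp [T.tt, hu])
    (hv' := by rw [← map_add]; exact T.B_P h4 u) (c.transv_mem hT hu (by simp [h1]) _ _)
    (by convert c.transv_mem hT hu h4 δ (by simp [hδ]) using 2; rw [map_add])
  obtain ⟨b, hb, γ, hb'⟩ := T.h₂.exists_gE' (a := -(δ * δ)⁻¹ • s) hw (by simp [hs])
  have h6 := h.sub_mem_AE _ c.le (c.e₂ hw hb) (by simp [hb.2.1]) h5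
  convert sub_mem h6 (h.smul_self_mem_AE (T.B_P hw u) (K := K)
    (δ * δ * (B₂ (-(δ * δ)⁻¹ • s) w' + γ))) using 1
  generalize B₂ (-(δ * δ)⁻¹ • s) = f at hb' ⊢
  simp only [map_smul, T.kr_t, hb', h2, map_add, map_sub, LinearEquiv.coe_one, id]
  match_scalars <;> field_simp <;> ring

theorem mem_AE {u : V₁} {w : V₂} (hu0 : u ≠ 0) (hu : B₁ u u = 0) (hw0 : w ≠ 0) (hw : B₂ w w = 0)
    {x : V} (hx : B (T.t u w) x = 0) : x ∈ (T.h.isHerm c.bar).AE K (T.B_P hw u) := by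
  have h := T.h.isHerm c.bar
  obtain ⟨u', h1, h2⟩ := T.h₁.exists_hyp hu0 hu
  obtain ⟨w', h3, h4⟩ := T.h₂.exists_hyp hw0 hw
  have h2' : B₁ u' u = 1 := by rw [T.h₁.flip, h2, map_one, mul_one]
  have h4' : B₂ w' w = 1 := by rw [T.h₂.flip, h4, map_one, mul_one]
  obtain ⟨s, h5, h6, -⟩ := c.exists_mid hw0 hw
  have h7 : ∀ s, B₂ w s = 0 → ∃ g ∈ K, ∃ γ, IsEich B (T.t u' w) (T.t u' s) γ g ∧
      g (T.t u w) = T.t u w := fun s hs => by
    obtain ⟨-, g, hg, γ, e1⟩ := c.mem_AE₁ hT h1 hw0 hw hs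
    exact ⟨g, hg, γ, e1, by simp [e1 _, T.tt, hw, T.h₂.swap hs]⟩
  have h8 : ∀ a : F, a • T.t u' w ∈ h.AE K (T.B_P hw u) := fun a => by
    obtain ⟨g, hg, γ, e1, e2⟩ := h7 s h5
    simpa [e1 _, T.tt, h5, h2', h6, smul_smul] using h.sub_mem_AE _ c.le hg e2
      (c.mem_AE₁ hT hu hw0 hw (s := -(a / B₂ s s) • s) (by simp [h5]))
  have h9 : ∀ a : F, a • T.t u w' ∈ h.AE K (T.B_P hw u) := fun a => by
    obtain ⟨δ, hδ0, hδ⟩ := c.bar.exists_skew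
    have := h.sub_mem_AE _ c.le
      (c.transv_mem hT hu h3 δ (by simp [hδ])) (by simp [T.tt, hu]) (h8 (a / δ))
    rw [transv_apply] at this
    simpa [T.tt, h2, h4', hδ0, mul_div_cancel₀] using this
  have h10 : ∀ s, B₂ w s = 0 → T.t u' s ∈ h.AE K (T.B_P hw u) := fun s hs => by
    obtain ⟨g, hg, γ, e1, e2⟩ := h7 s hs
    convert add_mem (h.sub_mem_AE _ c.le hg e2 (h9 1)) (h8 (B₂ s w' - γ)) using 1
    simp only [e1 _, T.tt, h2', h4, one_smul]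
    module
  obtain ⟨a, ha⟩ := Submodule.mem_span_singleton.1
    (T.h₁.mem_span_of_two c.two hu0 hu ((T.B_t _ _ _).symm.trans hx))
  have h11 : x - a • T.t u w' ∈ h.AE K (T.B_P hw u) := by
    refine T.PS_ind (T.perp_PS _ ▸ T.mem_perp_P.2 (show T.cr w _ = 0 by simp [h4, ha]))
      (zero_mem _) (fun v y hy => ?_) fun _ _ => add_mem
    rw [mem_perp_singleton] at hy
    obtain ⟨d, hd⟩ := Submodule.mem_span_singleton.1 (T.h₁.mem_span_of_two c.two hu0 hu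
      (v := v - B₁ u v • u') (by simp [h2]))
    rw [← add_sub_cancel (B₁ u v • u') v, ← hd, map_add, LinearMap.add_apply,
      T.t_smul, T.t_smul]
    exact add_mem (h10 _ (by simp [hy])) (c.mem_AE₁ hT hu hw0 hw (by simp [hy]))
  simpa using add_mem h11 (h9 a)

theorem SUG_le : SUG B ≤ K := by
  have := c.bar.finite
  have h := T.h.isHerm c.bar
  obtain ⟨u, hu0, hu⟩ := (T.h₁.isHerm c.bar).exists_isotropic c.two.ge
  obtain ⟨w, hw0, hw⟩ := (T.h₂.isHerm c.bar).exists_isotropic (by rw [c.three]; omega)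
  obtain ⟨u', h1, h2⟩ := T.h₁.exists_hyp hu0 hu
  obtain ⟨w', h3, h4⟩ := T.h₂.exists_hyp hw0 hw
  have h5 : u' ≠ 0 := by rintro rfl; simp at h2
  have h6 : w' ≠ 0 := by rintro rfl; simp at h4
  have h7 : finrank F V = 6 := by rw [T.finrank_eq, c.two, c.three]
  exact h.SUG_le_of_QE_QE (T.B_P hw u) c.bar (by omega) c.le (T.B_P h3 u') (by simp [T.tt, h2, h4])
    (h.QE_le_of_AE (T.B_P hw u) (by omega) c.le (T.t_ne_zero hu0 hw0)
      fun a ha => c.mem_AE hT hu0 hu hw0 hw ha)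
    (h.QE_le_of_AE (T.B_P h3 u') (by omega) c.le (T.t_ne_zero h5 h6)
      fun a ha => c.mem_AE hT h5 h1 h6 h3 ha)

end Big

end Ctx3

end Cfsg.Lib.TMax
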