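import Cfsg.Agent.Lib.TMax.ThreeA
import Cfsg.Agent.Lib.Unitary.SixC

/-!
# The tensor product group `GU₂ ∘ GU₃` is maximal in `SU₆(q)`, `q ≥ 3`
-/

namespace Cfsg.Lib.TMax

open Module Cfsg.Lib.Unitary

set_option linter.unusedSectionVars false

variable {F V V₁ V₂ : Type*} [Field F] [AddCommGroup V] [Module F V] [AddCommGroup V₁]
  [Module F V₁] [AddCommGroup V₂] [Module F V₂] {σ : F →+* F} {q : ℕ}
  {B : V →ₛₗ[σ] V →ₗ[F] F} {B₁ : V₁ →ₛₗ[σ] V₁ →ₗ[F] F} {B₂ : V₂ →ₛₗ[σ] V₂ →ₗ[F] F}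
  {K : Subgroup (V ≃ₗ[F] V)}

open Finset in
theorem _root_.Cfsg.Lib.Unitary.IsBar.exists_root_real (hσ : IsBar q σ) {t n : F} (ht : σ t = t)
    (hn : σ n = n) : ∃ x, x * (t - x) = n := by
  classical
  have := hσ.finite
  have := Fintype.ofFinite F
  by_cases h2 : (2 : F) = 0 ∧ t = 0
  · have : CharP F 2 := (CharP.charP_iff_prime_eq_zero Nat.prime_two).2 h2.1
    obtain ⟨x, hx⟩ := FiniteField.isSquare_of_char_two (ringChar.eq F 2) n
    exact ⟨x, by linear_combination x * h2.2 - hx - x * x * h2.1⟩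
  by_contra! hc
  let A := univ.filter fun x : F => x + σ x = t
  let R := univ.filter fun x : F => σ x = x
  have hA : A.card = q := by
    rw [← hσ.card_trace_eq ht, Nat.card_eq_fintype_card, Fintype.card_subtype]
  have hR : R.card = q := by rw [← hσ.card_fixed, Nat.card_eq_fintype_card, Fintype.card_subtype]
  have h1 : (A ∩ R).card ≤ 1 := card_le_one.2 fun x hx y hy => by
    simp only [A, R, mem_inter, mem_filter, mem_univ, true_and] at hx hy
    by_contra hne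
    have h3 : (2 : F) = 0 := (mul_eq_zero.1 (show 2 * (x - y) = 0 by
      linear_combination hx.1 - hy.1 - hx.2 + hy.2)).resolve_right (sub_ne_zero.2 hne)
    exact h2 ⟨h3, by linear_combination x * h3 - hx.1 + hx.2⟩
  have h3 := card_le_mul_card_image_of_maps_to (s := A ∪ R) (t := R.erase n)
    (f := fun x => x * (t - x)) (fun x hx => by
      simp only [A, R, mem_union, mem_filter, mem_univ, true_and, mem_erase] at hx ⊢
      refine ⟨hc x, ?_⟩
      rcases hx with h | h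
      · rw [← h, add_sub_cancel_left, map_mul, hσ.invol, mul_comm]
      · rw [map_mul, map_sub, h, ht]) 2 fun b _ => by
      rcases (filter (fun x => x * (t - x) = b) (A ∪ R)).eq_empty_or_nonempty with h | ⟨x, hx⟩
      · simp [h]
      refine (card_le_card (t := {x, t - x}) fun y hy => ?_).trans card_le_two
      have : (y - x) * (y - (t - x)) = 0 := by
        linear_combination (mem_filter.1 hx).2 - (mem_filter.1 hy).2
      simpa [sub_eq_zero] using this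
  have h4 := card_union_add_card_inter A R
  rw [card_erase_of_mem (by simp [R, hn])] at h3
  have := hσ.two_le
  omega

theorem EF.exists_eigen (h : EF σ 1 B) (hσ : IsBar q σ) [FiniteDimensional F V]
    (h2 : finrank F V = 2) {S : V →ₗ[F] V} (hS : ∀ x y, B x (S y) + B (S x) y = 0) :
    ∃ v ≠ 0, ∃ l : F, S v = l • v := by
  have := hσ.finite
  obtain ⟨e, f, he, hf, hef, hv⟩ := (h.isHerm hσ).exists_hyperbolic_basis h2
  have hfe : B f e = 1 := by rw [h.flip, hef, map_one, mul_one]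
  by_cases hb : B e (S e) = 0
  · exact ⟨e, by rintro rfl; simp at hef, B f (S e), by simpa [hb] using hv (S e)⟩
  have k : ∀ x y, σ (B x (S y)) = -B y (S x) := fun x y => by
    rw [h.symm, one_mul]; linear_combination hS y x
  obtain ⟨δ, hδ0, hδ⟩ := hσ.exists_skew
  obtain ⟨y, hy⟩ := hσ.exists_root_real (t := (B f (S e) + B e (S f)) / δ)
    (n := (B f (S e) * B e (S f) - B e (S e) * B f (S f)) / δ ^ 2)
    (by rw [map_div₀, map_add, k, k, hδ, ← neg_add, neg_div_neg_eq, add_comm])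
    (by rw [map_div₀, map_sub, map_mul, map_mul, k, k, k, k, map_pow, hδ]; ring)
  refine ⟨(δ * y - B e (S f)) • e + B e (S e) • f, fun h0 => hb (by
    simpa [he, hef] using congrArg (B e) h0), δ * y, ?_⟩
  rw [map_add, map_smul, map_smul, hv (S e), hv (S f)]
  simp only [map_add, map_smul, he, hef, smul_eq_mul]
  field_simp at hy
  linear_combination (norm := module) hy • e

namespace Ctx3

variable {T : TStr 1 B₁ B₂ B} (c : Ctx3 q T K)
  [FiniteDimensional F V₁] [FiniteDimensional F V₂] [FiniteDimensional F V] [Nontrivial V₁]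
include c

theorem exists_coord {u u' : V₁} (hu : u ≠ 0) (hu' : u' ∉ F ∙ u) (v : V₁) :
    ∃ a b : F, a • u + b • u' = v :=
  Submodule.mem_span_pair.1 ((Submodule.eq_top_of_finrank_eq (by
    rw [c.two, finrank_span_pair_of_linearIndependent ((LinearIndependent.pair_iff' hu).2
      fun a ha => hu' (Submodule.mem_span_singleton.2 ⟨a, ha⟩))])).ge trivial)

theorem exists_cr_eq_zero (x : V) : ∃ y ≠ 0, T.cr y x = 0 := by
  obtain ⟨u, hu⟩ := exists_ne (0 : V₁)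
  obtain ⟨u', -, hu'⟩ := exists_notMem_of_lt (W := ⊤) (Z := F ∙ u)
    (by rw [finrank_span_singleton hu, finrank_top, c.two]; omega)
  have h1 := T.h₂.finrank_add_finrank_perp (Submodule.span F {T.symm.cr u x, T.symm.cr u' x})
  have h2 := finrank_span_pair_le (F := F) (T.symm.cr u x) (T.symm.cr u' x)
  obtain ⟨y, hy, hy0⟩ := exists_notMem_of_lt (W := perp B₂ (Submodule.span F
    {T.symm.cr u x, T.symm.cr u' x})) (Z := ⊥) (by rw [finrank_bot]; rw [c.three] at h1; omega)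
  rw [mem_perp_pair] at hy
  refine ⟨y, hy0, T.cr_eq_zero.2 fun v => ?_⟩
  obtain ⟨a, b, rfl⟩ := c.exists_coord hu hu' v
  simp [T.B_t', T.h₂.swap hy.1, T.h₂.swap hy.2]

theorem exists_homology {y : V₂} (hy : B₂ y y ≠ 0) : ∃ h ∈ K, ∃ ν d : F, ν ≠ 0 ∧ d ≠ 0 ∧
    ∀ x, h x = ν • (x + d • T.t (T.cr y x) y) := by
  obtain ⟨ν, h1, h2⟩ := c.bar.exists_norm_one_pows_ne
  have h3 : ν ≠ 0 := left_ne_zero_of_mul_eq_one h1
  obtain ⟨r, hr, h4, -, -, h5⟩ := (T.h₂.isHerm c.bar).exists_quasiReflection hy (l := σ ν ^ 3)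
    (by rw [map_pow, c.bar.invol, ← mul_pow, mul_comm, h1, one_pow])
  have h6 : ∀ z, r.trans (LinearEquiv.smulOfNeZero F V₂ ν h3) z = ν • r z := fun _ => rfl
  refine ⟨_, c.su₂ (b := r.trans (LinearEquiv.smulOfNeZero F V₂ ν h3)) (mem_SUG'.2
    ⟨fun z z' => by simp [hr z z', ← mul_assoc, h1], ?_⟩), ν, (σ ν ^ 3 - 1) / B₂ y y, h3,
    div_ne_zero (sub_ne_zero.2 fun h => h2 3 (by omega) c.q3 (c.bar.bijective.1 (by simpa))) hy,
    T.ext_t (f := (T.kr 1 _).toLinearMap)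
      (g := ν • (1 + ((σ ν ^ 3 - 1) / B₂ y y) • T.t.flip y ∘ₗ T.cr y)) fun v z => by
        simp [h5 z, mul_smul]⟩
  rw [show (r.trans (LinearEquiv.smulOfNeZero F V₂ ν h3) : V₂ →ₗ[F] V₂) = ν • r.toLinearMap from rfl,
    LinearMap.det_smul, h4, c.three, ← mul_pow, h1, one_pow]

variable (hT : NoTv T K)
include hT

theorem mem_kron_of_P {w w₁ : V₂} (hw0 : w ≠ 0) (hw : B₂ w w = 0) (hw₁ : w₁ ≠ 0) {k : V ≃ₗ[F] V}
    (hk : k ∈ K) (h : ∀ v, k (T.t v w₁) ∈ T.PS (F ∙ w)) : k ∈ T.kron := by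
  obtain ⟨v, hv⟩ := exists_ne (0 : V₁)
  obtain ⟨u, hu⟩ := T.h₁.exists_eq_one hv
  obtain ⟨p, hp⟩ := T.mem_P.1 (h v)
  obtain ⟨p', hp'⟩ := T.mem_P.1 (h u)
  have h1 := c.le hk (T.t v w₁) (T.t u w₁)
  rw [← hp, ← hp', T.tt, T.tt, hw, hu, mul_zero, one_mul] at h1
  obtain ⟨b, hb, -, hab⟩ := c.exists_trans hw0 hw₁ (hw.trans h1)
  rw [← T.kron.mul_mem_cancel_right (T.kr_mem 1 b)]
  exact c.mem_kron_of_stab hT hw0 hw (mul_mem hk hb) fun v => by
    simpa [hab] using h v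

theorem mem_kron_of_conj {w : V₂} (hw0 : w ≠ 0)
    (hw : B₂ w w = 0) {x k : V ≃ₗ[F] V} (hx : ∀ y, x y - y ∈ T.PS (F ∙ w)) (hx1 : x ≠ 1)
    (hk : k ∈ K) (h : k * x * k⁻¹ ∈ T.kron) : k ∈ T.kron := by
  obtain ⟨a, b, hab⟩ := h
  have h1 : ∀ y, T.kr a b y - y ∈ mp k (T.PS (F ∙ w)) := fun y => by
    simpa [hab, mem_mp] using hx (k⁻¹ y)
  obtain ⟨b', hb'⟩ := T.kr_one_of_rank h1 (by rw [finrank_mp, T.finrank_P hw0, c.two, c.three]; omega)
  obtain ⟨y, hy⟩ : ∃ y, b' y - y ≠ 0 := by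
    by_contra! h2
    rw [hb', show b' = 1 from LinearEquiv.ext fun y => sub_eq_zero.1 (h2 y), T.kr_one] at hab
    exact hx1 (by simpa using hab.symm)
  exact (T.kron.inv_mem_iff).1 (c.mem_kron_of_P hT hw0 hw hy (inv_mem hk) fun v => by
    simpa [hb', mem_mp] using h1 (T.t v y))

theorem mem_kron_of_tv {w : V₂} (hw0 : w ≠ 0) (hw : B₂ w w = 0) {d : F} (hd : d ≠ 0)
    {x k : V ≃ₗ[F] V} (hx : ∀ y, x y = y + T.t (d • T.cr w y) w) (hk : k ∈ K)
    (h : k * x * k⁻¹ ∈ T.kron) : k ∈ T.kron := by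
  refine c.mem_kron_of_conj hT hw0 hw (fun y => ?_) (fun h => ?_) hk h
  · rw [hx, add_sub_cancel_left]; exact T.t_mem_P _ _
  obtain ⟨v, hv⟩ := exists_ne (0 : V₁)
  obtain ⟨y, hy⟩ := T.h₂.exists_eq_one hw0
  simpa [h, hy, hd, T.t_ne_zero hv hw0] using hx (T.t v y)

/-- An element moving `V₁ ⊗ w` to a subspace meeting it preserves the decomposition. -/
theorem mem_kron_of_meet {w : V₂} (hw0 : w ≠ 0) (hw : B₂ w w = 0) {k : V ≃ₗ[F] V} (hk : k ∈ K)
    {u u₁ : V₁} (hu : u ≠ 0) (e : k (T.t u₁ w) = T.t u w) : k ∈ T.kron := by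
  by_contra hk'
  have hu₁ : u₁ ≠ 0 := by rintro rfl; exact T.t_ne_zero hu hw0 (by simpa using e.symm)
  have e' : k⁻¹ (T.t u w) = T.t u₁ w := by simp [← e]
  obtain ⟨δ, hδ0, hδ⟩ := c.bar.exists_skew
  have hX : ∀ d : F, d + σ d = 0 → ∃ x ∈ K, ∀ y, x y = y + T.t (d • T.cr w y) w := fun d hd => by
    obtain ⟨b, h1, -, h2⟩ := c.exists_tv hw hd
    exact ⟨_, h1, h2⟩
  have hX₁ : ∀ {d : F} {x : V ≃ₗ[F] V}, (∀ y, x y = y + T.t (d • T.cr w y) w) →
      ∀ y, (k * x * k⁻¹) y = y + d • k (T.t (T.cr w (k⁻¹ y)) w) := fun hx y => by simp [hx]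
  obtain ⟨x, hx, hx'⟩ := hX δ (by simp [hδ])
  obtain ⟨u₂, -, hu₂⟩ := exists_notMem_of_lt (W := ⊤) (Z := F ∙ u₁)
    (by rw [finrank_span_singleton hu₁, finrank_top, c.two]; omega)
  obtain ⟨p, hp⟩ : ∃ p, p = k (T.t u₂ w) := ⟨_, rfl⟩
  have h1 : T.cr w p ∉ F ∙ u := fun h => by
    obtain ⟨a, ha⟩ := Submodule.mem_span_singleton.1 h
    refine hk' (T.kron.inv_mem_iff.1 (c.mem_kron_of_tv hT hw0 hw hδ0 hx' (inv_mem hk)
      (c.mem_kron_of_stab hT hw0 hw (mul_mem (mul_mem (inv_mem hk) hx) (inv_mem (inv_mem hk)))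
        fun v => ?_)))
    obtain ⟨s, t, rfl⟩ := c.exists_coord hu₁ hu₂ v
    refine T.mem_P.2 ⟨(s + t * δ * a) • u₁ + t • u₂, k.injective ?_⟩
    simp [e, ← hp, hx', hw, ← ha]
    module
  obtain ⟨κ', κ, h2⟩ := c.exists_coord hu₁ hu₂ (T.cr w (k⁻¹ (T.t (T.cr w p) w)))
  have h3 : k (T.t (T.cr w (k⁻¹ (T.t (T.cr w p) w))) w) = κ' • T.t u w + κ • p := by
    rw [← h2, hp]; simp [e]
  have h4 : κ ≠ 0 := by
    rintro rfl
    refine hk' (c.mem_kron_of_tv hT hw0 hw hδ0 hx' hk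
      (c.mem_kron_of_stab hT hw0 hw (mul_mem (mul_mem hk hx) (inv_mem hk)) fun v => ?_))
    obtain ⟨s, t, rfl⟩ := c.exists_coord hu h1 v
    refine T.mem_P.2 ⟨(s + t * δ * κ') • u + t • T.cr w p, ?_⟩
    simp only [map_add, map_smul, LinearMap.add_apply, LinearMap.smul_apply, hX₁ hx', h3, e',
      T.cr_t, hw, zero_smul, map_zero, LinearMap.zero_apply]
    module
  have h5 : B₁ u (T.cr w p) = 0 := by rw [← T.B_t, ← e, hp, c.le hk, T.tt, hw, mul_zero]
  have h6 : B₁ (T.cr w p) (T.cr w p) ≠ 0 := fun h => h1 (by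
    rw [T.h₁.nondeg' (T.cr w p) fun v => by
      obtain ⟨s, t, rfl⟩ := c.exists_coord hu h1 v
      simp [h, h5]]
    exact zero_mem _)
  have h7 : σ κ = κ := by
    have k1 := congrArg (B (T.t (T.cr w p) w)) h3
    rw [UG_apply_right (c.le hk), T.h.flip, T.B_t] at k1
    simp only [map_add, map_smul, hw, T.B_t, T.cr_t, zero_smul, map_zero, smul_eq_mul, mul_zero,
      zero_add, one_mul] at k1
    have k2 := congrArg σ k1
    rw [map_mul, (T.h₁.isHerm c.bar).self_fixed, (T.h₁.isHerm c.bar).self_fixed,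
      (T.h₁.isHerm c.bar).self_fixed] at k2
    rw [(T.h₁.isHerm c.bar).self_fixed, k2] at k1
    exact mul_right_cancel₀ h6 k1
  obtain ⟨l, hl, hl0, hl1⟩ := c.bar.exists_fixed_ne (by have := c.q3; omega)
  obtain ⟨y, hy, hy'⟩ := hX ((l - 1) / (δ * κ)) (by simp [hl, hδ, h7, div_neg])
  obtain ⟨z, hz, hz'⟩ := hX (-δ / l) (by simp [hl, hδ, neg_div])
  have h8 := mul_mem (mul_mem (mul_mem hk hz) (inv_mem hk))
    (mul_mem hy (mul_mem (mul_mem hk hx) (inv_mem hk)))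
  have h9 : ∀ v, T.cr w v = 0 → T.cr w (k⁻¹ v) = 0 → (k * z * k⁻¹ * (y * (k * x * k⁻¹))) v = v :=
    fun v h h' => by
      have k1 : (k * x * k⁻¹) v = v := by rw [hX₁ hx', h']; simp
      have k2 : (k * z * k⁻¹) v = v := by rw [hX₁ hz', h']; simp
      rw [LinearEquiv.mul_apply, LinearEquiv.mul_apply y, k1, hy', h]
      simpa using k2
  have h10 := h9 (T.t u w) (by simp [hw]) (by simp [e', hw])
  have h11 : (k * z * k⁻¹ * (y * (k * x * k⁻¹))) (T.t (T.cr w p) w) = l • T.t (T.cr w p) w := by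
    have k1 : (k * z * k⁻¹) p = p := by rw [hX₁ hz', hp]; simp [hw]
    have k2 : (k * z * k⁻¹) (T.t u w) = T.t u w := by rw [hX₁ hz', e']; simp [hw]
    have k3 := hX₁ hz' (T.t (T.cr w p) w)
    have k4 : ∀ v, y (T.t v w) = T.t v w := fun v => by simp [hy', hw]
    rw [h3] at k3
    rw [LinearEquiv.mul_apply, LinearEquiv.mul_apply y, hX₁ hx', h3]
    simp only [map_add, map_smul, LinearMap.smul_apply, k4, hy' p, k1, k2, k3]
    match_scalars <;> field_simp <;> ring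
  generalize k * z * k⁻¹ * (y * (k * x * k⁻¹)) = τ at h8 h9 h10 h11
  obtain ⟨a, b, rfl⟩ := c.mem_kron_of_stab hT hw0 hw h8 fun v => by
    obtain ⟨s, t, rfl⟩ := c.exists_coord hu h1 v
    exact T.mem_P.2 ⟨s • u + (t * l) • T.cr w p, by simp [h10, h11, mul_smul]⟩
  obtain ⟨s, h12, h13, -⟩ := c.exists_mid hw0 hw
  have h14 : B p (T.t (T.cr w p) w) ≠ 0 := T.h.swap_ne (by rwa [T.B_t])
  obtain ⟨b', hb'⟩ := T.kr_one_of_sub_mem (a := a) (b := b) (L := F ∙ w) (y := s) (fun h => by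
    obtain ⟨t, rfl⟩ := Submodule.mem_span_singleton.1 h
    simp [hw] at h13) fun v => by
    have := h9 (T.t v s - (B p (T.t v s) / B p (T.t (T.cr w p) w)) • T.t (T.cr w p) w)
      (by simp [hw, h12]) (T.cr_eq_zero.2 fun v' => by
        obtain ⟨s, t, rfl⟩ := c.exists_coord hu₁ hu₂ v'
        rw [← UG_apply_left (c.le hk)]
        simp [e, ← hp, h14, T.tt, hw, h12])
    rw [map_sub, map_smul, h11, sub_eq_sub_iff_sub_eq_sub] at this
    exact this ▸ sub_mem (Submodule.smul_mem _ _ (Submodule.smul_mem _ _ (T.t_mem_P _ _)))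
      (Submodule.smul_mem _ _ (T.t_mem_P _ _))
  rw [hb', T.kr_t] at h10 h11
  rw [T.symm.t_inj hu h10, ← sub_eq_zero] at h11
  refine mul_ne_zero (sub_ne_zero.2 hl1) h14 ?_
  simpa [sub_mul, sub_eq_zero] using congrArg (fun x => -B p x) h11

theorem le_kron : K ≤ T.kron := fun k hk => by
  by_contra hk'
  have := c.bar.finite
  obtain ⟨w, hw0, hw⟩ := (T.h₂.isHerm c.bar).exists_isotropic (by rw [c.three]; omega)
  obtain ⟨δ, hδ0, hδ⟩ := c.bar.exists_skew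
  have h1 : ∀ y, y ≠ 0 → B₂ y y = 0 → ∀ v, T.cr y (k (T.t v w)) = 0 → v = 0 := fun y h0 hy v h => by
    by_contra hv
    obtain ⟨b, h1, -, h2⟩ := c.exists_tv hy (γ := δ) (by simp [hδ])
    exact hk' (T.kron.inv_mem_iff.1 (c.mem_kron_of_tv hT h0 hy hδ0 h2 (inv_mem hk)
      (c.mem_kron_of_meet hT hw0 hw (mul_mem (mul_mem (inv_mem hk) h1) (inv_mem (inv_mem hk))) hv
        (u₁ := v) (by simp [h2, h]))))
  obtain ⟨v₁, hv₁⟩ := exists_ne (0 : V₁)
  obtain ⟨y, hy0, hy⟩ := c.exists_cr_eq_zero (k (T.t v₁ w))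
  have h2 : B₂ y y ≠ 0 := fun h => hv₁ (h1 y hy0 h v₁ hy)
  obtain ⟨e, he, he0, he'⟩ := T.h₂.iso2_herm c.bar (perp B₂ (F ∙ y)) (by
    have := T.h₂.finrank_add_finrank_perp (F ∙ y)
    rw [finrank_span_singleton hy0, c.three] at this
    omega)
  rw [mem_perp_singleton] at he
  obtain ⟨h, hh, ν, d, hν, hd, h3⟩ := c.exists_homology h2
  obtain ⟨a, b, hab⟩ := c.mem_kron_of_meet hT hw0 hw (mul_mem (mul_mem (inv_mem hk) hh) hk)
    (smul_ne_zero hν hv₁) (u₁ := v₁) (by simp [h3, hy])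
  obtain ⟨κ, hκ⟩ := Submodule.mem_span_singleton.1 (T.mem_of_t_mem (L := F ∙ w) (v := a v₁) (y := b w)
    (by simpa) (by rw [← T.kr_t, hab]; simpa [h3, hy] using Submodule.smul_mem _ ν (T.t_mem_P v₁ w)))
  have h4 : ∀ v, T.cr y (k (T.t v w)) = 0 := fun v => by
    have k1 := congrArg (fun g => k (g (T.t v w))) hab
    simp only [T.kr_t, ← hκ, LinearEquiv.mul_apply, LinearEquiv.coe_inv,
      LinearEquiv.apply_symm_apply, h3] at k1
    have k2 : k (T.t ((κ / ν) • a v - v) w) = d • T.t (T.cr y (k (T.t v w))) y := by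
      simp only [map_sub, map_smul, LinearMap.sub_apply, LinearMap.smul_apply] at k1 ⊢
      linear_combination (norm := (match_scalars <;> field_simp <;> ring)) ν⁻¹ • k1
    rw [h1 e he0 he' ((κ / ν) • a v - v) (by rw [k2]; simp [T.h₂.swap he])] at k2
    exact T.t_inj hy0 (by simpa [hd] using k2.symm)
  obtain ⟨f₀, h5, h6⟩ := T.h₂.exists_perp_one (w := y) (x := e) (fun h => by
    obtain ⟨t, rfl⟩ := Submodule.mem_span_singleton.1 h
    simp_all) 1
  obtain ⟨f, h7, hf, hef⟩ := T.h₂.exists_iso_mem (W := LinearMap.ker (B₂ y)) he'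
    (T.h₂.swap_ne (h6 ▸ one_ne_zero)) he h5
  replace h7 : B₂ y f = 0 := h7
  have hfe : B₂ f e = 1 := by rw [T.h₂.flip, hef, map_one, mul_one]
  have h8 : ∀ x, T.cr y x = 0 → x = T.t (T.cr e x) f + T.t (T.cr f x) e := fun x hx =>
    T.cr_ext (f := 1) (g := T.t.flip f ∘ₗ T.cr e + T.t.flip e ∘ₗ T.cr f) (fun v z hz => by
      obtain ⟨s, t, h⟩ := c.mid he0 he' (T.h₂.swap he) h2 (y := z - B₂ e z • f) (by simp [hef])
      have k1 : s = 0 := by simpa [h2, he, hz, h7] using congrArg (B₂ y) h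
      have k2 : t = B₂ f z := by simpa [k1, hf, hfe] using congrArg (B₂ f) h
      rw [k1, k2, zero_smul, zero_add, eq_sub_iff_add_eq'] at h
      conv_lhs => rw [← h]
      simp) hx
  let j : V₁ →ₗ[F] V := k.toLinearMap ∘ₗ T.t.flip w
  let A := LinearEquiv.ofInjectiveEndo (T.cr e ∘ₗ j)
    ((injective_iff_map_eq_zero _).2 (h1 e he0 he'))
  have hA : ∀ v, T.cr e (j (A.symm v)) = v := A.apply_symm_apply
  obtain ⟨v, hv, l, hl⟩ := T.h₁.exists_eigen c.bar c.two (S := T.cr f ∘ₗ j ∘ₗ A.symm) fun x x' => by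
    have k1 : B (j (A.symm x)) (j (A.symm x')) = 0 := (c.le hk _ _).trans (by simp [T.tt, hw])
    rw [h8 (j (A.symm x)) (h4 _), map_add, LinearMap.add_apply, T.B_t, T.B_t, hA, hA] at k1
    exact k1
  obtain ⟨β, hβ⟩ := c.bar.exists_norm_eq (μ := -B₂ (f - σ l • e) (f - σ l • e) / B₂ y y) (by
    rw [map_div₀, map_neg, (T.h₂.isHerm c.bar).self_fixed, (T.h₂.isHerm c.bar).self_fixed])
  have h9 : B₂ y (f - σ l • e) = 0 := by simp [h7, he]
  refine hv (A.symm.map_eq_zero_iff.1 (h1 (f - σ l • e + β • y) (fun h => by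
    simpa [hef, he', T.h₂.swap he] using congrArg (B₂ e) h) ?_ _ ?_))
  · generalize f - σ l • e = m at hβ h9
    simp only [map_add, map_smul, LinearMap.add_apply, LinearMap.map_smulₛₗ, LinearMap.smul_apply,
      smul_eq_mul, h9, T.h₂.swap h9]
    field_simp at hβ
    linear_combination hβ
  · rw [T.cr_add, T.cr_sub, T.cr_smul, T.cr_smul, c.bar.invol]
    simp only [LinearMap.add_apply, LinearMap.sub_apply, LinearMap.smul_apply, h4, smul_zero,
      add_zero]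
    exact sub_eq_zero.2 (hl.trans (congrArg (l • ·) (hA v).symm))

end Ctx3

variable [FiniteDimensional F V₁] [FiniteDimensional F V₂] [FiniteDimensional F V]

theorem Amb.ctx3 {T : TStr 1 B₁ B₂ B} {U G : Subgroup (V ≃ₗ[F] V)} (A : Amb T U G)
    (hK : T.kron ⊓ G ≤ K) (hKG : K ≤ G) (hσ : IsBar q σ) (hq : 3 ≤ q)
    (h2 : finrank F V₁ = 2) (h3 : finrank F V₂ = 3) : Ctx3 q T K where
  le := hKG.trans (A.le.trans A.le')
  unip _ hw _ hz a b hab h1 h2 h3 := hK ⟨T.kr_mem a b, A.unip hw (hKG hz) hab h1 h2 h3⟩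
  e₁ u hu a ha := by
    refine hK ⟨T.kr_mem a 1, ?_⟩
    clear h2 h3
    obtain ⟨h1, h2, h3⟩ := mem_QE.1 ha
    rw [← T.symm_kr]
    refine A.symm.unip hu (one_mem _) (T.symm.kr_mem_UG (one_mem _) h1) (fun v => by simp [h2])
      (fun x hx => ?_) ⟨1, by simp [h2]⟩
    have := T.symm.cr_ext (f := (T.symm.PS (F ∙ u)).mkQ ∘ₗ (1 - (T.symm.kr 1 a).toLinearMap))
      (g := 0) (w := u) (fun v y hy => by
        obtain ⟨c, hc⟩ := h3 y hy
        simp only [LinearMap.comp_apply, LinearMap.zero_apply, Submodule.mkQ_apply,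
          Submodule.Quotient.mk_eq_zero, LinearMap.sub_apply, Module.End.one_apply,
          LinearEquiv.coe_coe, TStr.kr_t, hc, map_add, LinearEquiv.coe_one, id, sub_add_cancel_left]
        exact neg_mem (T.symm.t_mem_PS _ (Submodule.smul_mem _ _
          (Submodule.mem_span_singleton_self u)))) hx
    exact (Submodule.Quotient.mk_eq_zero _).1 this
  bar := hσ
  q3 := hq
  two := h2
  three := h3

theorem max_U23 {T : TStr 1 B₁ B₂ B} (hσ : IsBar q σ) (hq : 3 ≤ q) (h2 : finrank F V₁ = 2)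
    (h3 : finrank F V₂ = 3) :
    ¬ SUG B ≤ T.kron ∧ ∀ K, T.kron ⊓ SUG B ≤ K → K ≤ SUG B → K ≤ T.kron ∨ SUG B ≤ K := by
  have : Nontrivial V₁ := Module.nontrivial_of_finrank_pos (R := F) (by omega)
  have hc : ∀ K, T.kron ⊓ SUG B ≤ K → K ≤ SUG B → Ctx3 q T K := fun K hK hKG =>
    Amb.ctx3 ⟨SUG_le_UG, le_rfl, fun _ _ h => h, fun _ _ => have := hσ.finite; T.h.unip_SUG _,
      fun _ _ => have := hσ.finite; T.h.unip_SUG _⟩ hK hKG hσ hq h2 h3
  refine ⟨fun hle => ?_, fun K hK hKG => (em (NoTv T K)).imp (hc K hK hKG).le_kron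
    (hc K hK hKG).SUG_le⟩
  have := hσ.finite
  have h := T.h.isHerm hσ
  obtain ⟨u, hu⟩ := exists_ne (0 : V₁)
  obtain ⟨w, hw0, hw⟩ := (T.h₂.isHerm hσ).exists_isotropic (by omega)
  obtain ⟨s, h1, h4, -⟩ := (hc _ inf_le_right le_rfl).exists_mid hw0 hw
  obtain ⟨g, hg, γ, e⟩ := T.h.exists_isEich (T.B_P hw u) (a := T.t u s) (by simp [T.tt, h1])
  refine T.not_mem_kron (by omega) (by omega) hu hw0 (fun h => by
    obtain ⟨t, rfl⟩ := Submodule.mem_span_singleton.1 h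
    simp [hw] at h4) e (hle ?_)
  rw [e.eq (T.B_P hw u) (by simp [T.tt, h1]) (by simp [T.tt, T.h₂.swap h1])] at hg ⊢
  exact h.QE_le_SUG (T.t_ne_zero hu hw0) (T.B_P hw u) (h.eichler_mem_QE
    (h.gamma_eq_of_isEich (T.B_P hw u) (T.t_ne_zero hu hw0) (by simp [T.tt, h1]) hg
      (isEich_eichler _ _ _ _ _ _)))

open Matrix Cfsg.Geo Cfsg.Lib.Asch Cfsg.Lib.Linear in
theorem isMaximalIn_unitary23 {n : ℕ} (hσ : IsBar q σ) (hq : 3 ≤ q) {e : Fin n ≃ Fin 2 × Fin 3}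
    {P : GL (Fin n) F} {f₁ : (Fin 2 → F) → (Fin 2 → F) → F} {f₂ : (Fin 3 → F) → (Fin 3 → F) → F}
    (h₁ : IsUnitaryFormPow q f₁) (h₂ : IsUnitaryFormPow q f₂)
    (hT : IsTensorFormStructure (fun x : F => x ^ q) (hermForm n F q) f₁ f₂ e P) :
    IsMaximalIn (GU n F q ⊓ specialLinear (Fin n) F)
      (tensorProductSubgroup 2 3 e P ⊓ (GU n F q ⊓ specialLinear (Fin n) F)) := by
  have : Nonempty (Fin n) := ⟨e.symm (0, 0)⟩
  have h₁' := sform_of_unitaryPow hσ h₁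
  have h₂' := sform_of_unitaryPow hσ h₂
  rw [show (fun x : F => x ^ q) = σ from funext fun x => (hσ.eq x).symm] at hT
  obtain ⟨c, -, T, -, h3⟩ := exists_tstr hσ.isHerm.ef (fun u v => (hσ.hermForm_eq v u).symm) h₁' h₂'
    (Or.inl rfl)
    (fun c hc s => by
      simpa [eq_comm] using hσ.exists_trace_eq (s := c * f₁ s s)
        (by rw [map_mul, hc, ← one_mul (σ _), ← h₁'.herm]))
    (fun s => by
      simpa [eq_comm] using hσ.exists_trace_eq (s := f₂ s s) (by rw [← one_mul (σ _), ← h₂'.herm]))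
    hT
  obtain ⟨h4, h6⟩ := max_U23 (T := T) hσ hq (by simp) (by simp)
  exact hσ.isMaximalIn_of (fun g _ => h3 g) h4 h6

end Cfsg.Lib.TMax
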