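import Cfsg.Agent.Lib.TMax.ThreeB

/-!
# The tensor product group `GU₂ ∘ GU₄` is maximal in `SU₈(q)`, `q ≥ 3`
-/

namespace Cfsg.Lib.TMax

open Module Cfsg.Lib.Unitary

set_option linter.unusedSectionVars false

variable {F V V₁ V₂ : Type*} [Field F] [AddCommGroup V] [Module F V] [AddCommGroup V₁]
  [Module F V₁] [AddCommGroup V₂] [Module F V₂] {σ : F →+* F} {q : ℕ}
  {B : V →ₛₗ[σ] V →ₗ[F] F} {B₁ : V₁ →ₛₗ[σ] V₁ →ₗ[F] F} {B₂ : V₂ →ₛₗ[σ] V₂ →ₗ[F] F}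
  {K : Subgroup (V ≃ₗ[F] V)}

/-- The first factor of a unitary tensor product element on a plane has an eigenvector. -/
theorem TStr.exists_eigen_two [FiniteDimensional F V₁] [Nontrivial V₂] (T : TStr 1 B₁ B₂ B)
    (hσ : IsBar q σ) (h2 : finrank F V₁ = 2) {a : V₁ ≃ₗ[F] V₁} {b : V₂ ≃ₗ[F] V₂}
    (hab : T.kr a b ∈ UG B) {α β : F} (h : ∀ v, a (a v) = α • v + β • a v) :
    ∃ v ≠ 0, ∃ l : F, a v = l • v := by
  obtain ⟨w, hw⟩ := exists_ne (0 : V₂)
  obtain ⟨w', hw'⟩ := T.h₂.exists_eq_one hw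
  obtain ⟨μ, hμ⟩ : ∃ μ, μ = B₂ (b w) (b w') := ⟨_, rfl⟩
  have h1 : ∀ x y, B₁ (a x) (a y) * μ = B₁ x y := fun x y => by
    have := hab (T.t x w) (T.t y w')
    rwa [T.kr_t, T.kr_t, T.tt, T.tt, hw', mul_one, ← hμ] at this
  have : Nontrivial V₁ := Module.nontrivial_of_finrank_pos (R := F) (by omega)
  obtain ⟨u, hu⟩ := exists_ne (0 : V₁)
  obtain ⟨u', hu'⟩ := T.h₁.exists_eq_one hu
  have h3 : σ μ = μ := by
    have e1 := congrArg σ (h1 u u')
    have e2 := h1 u' u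
    rw [map_mul, T.h₁.symm, T.h₁.symm, one_mul, one_mul, ← e2] at e1
    refine mul_left_cancel₀ (fun h0 => ?_) e1
    rw [h0, zero_mul, T.h₁.flip, hu'] at e2
    simp at e2
  obtain ⟨c, hc⟩ : ∃ c, c * μ * α - σ c ≠ 0 := by
    by_contra! h4
    obtain ⟨l, -, hl⟩ := hσ.exists_norm_one_sq_ne
    exact hl (by linear_combination l * h4 1 - h4 l + l * map_one σ)
  obtain ⟨v, hv, l, hl⟩ := T.h₁.exists_eigen hσ h2
    (S := (c * μ) • a.toLinearMap - σ c • (a⁻¹).toLinearMap) fun x y => by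
      have e1 := h1 (a⁻¹ x) y
      have e2 := h1 x (a⁻¹ y)
      simp only [LinearEquiv.coe_inv, LinearEquiv.apply_symm_apply] at e1 e2
      simp only [LinearMap.sub_apply, LinearMap.smul_apply, map_sub, map_smul, LinearEquiv.coe_coe,
        LinearMap.map_smulₛₗ, smul_eq_mul, map_mul, h3, hσ.invol, LinearEquiv.coe_inv]
      linear_combination c * e1 + σ c * e2
  have e3 := h (a⁻¹ v)
  simp only [LinearEquiv.coe_inv, LinearEquiv.apply_symm_apply] at e3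
  simp only [LinearMap.sub_apply, LinearMap.smul_apply, LinearEquiv.coe_coe,
    LinearEquiv.coe_inv] at hl
  refine ⟨v, hv, (α * l - σ c * β) / (c * μ * α - σ c), ?_⟩
  rw [div_eq_inv_mul, mul_smul, eq_inv_smul_iff₀ hc]
  linear_combination (norm := module) α • hl - σ c • e3

theorem TStr.fix_of_fix2 [FiniteDimensional F V₁] [FiniteDimensional F V₂] [FiniteDimensional F V]
    (T : TStr 1 B₁ B₂ B) (hσ : IsBar q σ) (hn₁ : finrank F V₁ = 2) {L : Submodule F V₂} (hL : finrank F L = 2)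
    {a : V₁ ≃ₗ[F] V₁} {b : V₂ ≃ₗ[F] V₂} (hab : T.kr a b ∈ UG B)
    (hb : L.map b.toLinearMap = L) {D : Submodule F V}
    (hD : D ≤ T.PS L) (h1 : ∀ w ∈ L, w ≠ 0 → D ⊔ T.PS (F ∙ w) = T.PS L)
    (h2 : ∀ p ∈ D, T.kr a b p = p) : ∀ p ∈ T.PS L, T.kr a b p = p := by
  have h3 : ∀ w ∈ L, ∀ w' ∈ L, w' ≠ 0 → ∀ v, ∃ u, T.t v w + T.t u w' ∈ D := fun w hw w' hw' h0 v => by
    obtain ⟨d, hd, p, hp, e⟩ := Submodule.mem_sup.1 ((h1 w' hw' h0).ge (T.t_mem_PS v hw))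
    obtain ⟨u, rfl⟩ := T.mem_P.1 hp
    exact ⟨-u, by simpa [← e]⟩
  have h4 : ∀ w w' : V₂, w ∉ F ∙ w' → ∀ v u v' u', T.t v w + T.t u w' = T.t v' w + T.t u' w' →
      v = v' := fun w w' h v u v' u' e => by
    obtain ⟨s, hs, hs'⟩ := T.h₂.exists_perp_one h 1
    simpa [hs', T.h₂.swap hs] using congrArg (T.cr s) e
  by_cases h5 : ∀ w ∈ L, b w ∈ F ∙ w
  · refine fun p hp => T.PS_ext (f := (T.kr a b).toLinearMap) (g := 1) (fun v w hw => ?_) hp
    rcases eq_or_ne w 0 with rfl | h0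
    · simp
    obtain ⟨w', hw', h6⟩ := SetLike.not_le_iff_exists.1 (show ¬ L ≤ F ∙ w from fun h => by
      have := Submodule.finrank_mono h
      rw [finrank_span_singleton h0] at this
      omega)
    have h7 : w' ≠ 0 := by rintro rfl; exact h6 (zero_mem _)
    obtain ⟨u, hu⟩ := h3 w hw w' hw' h7 v
    obtain ⟨l, hl⟩ := Submodule.mem_span_singleton.1 (h5 w hw)
    obtain ⟨l', hl'⟩ := Submodule.mem_span_singleton.1 (h5 w' hw')
    have h8 := h2 _ hu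
    rw [map_add, T.kr_t, T.kr_t, ← hl, ← hl', ← T.t_smul, ← T.t_smul] at h8
    rw [LinearEquiv.coe_coe, T.kr_t, ← hl, ← T.t_smul, h4 _ _ (Ctx4.notMem_symm h0 h6) _ _ _ _ h8]
    rfl
  exfalso
  push Not at h5
  obtain ⟨w, hw, h5⟩ := h5
  have h0 : w ≠ 0 := by rintro rfl; simp at h5
  have h6 : b w ∈ L := hb.le ⟨w, hw, rfl⟩
  have h7 : b w ≠ 0 := by simpa
  have h8 : ∀ w' ∈ L, w' ≠ 0 → finrank F D + 2 = 4 + finrank F ↥(D ⊓ T.PS (F ∙ w')) :=
    fun w' hw' h0 => by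
      have := Submodule.finrank_sup_add_finrank_inf_eq D (T.PS (F ∙ w'))
      rw [h1 w' hw' h0, T.finrank_P h0, T.finrank_PS, hn₁, hL] at this
      omega
  have h9 : D ⊓ T.PS (F ∙ w) = ⊥ := eq_bot_iff.2 fun p hp => by
    obtain ⟨v, rfl⟩ := T.mem_P.1 hp.2
    have e := h2 _ hp.1
    rw [T.kr_t] at e
    have := h4 _ _ h5 (a v) 0 0 v (by simpa using e)
    simp [(map_eq_zero_iff a a.injective).1 this]
  have h10 := h8 w hw h0
  rw [h9, finrank_bot] at h10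
  have h11 : Submodule.span F {w, b w} = L := Submodule.eq_of_le_of_finrank_le
    (Submodule.span_le.2 (by rintro _ (rfl | rfl) <;> assumption)) (by
      rw [hL, finrank_span_pair_of_linearIndependent ((LinearIndependent.pair_iff' h0).2
        fun c hc => h5 (Submodule.mem_span_singleton.2 ⟨c, hc⟩))])
  obtain ⟨α, β, h12⟩ := Submodule.mem_span_pair.1 (h11.ge (hb.le ⟨b w, h6, rfl⟩))
  replace h12 : b (b w) = α • w + β • b w := h12.symm
  have h13 : ∀ v u, T.t v w + T.t u (b w) ∈ D → α • a u = v ∧ a v + β • a u = u := fun v u h => by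
    have e := h2 _ h
    rw [map_add, T.kr_t, T.kr_t, h12, map_add, ← T.t_smul, ← T.t_smul, add_left_comm,
      ← LinearMap.add_apply, ← map_add] at e
    exact ⟨h4 _ _ (Ctx4.notMem_symm h0 h5) _ _ _ _ e,
      h4 _ _ h5 _ _ _ _ ((add_comm _ _).trans (e.trans (add_comm _ _)))⟩
  have : Nontrivial V₁ := Module.nontrivial_of_finrank_pos (R := F) (by omega)
  have : Nontrivial V₂ := ⟨w, 0, h0⟩
  have h14 : α ≠ 0 := by
    rintro rfl
    obtain ⟨v, hv⟩ := exists_ne (0 : V₁)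
    obtain ⟨u, hu⟩ := h3 w hw _ h6 h7 v
    exact hv (by simpa using (h13 v u hu).1.symm)
  obtain ⟨v, hv, l, hl⟩ := T.exists_eigen_two hσ hn₁ hab (α := α⁻¹)
    (β := -(α⁻¹ * β)) fun v => by
      obtain ⟨u, hu⟩ := h3 w hw _ h6 h7 v
      obtain ⟨e1, e2⟩ := h13 v u hu
      have e3 := congrArg a e2
      rw [map_add, map_smul] at e3
      have e4 : a u = α⁻¹ • v := by rw [eq_inv_smul_iff₀ h14, e1]
      rw [e4, map_smul] at e3
      linear_combination (norm := module) e3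
  obtain ⟨u, hu⟩ := h3 w hw _ h6 h7 v
  obtain ⟨e1, e2⟩ := h13 v u hu
  have e4 : a u = α⁻¹ • v := by rw [eq_inv_smul_iff₀ h14, e1]
  rw [e4, show a v = l • v from hl, smul_smul, ← add_smul] at e2
  rw [← e2, T.t_smul, ← map_add] at hu
  have h15 : w + (l + β * α⁻¹) • b w ≠ 0 := fun h => Ctx4.notMem_symm h0 h5
    (Submodule.mem_span_singleton.2 ⟨-(l + β * α⁻¹), by
      rw [neg_smul, neg_eq_iff_add_eq_zero, add_comm, h]⟩)
  have h16 := h8 _ (add_mem hw (L.smul_mem _ h6)) h15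
  have h17 : D ⊓ T.PS (F ∙ (w + (l + β * α⁻¹) • b w)) = ⊥ := Submodule.finrank_eq_zero.1 (by omega)
  exact T.t_ne_zero hv h15 (h17.le ⟨hu, T.t_mem_P _ _⟩)

namespace Ctx4

variable {T : TStr 1 B₁ B₂ B} (c : Ctx4 q T K)
  [FiniteDimensional F V₁] [FiniteDimensional F V₂] [FiniteDimensional F V] [Nontrivial V₁]
  (hR : ∀ β ∈ c.ring, ∃ a : F, ∀ v, β v = a • v)
include c hR

/-- The global argument when the second factor has transvections. -/
theorem le_kron2 [Finite V] (hn₁ : finrank F V₁ = 2) (hn₂ : finrank F V₂ = 4) : K ≤ T.kron := by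
  by_contra hK
  have hn : finrank F V₁ < finrank F V₂ := by omega
  obtain ⟨γ, hγ0, hγ'⟩ := c.bar.exists_skew
  have hγ : γ + 1 * σ γ = 0 := by simp [hγ']
  obtain ⟨w₁, w₂, h0, hw₁, hw₂, h12, h1⟩ := c.exists_flag
  set L := Submodule.span F {w₁, w₂} with hL
  have hL1 : L ≤ perp B₂ L := T.pair_le_perp hw₁ hw₂ h12
  have hL2 : finrank F L = 2 := finrank_span_pair_of_linearIndependent
    ((LinearIndependent.pair_iff' h0).2 fun a ha => h1 (Submodule.mem_span_singleton.2 ⟨a, ha⟩))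
  have hx : ∀ w ∈ L, w ≠ 0 → ∃ x ∈ K, (∀ y, x y = y + T.t (γ • T.cr w y) w) ∧
      ∀ k ∈ K, k * x * k⁻¹ ∈ T.kron → k ∈ T.kron := fun w hw hw0 => by
    obtain ⟨b, hb, hb'⟩ := T.h₂.exists_transv (hL1 hw w hw) hγ
    have h2 : ∀ y, T.kr 1 b y = y + T.t (γ • T.cr w y) w := T.ext_t (f := (T.kr 1 b).toLinearMap)
      (g := 1 + T.t.flip w ∘ₗ (γ • T.cr w)) fun v y => by simp [hb', mul_smul]
    refine ⟨_, c.e₂ (hL1 hw w hw) hb, h2, fun k hk => c.mem_kron_of_conj hR hn hw0 (hL1 hw w hw)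
      (fun y => by rw [h2, add_sub_cancel_left]; exact T.t_mem_P _ _) (fun h => ?_) hk⟩
    obtain ⟨v, hv⟩ := exists_ne (0 : V₁)
    obtain ⟨y, hy⟩ := T.h₂.exists_eq_one hw0
    simpa [h, hy, hγ0, T.t_ne_zero hv hw0] using h2 (T.t v y)
  obtain ⟨g, M⟩ := exists_max hK (T.PS L)
  have hP := T.PS_le_perp hL1
  have hP' : mp g (T.PS L) ≤ perp B (mp g (T.PS L)) := fun y hy =>
    (mem_perp_mp (c.le M.mem)).2 (hP hy)
  have n2 : ∀ w ∈ L, w ≠ 0 → ∀ p ∈ mp g (T.PS L), T.cr w p = 0 → p ∈ T.PS L :=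
    fun w hw hw0 p hp hp' => by
      obtain ⟨x, h2, h3, h4⟩ := hx w hw hw0
      by_contra h5
      exact M.nmem ((T.kron.inv_mem_iff).1 (h4 _ (inv_mem M.mem) (M.conj_mem M.mem h2 inf_le_right
        (fun y hy => by simp [h3, T.mem_perp_PS.1 (hP hy.1) w hw]) hp (fun h => h5 h.1)
        (by simpa [h3, hp']))))
  have hD : ∀ L' < L, ¬ T.PS L ⊓ mp g (T.PS L) ≤ T.PS L' := fun L' hL' h => by
    obtain ⟨w, hw, hw0, h2⟩ := exists_le_span hL2.le hL'
    replace h := h.trans (T.PS_mono h2)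
    have h3 := Submodule.finrank_mono (show mp g (T.PS L) ⊓ perp B (T.PS (F ∙ w)) ≤
      T.PS L ⊓ mp g (T.PS L) from fun p hp => ⟨n2 w hw hw0 p hp.1 (T.mem_perp_P.1 hp.2), hp.1⟩)
    have h4 := Submodule.finrank_mono (show mp g (T.PS L) ⊔ perp B (T.PS (F ∙ w)) ≤
      perp B (T.PS L ⊓ mp g (T.PS L)) from sup_le (fun p hp y hy => hP' hp y hy.2)
        fun p hp y hy => hp y (h hy))
    have h5 := Submodule.finrank_sup_add_finrank_inf_eq (mp g (T.PS L)) (perp B (T.PS (F ∙ w)))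
    have h6 := T.h.finrank_add_finrank_perp (T.PS (F ∙ w))
    have h7 := T.h.finrank_add_finrank_perp (T.PS L ⊓ mp g (T.PS L))
    rw [finrank_mp, T.finrank_PS, hL2] at h5
    rw [T.finrank_P hw0] at h6
    have := finrank_pos (R := F) (M := V₁)
    omega
  have h2 : w₂ ≠ 0 := by rintro rfl; exact h1 (zero_mem _)
  have hL3 : w₁ ∈ L := Submodule.subset_span (by simp)
  have hL4 : w₂ ∈ L := Submodule.subset_span (by simp)
  obtain ⟨x₁, h3, h4, h5⟩ := hx w₁ hL3 h0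
  obtain ⟨x₂, h6, h7, h8⟩ := hx w₂ hL4 h2
  have h9 : ∀ y ∈ perp B (T.PS L ⊔ mp g (T.PS L)), y ∈ perp B (T.PS L) ∧ g⁻¹ y ∈ perp B (T.PS L) :=
    fun y hy => by rwa [perp_sup, Submodule.mem_inf, mem_perp_mp (c.le M.mem)] at hy
  have h10 : ∀ k ∈ K ⊓ fixStab (perp B (T.PS L ⊔ mp g (T.PS L))), ∀ p ∈ T.PS L ⊓ mp g (T.PS L),
      k p = p := fun k hk p hp => hk.2 p (perp_sup (B := B) _ _ ▸ ⟨hP hp.1, hP' hp.2⟩)
  refine M.false_of_sub (x := fun c => if c then x₁ else x₂)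
    (Γ := K ⊓ fixStab (perp B (T.PS L ⊔ mp g (T.PS L)))) inf_le_left
    (fun k hk h => c.mem_kron_of_line hR h0 hw₁ hw₂ h12 h0 hk fun v => h _ (T.t_mem_PS v hL3))
    (fun k hk c => by cases c; exacts [h8 k hk, h5 k hk])
    (fun c y => by cases c <;> simp [h4, h7, Submodule.smul_mem, T.t_mem_PS, hL3, hL4])
    (fun y hy => ?_) (fun c => ?_) ⟨mul_mem (mul_mem M.mem h3) (K.inv_mem M.mem), fun y hy => ?_⟩
    h10 ?_
  · obtain ⟨s, hs, hs'⟩ := T.h₂.exists_perp_one h1 1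
    obtain ⟨s', hs''⟩ := T.h₂.exists_eq_one' h0
    simp only [↓reduceIte, Bool.false_eq_true, h4, h7, add_right_inj] at hy ⊢
    have := congrArg (T.cr s) hy
    rw [T.cr_t, T.cr_t, T.h₂.swap hs, hs', zero_smul, one_smul] at this
    rw [hy, ← this]
    simp
  · cases c
    · exact ⟨h6, fun y hy => by simp [h7, T.mem_perp_PS.1 (h9 y hy).1 _ hL4]⟩
    · exact ⟨h3, fun y hy => by simp [h4, T.mem_perp_PS.1 (h9 y hy).1 _ hL3]⟩
  · rw [LinearEquiv.mul_apply, LinearEquiv.mul_apply, if_pos rfl, h4, T.mem_perp_PS.1 (h9 y hy).2 _ hL3]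
    simp
  rintro _ hk ⟨a, b, rfl⟩
  have h11 : L.map b.toLinearMap = L := by
    by_contra h11
    refine hD (L ⊓ L.map b.toLinearMap) (lt_of_le_of_ne inf_le_left fun h => h11
      (Submodule.eq_of_le_of_finrank_eq (inf_eq_left.1 h) (LinearEquiv.finrank_map_eq b L).symm).symm)
      fun p hp => ?_
    rw [T.PS_inf, ← T.map_kr_PS a]
    exact ⟨hp.1, p, hp.1, h10 _ hk p hp⟩
  have h12 : ∀ w ∈ L, w ≠ 0 → T.PS L ⊓ mp g (T.PS L) ⊔ T.PS (F ∙ w) = T.PS L := fun w hw hw0 => by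
    have e0 : T.PS (F ∙ w) ≤ T.PS L := T.PS_mono ((Submodule.span_singleton_le_iff_mem _ _).2 hw)
    refine Submodule.eq_of_le_of_finrank_le (sup_le inf_le_left e0) ?_
    have e1 := Submodule.finrank_mono (show perp B (mp g (T.PS L) ⊔ T.PS (F ∙ w)) ≤
      T.PS L ⊓ mp g (T.PS L) from fun p hp => by
        rw [perp_sup] at hp
        have e1 : p ∈ mp g (T.PS L) := by
          refine (Submodule.eq_of_le_of_finrank_le hP' ?_).ge hp.1
          have := T.h.finrank_add_finrank_perp (mp g (T.PS L))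
          rw [T.finrank_eq] at this
          rw [finrank_mp, T.finrank_PS, hL2, hn₁] at this ⊢
          omega
        exact ⟨n2 w hw hw0 p e1 (T.mem_perp_P.1 hp.2), e1⟩)
    have e2 := T.h.finrank_add_finrank_perp (mp g (T.PS L) ⊔ T.PS (F ∙ w))
    have e3 := Submodule.finrank_sup_add_finrank_inf_eq (mp g (T.PS L)) (T.PS (F ∙ w))
    have e4 := Submodule.finrank_sup_add_finrank_inf_eq (T.PS L ⊓ mp g (T.PS L)) (T.PS (F ∙ w))
    rw [inf_comm (T.PS L), inf_assoc, inf_eq_right.2 e0, inf_comm (mp g _) (T.PS L)] at e4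
    rw [finrank_mp] at e3
    rw [T.finrank_eq] at e2
    rw [T.finrank_PS, hL2] at e3 ⊢
    rw [T.finrank_P hw0] at e3 e4
    rw [hn₁, hn₂] at e2
    omega
  exact T.fix_of_fix2 c.bar hn₁ hL2 (c.le hk.1) h11 inf_le_left h12 (h10 _ hk)

end Ctx4

variable [FiniteDimensional F V₁] [FiniteDimensional F V₂] [FiniteDimensional F V]

theorem max_U24 {T : TStr 1 B₁ B₂ B} (hσ : IsBar q σ) (hq : 3 ≤ q) (h3 : finrank F V₁ = 2)
    (h4 : finrank F V₂ = 4) :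
    ¬ SUG B ≤ T.kron ∧ ∀ K, T.kron ⊓ SUG B ≤ K → K ≤ SUG B → K ≤ T.kron ∨ SUG B ≤ K := by
  have := hσ.finite
  have : Finite V := Module.finite_of_finite F
  have : Nontrivial V₁ := Module.nontrivial_of_finrank_pos (R := F) (by omega)
  have h := T.h.isHerm hσ
  have hI := T.h₂.iso3_herm hσ
  obtain ⟨u, u', w, w', hu, hu', hw0, hw0', hw, hw', huw⟩ := T.exists_pair hI (by omega)
  have h5 : 4 ≤ finrank F V := by rw [T.finrank_eq, h3, h4]; omega
  constructor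
  · intro hle
    obtain ⟨s, -, h1, h6⟩ := T.h₂.exists_line4 hσ h4.ge hw0
    obtain ⟨g, hg, γ, e⟩ := T.h.exists_isEich (T.B_P hw u) (a := T.t u s) (by simp [T.tt, h1])
    refine T.not_mem_kron (by omega) (by omega) hu hw0 h6 e (hle ?_)
    rw [e.eq (T.B_P hw u) (by simp [T.tt, h1]) (by simp [T.tt, T.h₂.swap h1])] at hg ⊢
    exact h.QE_le_SUG (T.t_ne_zero hu hw0) (T.B_P hw u) (h.eichler_mem_QE
      (h.gamma_eq_of_isEich (T.B_P hw u) (T.t_ne_zero hu hw0) (by simp [T.tt, h1]) hg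
        (isEich_eichler _ _ _ _ _ _)))
  intro K hK hKG
  have c : Ctx4 q T K := Amb.ctx4 ⟨SUG_le_UG, le_rfl, fun _ _ h => h, fun _ _ => T.h.unip_SUG _,
    fun _ _ => T.h.unip_SUG _⟩ hK hKG hσ h4.ge
  by_cases hR : ∀ β ∈ c.ring, ∃ a : F, ∀ v, β v = a • v
  · exact Or.inl (c.le_kron2 hR h3 h4)
  obtain ⟨e, he0, he⟩ := (T.h₁.isHerm hσ).exists_isotropic (by omega)
  obtain ⟨δ, hδ0, hδ⟩ := hσ.exists_skew
  obtain ⟨l, hl, hl0, hl1⟩ := hσ.exists_fixed_ne (by omega)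
  replace hR := T.h₁.top_of_trace c.alg he0 he hδ0 (by simp [hδ]) (Or.inl ⟨l * δ,
    mul_ne_zero hl0 hδ0, fun h => hl1 (mul_right_cancel₀ hδ0 (h.trans (one_mul δ).symm)),
    by simp [hδ, hl]⟩) hR
  exact Or.inr (h.SUG_le_of_QE_QE (T.B_P hw u) hσ h5 c.le (T.B_P hw' u') (by simp [huw])
    (h.QE_le_of_AE (T.B_P hw u) (by omega) c.le (T.t_ne_zero hu hw0)
      fun a ha => c.mem_AE hR hu hw0 hw ha)
    (h.QE_le_of_AE (T.B_P hw' u') (by omega) c.le (T.t_ne_zero hu' hw0')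
      fun a ha => c.mem_AE hR hu' hw0' hw' ha))

open Matrix Cfsg.Geo Cfsg.Lib.Asch Cfsg.Lib.Linear in
theorem isMaximalIn_unitary24 {n : ℕ} (hσ : IsBar q σ) (hq : 3 ≤ q) {e : Fin n ≃ Fin 2 × Fin 4}
    {P : GL (Fin n) F} {f₁ : (Fin 2 → F) → (Fin 2 → F) → F} {f₂ : (Fin 4 → F) → (Fin 4 → F) → F}
    (h₁ : IsUnitaryFormPow q f₁) (h₂ : IsUnitaryFormPow q f₂)
    (hT : IsTensorFormStructure (fun x : F => x ^ q) (hermForm n F q) f₁ f₂ e P) :
    IsMaximalIn (GU n F q ⊓ specialLinear (Fin n) F)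
      (tensorProductSubgroup 2 4 e P ⊓ (GU n F q ⊓ specialLinear (Fin n) F)) := by
  have : Nonempty (Fin n) := ⟨e.symm (0, 0)⟩
  have h₁' := sform_of_unitaryPow hσ h₁
  have h₂' := sform_of_unitaryPow hσ h₂
  rw [show (fun x : F => x ^ q) = σ from funext fun x => (hσ.eq x).symm] at hT
  obtain ⟨c, -, T, -, h3⟩ := exists_tstr hσ.isHerm.ef (fun u v => (hσ.hermForm_eq v u).symm) h₁' h₂'
    (Or.inl rfl)
    (fun c hc s => by
      simpa [eq_comm] using hσ.exists_trace_eq (s := c * f₁ s s)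
        (by rw [map_mul, hc, ← one_mul (σ _), ← h₁'.herm]))
    (fun s => by
      simpa [eq_comm] using hσ.exists_trace_eq (s := f₂ s s) (by rw [← one_mul (σ _), ← h₂'.herm]))
    hT
  obtain ⟨h4, h6⟩ := max_U24 (T := T) hσ hq (by simp) (by simp)
  exact hσ.isMaximalIn_of (fun g _ => h3 g) h4 h6

end Cfsg.Lib.TMax
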